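import Cfsg.Agent.H25.Codeg2
import Cfsg.Agent.S0188
import Cfsg.Agent.BlockLib.KG.EquivTr
import Cfsg.Agent.Lib.Helper23.MinMax

/-!
# Irreducible characters of `G = P C_G(P)`
-/

set_option autoImplicit false

namespace Cfsg.Agent.H25

open Cfsg Cfsg.Agent.BlockLib Cfsg.Agent.CharLib Cfsg.Agent.Lib.Helper23.MinMax
  Cfsg.Agent.Lib.Helper23
open scoped ComplexConjugate

universe u

variable {G : Type u} [Group G] [Fintype G] (P : Subgroup G)

local notation "C(" P ")" => Subgroup.centralizer (SetLike.coe P)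

omit [Fintype G] in
theorem commute_of_centralizer (u : P) (c : C(P)) : Commute (u : G) (c : G) :=
  (Subgroup.mem_centralizer_iff.1 c.2 u u.2)

/-- the multiplication map `P × C_G(P) → G` -/
noncomputable def prodHom : P × C(P) →* G :=
  MonoidHom.noncommCoprod P.subtype C(P).subtype (fun u c => commute_of_centralizer P u c)

omit [Fintype G] in
theorem prodHom_apply (x : P × C(P)) : prodHom P x = (x.1 : G) * (x.2 : G) := rfl

variable {P}

omit [Fintype G] in
theorem normal_of_sup_eq_top (hG : P ⊔ C(P) = ⊤) : P.Normal := by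
  rw [← Subgroup.normalizer_eq_top_iff, eq_top_iff, ← hG]
  exact sup_le Subgroup.le_normalizer (Subgroup.centralizer_le_normalizer _)

omit [Fintype G] in
theorem exists_mul_of_sup_eq_top (hG : P ⊔ C(P) = ⊤) (g : G) :
    ∃ (u : P) (c : C(P)), g = (u : G) * (c : G) := by
  have hn := normal_of_sup_eq_top hG
  have hg : g ∈ P ⊔ C(P) := by rw [hG]; trivial
  obtain ⟨u, hu, c, hc, rfl⟩ := Subgroup.mem_sup_of_normal_left.mp hg
  exact ⟨⟨u, hu⟩, ⟨c, hc⟩, rfl⟩

omit [Fintype G] in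
theorem prodHom_surjective (hG : P ⊔ C(P) = ⊤) : Function.Surjective (prodHom P) := by
  intro g
  obtain ⟨u, c, rfl⟩ := exists_mul_of_sup_eq_top hG g
  exact ⟨(u, c), rfl⟩

/-- every irreducible character of `G = P C_G(P)` is a product -/
theorem exists_factor (hG : P ⊔ C(P) = ⊤) (θ : IrrCharacter G) :
    ∃ (ζ : IrrCharacter P) (ψ : IrrCharacter C(P)), ∀ (u : P) (c : C(P)),
      (θ : G → ℂ) ((u : G) * (c : G)) = (ζ : P → ℂ) u * (ψ : C(P) → ℂ) c := by
  have h1 := isIrrCharacter_comp_of_surjective θ.2 (prodHom P) (prodHom_surjective hG)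
  obtain ⟨φ, ψ, hφ, hψ, h⟩ := (Cfsg.Agent.S0188.result _).1 h1
  exact ⟨⟨φ, hφ⟩, ⟨ψ, hψ⟩, fun u c => congrFun h (u, c)⟩

/-- a compatible pair of irreducible characters gives an irreducible character of `G` -/
theorem exists_of_compatible (hG : P ⊔ C(P) = ⊤) (ζ : IrrCharacter P) (ψ : IrrCharacter C(P))
    (hcomp : ∀ (u : P) (c : C(P)), (u : G) * (c : G) = 1 →
      (ζ : P → ℂ) u * (ψ : C(P) → ℂ) c = (ζ : P → ℂ) 1 * (ψ : C(P) → ℂ) 1) :
    ∃ θ : IrrCharacter G, ∀ (u : P) (c : C(P)),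
      (θ : G → ℂ) ((u : G) * (c : G)) = (ζ : P → ℂ) u * (ψ : C(P) → ℂ) c := by
  have hΘ : IsIrrCharacter (P × C(P)) (fun x => (ζ : P → ℂ) x.1 * (ψ : C(P) → ℂ) x.2) :=
    (Cfsg.Agent.S0188.result _).2 ⟨ζ, ψ, ζ.2, ψ.2, rfl⟩
  set Θ : IrrCharacter (P × C(P)) := ⟨_, hΘ⟩ with hΘdef
  have hker : (prodHom P).ker ≤ kerSub Θ := by
    intro x hx
    rw [mem_kerSub]
    exact hcomp x.1 x.2 (MonoidHom.mem_ker.1 hx)
  obtain ⟨χ', hχ'⟩ := exists_quotient_irr Θ (prodHom P).ker hker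
  let e := QuotientGroup.quotientKerEquivOfSurjective (prodHom P) (prodHom_surjective hG)
  refine ⟨mapIrr e χ', fun u c => ?_⟩
  rw [mapIrr_apply]
  have h1 : e.symm ((u : G) * (c : G)) = QuotientGroup.mk ((u, c) : P × C(P)) := by
    rw [MulEquiv.symm_apply_eq]
    rfl
  rw [h1, hχ']

end Cfsg.Agent.H25
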