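import Cfsg.Agent.H25.FongReynolds
import Cfsg.Agent.S0933
import Cfsg.Agent.S0964

/-!
# The Fong–Reynolds correspondence: character level
-/

set_option autoImplicit false

namespace Cfsg.Agent.H25

open Cfsg Cfsg.Agent.BlockLib Cfsg.Agent.CharLib

universe u

variable {M : Ideal AlgInt} {G : Type u} [Group G] [Fintype G]
variable {N T : Subgroup G} [hN : N.Normal] [Fintype N] [Fintype T]
variable {b : Set (IrrCharacter N)}

/-- `T` is the stabilizer of the block `b` of the normal subgroup `N`. -/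
def IsStab (T : Subgroup G) (b : Set (IrrCharacter N)) : Prop :=
  ∀ g : G, g ∈ T ↔ ∀ θ ∈ b, ∀ θ' : IrrCharacter N,
    (∀ n : N, (θ' : N → ℂ) n = (θ : N → ℂ) ⟨g * n * g⁻¹, hN.conj_mem n n.2 g⟩) → θ' ∈ b

/-- the block `B'` of `T ≥ N` covers `b` -/
def CoversLe (hNT : N ≤ T) (B' : Set (IrrCharacter T)) (b : Set (IrrCharacter N)) : Prop :=
  ∃ ψ ∈ B', ∃ θ ∈ b, classInner (fun n : N => (ψ : T → ℂ) ⟨(n : G), hNT n.2⟩) (θ : N → ℂ) ≠ 0

omit [Fintype N] [Fintype T] in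
theorem IsStab.iff_cj [M.IsPrime] (hT : IsStab T b) (hb : IsPBlock M b) (g : G) :
    g ∈ T ↔ CA.cj g (epsS M N b) = epsS M N b := by
  rw [hT g, cj_epsS_eq_iff hb g]

omit [Fintype T] [Fintype G] in
theorem IsStab.inertia_le [Finite G] [M.IsPrime] (hT : IsStab T b) (hb : IsPBlock M b)
    {θ : IrrCharacter N}
    (hθ : θ ∈ b) {g : G} (hg : H2.conjFun hN (θ : N → ℂ) g = θ) : g ∈ T := by
  rw [hT g]
  intro θ₁ hθ₁ θ' hθ'
  have hK : N = CA.cjs g⁻¹ N := (CA.cjs_eq_of_mem_normalizer (by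
    rw [Subgroup.normalizer_eq_top]; trivial)).symm
  have hb' := isPBlock_conjSet (M := M) hK hb
  have aux : ∀ (η η' : IrrCharacter N), η ∈ b →
      (∀ n : N, (η' : N → ℂ) n = (η : N → ℂ) ⟨g * n * g⁻¹, hN.conj_mem n n.2 g⟩) →
      η' ∈ conjSet N N g⁻¹ b := by
    intro η η' hη h
    refine ⟨η, hη, fun c c' hcc' => ?_⟩
    rw [h c']
    have e : (⟨g * (c' : G) * g⁻¹, hN.conj_mem c' c'.2 g⟩ : N) = c := by
      apply Subtype.ext
      simp [hcc', mul_assoc]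
    rw [e]
  have h1 : θ' ∈ conjSet N N g⁻¹ b := aux θ₁ θ' hθ₁ hθ'
  have h2 : θ ∈ conjSet N N g⁻¹ b := aux θ θ hθ (fun n => (congrFun hg n).symm)
  have h3 : conjSet N N g⁻¹ b = b := by
    by_contra hne
    exact Set.disjoint_left.mp (pb_disjoint_of_ne hb' hb hne) h2 hθ
  rwa [h3] at h1

section

variable [M.IsPrime] (hT : IsStab T b) (hb : IsPBlock M b) (hNT : N ≤ T)

include hT hb in
theorem CoversLe.mul_eq {B' : Set (IrrCharacter T)} (hB' : IsPBlock M B')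
    (hcov : CoversLe hNT B' b) : epsS M T B' * epsS M N b = epsS M T B' := by
  have h1 := mul_ne_zero_of_over hNT hB' hb hcov
  have hεc := mem_cen_of_stab hNT (isBlk_epsS hb) (hT.iff_cj hb)
  rcases (isBlk_epsS hB').prim _ hεc (isBlk_epsS hb).idem with h | h
  · exact h
  · exact absurd h h1

include hT hb in
theorem CoversLe.exists_over {B' : Set (IrrCharacter T)} (hB' : IsPBlock M B')
    (hcov : CoversLe hNT B' b) {ψ : IrrCharacter T} (hψ : ψ ∈ B') :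
    ∃ θ ∈ b, classInner (fun n : N => (ψ : T → ℂ) ⟨(n : G), hNT n.2⟩) (θ : N → ℂ) ≠ 0 := by
  obtain ⟨θ, hθ⟩ := exists_constituent_le hNT ψ
  refine ⟨θ, ?_, hθ⟩
  have hb₁ : IsPBlock M (blockOf M (θ : N → ℂ)) := ⟨θ, rfl⟩
  have h1 := mul_ne_zero_of_over hNT hB' hb₁ ⟨ψ, hψ, θ, mem_blockOf_self θ, hθ⟩
  rw [← hcov.mul_eq hT hb hNT hB', mul_assoc] at h1
  have h2 : epsS M N b * epsS M N (blockOf M (θ : N → ℂ)) ≠ 0 := right_ne_zero_of_mul h1
  have h3 := (isBlk_epsS hb).eq_of_mul_ne_zero (isBlk_epsS hb₁) h2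
  rw [epsS_injective hb hb₁ h3]
  exact mem_blockOf_self θ

include hT hb in
theorem CoversLe.irr_indFun {B' : Set (IrrCharacter T)} (hB' : IsPBlock M B')
    (hcov : CoversLe hNT B' b) {ψ : IrrCharacter T} (hψ : ψ ∈ B') :
    IsIrrCharacter G (indFun T (ψ : T → ℂ)) := by
  obtain ⟨θ, hθ, hc⟩ := hcov.exists_over hT hb hNT hB' hψ
  exact irr_indFun_of_over hN hNT θ.2 (fun g hg => hT.inertia_le hb hθ hg) ψ.2 hc

end

variable {p : ℕ} [Fact p.Prime] (hM : IsPModular p M) (hT : IsStab T b) (hb : IsPBlock M b)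
  (hNT : N ≤ T)

include hM hT hb in
theorem CoversLe.isInducedBlock {B' : Set (IrrCharacter T)} (hB' : IsPBlock M B')
    (hcov : CoversLe hNT B' b) {ψ : IrrCharacter T} (hψ : ψ ∈ B') :
    IsInducedBlock M T B' (blockOf M (indFun T (ψ : T → ℂ))) := by
  have := isPrime_of_isPModular hM
  have h1 := Cfsg.Agent.S0933.result p M hM T ψ (hcov.irr_indFun hT hb hNT hB' hψ)
  rwa [← pb_eq_blockOf hB' hψ] at h1

include hM hT hb in
theorem CoversLe.inj {B'₁ B'₂ : Set (IrrCharacter T)} (h₁ : IsPBlock M B'₁) (h₂ : IsPBlock M B'₂)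
    (c₁ : CoversLe hNT B'₁ b) (c₂ : CoversLe hNT B'₂ b) {B : Set (IrrCharacter G)}
    (i₁ : IsInducedBlock M T B'₁ B) (i₂ : IsInducedBlock M T B'₂ B) : B'₁ = B'₂ := by
  have := isPrime_of_isPModular hM
  apply epsS_injective h₁ h₂
  apply eq_of_lam_trunc_eq hNT (isBlk_epsS hb) (hT.iff_cj hb) (isBlk_epsS h₁) (isBlk_epsS h₂)
    (c₁.mul_eq hT hb hNT h₁) (c₂.mul_eq hT hb hNT h₂)
  rw [lam_trunc_of_isInducedBlock i₁ (conjSum_mem_cen _),
    lam_trunc_of_isInducedBlock i₂ (conjSum_mem_cen _)]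

include hM hb in
omit [Fintype T] in
/-- every member of a block of `G` covering `b` lies over a member of `b` -/
theorem Covers.exists_over {B : Set (IrrCharacter G)} (hB : IsPBlock M B) (hcov : Covers B b)
    {χ : IrrCharacter G} (hχ : χ ∈ B) :
    ∃ θ ∈ b, classInner (fun n : N => (χ : G → ℂ) n) (θ : N → ℂ) ≠ 0 := by
  obtain ⟨χ₀, hχ₀, θ₀, hθ₀, hc₀⟩ := hcov
  obtain ⟨η, hη⟩ := exists_constituent (N := N) χ
  obtain ⟨g, θ', hθ', h⟩ := Cfsg.Agent.S0964.result p M hM N B hB b hb χ₀ hχ₀ θ₀ hθ₀ hc₀ χ hχ η hη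
  refine ⟨θ', hθ', ?_⟩
  have e : (η : N → ℂ) = H2.conjFun hN (θ' : N → ℂ) g := funext h
  rw [e, H2.classInner_restrict_conjFun hN (isClassFunction_of_irr χ.2)] at hη
  exact hη

include hM hT hb in
/-- every member of a block of `G` covering `b` is induced from a block of `T` covering `b` -/
theorem Covers.exists_indFun {B : Set (IrrCharacter G)} (hB : IsPBlock M B) (hcov : Covers B b)
    {χ : IrrCharacter G} (hχ : χ ∈ B) :
    ∃ ψ : IrrCharacter T, CoversLe hNT (blockOf M (ψ : T → ℂ)) b ∧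
      (χ : G → ℂ) = indFun T (ψ : T → ℂ) ∧ IsInducedBlock M T (blockOf M (ψ : T → ℂ)) B := by
  have := isPrime_of_isPModular hM
  obtain ⟨θ, hθ, hc⟩ := hcov.exists_over hM hb hB hχ
  obtain ⟨ψ, h1, h2⟩ := exists_over_indFun_eq hN hNT θ.2
    (fun g hg => hT.inertia_le hb hθ hg) χ.2 hc
  have hcov' : CoversLe hNT (blockOf M (ψ : T → ℂ)) b := ⟨ψ, mem_blockOf_self ψ, θ, hθ, h1⟩
  refine ⟨ψ, hcov', h2, ?_⟩
  have h3 := hcov'.isInducedBlock hM hT hb hNT ⟨ψ, rfl⟩ (mem_blockOf_self ψ)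
  rwa [← h2, ← pb_eq_blockOf hB hχ] at h3

include hM hT hb in
theorem CoversLe.covers {B' : Set (IrrCharacter T)} (hB' : IsPBlock M B')
    (hcov : CoversLe hNT B' b) {B : Set (IrrCharacter G)} (hind : IsInducedBlock M T B' B) :
    Covers B b := by
  have := isPrime_of_isPModular hM
  obtain ⟨ψ, hψ, θ, hθ, hc⟩ := hcov
  have hcov : CoversLe hNT B' b := ⟨ψ, hψ, θ, hθ, hc⟩
  have hirr := hcov.irr_indFun hT hb hNT hB' hψ
  have h1 := hcov.isInducedBlock hM hT hb hNT hB' hψ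
  have h2 : B = blockOf M (indFun T (ψ : T → ℂ)) := isInducedBlock_unique hind h1
  refine ⟨⟨_, hirr⟩, by rw [h2]; exact mem_blockOf_self ⟨_, hirr⟩, θ, hθ, ?_⟩
  apply over_of_constituent hNT θ.2 (isCharacter_of_irr hirr) (ψ := ψ) _ hc
  have h3 := H2.frobenius_reciprocity T (ψ : T → ℂ) (isClassFunction_of_irr hirr)
  rw [classInner_irr_self hirr] at h3
  rw [← classInner_conj_symm, ← h3]
  simp

include hM hT hb in
theorem CoversLe.mem_iff {B' : Set (IrrCharacter T)} (hB' : IsPBlock M B')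
    (hcov : CoversLe hNT B' b) {B : Set (IrrCharacter G)} (hind : IsInducedBlock M T B' B)
    (χ : IrrCharacter G) : χ ∈ B ↔ ∃ ψ ∈ B', (χ : G → ℂ) = indFun T (ψ : T → ℂ) := by
  have := isPrime_of_isPModular hM
  constructor
  · intro hχ
    obtain ⟨ψ, h1, h2, h3⟩ := (hcov.covers hM hT hb hNT hB' hind).exists_indFun hM hT hb hNT
      hind.2.1 hχ
    have h4 := CoversLe.inj hM hT hb hNT ⟨ψ, rfl⟩ hB' h1 hcov h3 hind
    exact ⟨ψ, by rw [← h4]; exact mem_blockOf_self ψ, h2⟩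
  · rintro ⟨ψ, hψ, h⟩
    have h1 := hcov.isInducedBlock hM hT hb hNT hB' hψ
    rw [isInducedBlock_unique hind h1, ← h]
    exact mem_blockOf_self χ

end Cfsg.Agent.H25
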