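import Cfsg.Agent.H25.CentralProd
import Cfsg.Agent.H25.CentralDefect3
import Cfsg.Agent.H25.FongReynolds2
import Cfsg.Agent.S0966
import Cfsg.Agent.S0970

/-!
# Blocks of `G = P C_G(P)` with defect group `P`
-/

set_option autoImplicit false

namespace Cfsg.Agent.H25

open Cfsg Cfsg.Agent.BlockLib Cfsg.Agent.CharLib Cfsg.Agent.Lib.Helper23.MinMax
  Cfsg.Agent.Lib.Helper23
open scoped ComplexConjugate

universe u

variable {G : Type u} [Group G] [Fintype G] {P : Subgroup G}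

local notation "C(" P ")" => Subgroup.centralizer (SetLike.coe P)

/-- the subgroup `Z(P) = P ∩ C_G(P)` of `C_G(P)` -/
abbrev zSub (P : Subgroup G) : Subgroup C(P) := (P ⊓ C(P)).subgroupOf C(P)

omit [Fintype G] in
theorem mem_zSub {c : C(P)} : c ∈ zSub P ↔ (c : G) ∈ P := by
  rw [Subgroup.mem_subgroupOf, Subgroup.mem_inf]
  exact ⟨fun h => h.1, fun h => ⟨h, c.2⟩⟩

omit [Fintype G] in
theorem zSub_le_center : zSub P ≤ Subgroup.center C(P) := by
  intro c hc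
  rw [Subgroup.mem_center_iff]
  intro d
  apply Subtype.ext
  exact (Subgroup.mem_centralizer_iff.1 d.2 c (mem_zSub.1 hc)).symm

omit [Fintype G] in
theorem index_centralizer_pow {p : ℕ} [Fact p.Prime] [Finite G] (hP : IsPGroup p P)
    (hG : P ⊔ C(P) = ⊤) : ∃ k : ℕ, C(P).index = p ^ k := by
  have hn := normal_of_sup_eq_top hG
  have h1 : C(P).relIndex (P ⊔ C(P)) = C(P).relIndex P := Subgroup.relIndex_sup_right _ _
  rw [hG, Subgroup.relIndex_top_right] at h1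
  obtain ⟨n, hn'⟩ := IsPGroup.iff_card.mp hP
  have h2 : C(P).relIndex P ∣ p ^ n := by rw [← hn']; exact Subgroup.index_dvd_card _
  obtain ⟨k, -, hk⟩ := (Nat.dvd_prime_pow Fact.out).1 h2
  exact ⟨k, by rw [h1, hk]⟩

omit [Fintype G] in
theorem index_zSub [Finite G] (hG : P ⊔ C(P) = ⊤) : (zSub P).index = P.index := by
  have hn := normal_of_sup_eq_top hG
  have h1 : P.relIndex (C(P) ⊔ P) = P.relIndex C(P) := Subgroup.relIndex_sup_right _ _
  rw [sup_comm, hG, Subgroup.relIndex_top_right] at h1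
  rw [h1, ← Subgroup.inf_relIndex_right]
  rfl

omit [Fintype G] in
theorem conj_invariant (hG : P ⊔ C(P) = ⊤) [hN : C(P).Normal] {θ : C(P) → ℂ}
    (hθ : IsClassFunction C(P) θ) (g : G) (n : C(P)) :
    θ ⟨g * n * g⁻¹, hN.conj_mem n n.2 g⟩ = θ n := by
  obtain ⟨u, c, rfl⟩ := exists_mul_of_sup_eq_top hG g
  have h1 : (⟨(u : G) * c * n * ((u : G) * c)⁻¹, hN.conj_mem n n.2 _⟩ : C(P)) = c * n * c⁻¹ := by
    apply Subtype.ext
    have h2 := commute_of_centralizer P u (c * n * c⁻¹)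
    simp only [Subgroup.coe_mul, Subgroup.coe_inv] at h2 ⊢
    calc (u : G) * c * n * ((u : G) * c)⁻¹ = (u : G) * ((c : G) * n * (c : G)⁻¹) * (u : G)⁻¹ := by
          group
      _ = (c : G) * n * (c : G)⁻¹ := by rw [h2.eq, mul_inv_cancel_right]
  rw [h1, hθ]

/-- the two factors agree on `Z(P)` -/
def Compat (ζ : IrrCharacter P) (ψ : IrrCharacter C(P)) : Prop :=
  ∀ (u : P) (c : C(P)), (u : G) = c →
    (ζ : P → ℂ) u * (ψ : C(P) → ℂ) 1 = (ζ : P → ℂ) 1 * (ψ : C(P) → ℂ) c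

/-- `θ` is the product of `ζ` and `ψ` -/
def IsProd (θ : IrrCharacter G) (ζ : IrrCharacter P) (ψ : IrrCharacter C(P)) : Prop :=
  ∀ (u : P) (c : C(P)), (θ : G → ℂ) ((u : G) * (c : G)) = (ζ : P → ℂ) u * (ψ : C(P) → ℂ) c

omit [Fintype G] in
theorem IsProd.compat {θ : IrrCharacter G} {ζ : IrrCharacter P} {ψ : IrrCharacter C(P)}
    (h : IsProd θ ζ ψ) : Compat ζ ψ := by
  intro u c huc
  have h1 := h u 1
  have h2 := h 1 c
  simp only [OneMemClass.coe_one, mul_one, one_mul] at h1 h2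
  rw [← h1, ← h2, huc]

omit [Fintype G] in
theorem IsProd.res {θ : IrrCharacter G} {ζ : IrrCharacter P} {ψ : IrrCharacter C(P)}
    (h : IsProd θ ζ ψ) : (fun c : C(P) => (θ : G → ℂ) c) = (ζ : P → ℂ) 1 • (ψ : C(P) → ℂ) := by
  funext c
  have h2 := h 1 c
  simp only [OneMemClass.coe_one, one_mul] at h2
  rw [h2]; rfl

omit [Fintype G] in
theorem IsProd.ext (hG : P ⊔ C(P) = ⊤) {θ θ' : IrrCharacter G} {ζ : IrrCharacter P}
    {ψ : IrrCharacter C(P)} (h : IsProd θ ζ ψ) (h' : IsProd θ' ζ ψ) : θ = θ' := by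
  apply Subtype.ext
  funext g
  obtain ⟨u, c, rfl⟩ := exists_mul_of_sup_eq_top hG g
  rw [h, h']

theorem Compat.exists_isProd (hG : P ⊔ C(P) = ⊤) {ζ : IrrCharacter P} {ψ : IrrCharacter C(P)}
    (h : Compat ζ ψ) : ∃ θ : IrrCharacter G, IsProd θ ζ ψ := by
  have : Fintype C(P) := Fintype.ofFinite _
  apply exists_of_compatible hG
  intro u c huc
  have hc : (u : G) = (c⁻¹ : C(P)) := by
    rw [Subgroup.coe_inv]; exact eq_inv_of_mul_eq_one_left huc
  have h1 := h u c⁻¹ hc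
  have hcz : c⁻¹ ∈ Subgroup.center C(P) := zSub_le_center (mem_zSub.2 (by rw [← hc]; exact u.2))
  have h2 := irr_central_mul ψ.2 hcz 1
  rw [mul_one] at h2
  have h3 : (ψ : C(P) → ℂ) c = conj ((ψ : C(P) → ℂ) c⁻¹) := by
    rw [← isCharacter_inv (isCharacter_of_irr ψ.2), inv_inv]
  have h4 := normSq_centralChar_of_central ψ hcz
  have hψ1 := irr_apply_one_ne_zero ψ
  have h5 : (ζ : P → ℂ) u = (ζ : P → ℂ) 1 * centralChar (ψ : C(P) → ℂ) c⁻¹ := by
    apply mul_right_cancel₀ hψ1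
    rw [h1, h2]; ring
  rw [h5, h3, h2, map_mul, conj_apply_one]
  have h6 : centralChar (ψ : C(P) → ℂ) c⁻¹ * conj (centralChar (ψ : C(P) → ℂ) c⁻¹) = 1 := by
    rw [Complex.mul_conj, h4]; simp
  calc (ζ : P → ℂ) 1 * centralChar (ψ : C(P) → ℂ) c⁻¹ *
        (conj (centralChar (ψ : C(P) → ℂ) c⁻¹) * (ψ : C(P) → ℂ) 1)
      = (ζ : P → ℂ) 1 * (centralChar (ψ : C(P) → ℂ) c⁻¹ *
        conj (centralChar (ψ : C(P) → ℂ) c⁻¹)) * (ψ : C(P) → ℂ) 1 := by ring
    _ = _ := by rw [h6, mul_one]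

end Cfsg.Agent.H25
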