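import Cfsg.Agent.H25.CentralProd2

/-!
# Blocks of `G = P C_G(P)` with defect group `P`: the structure theorem
-/

set_option autoImplicit false

namespace Cfsg.Agent.H25

open Cfsg Cfsg.Agent.BlockLib Cfsg.Agent.CharLib Cfsg.Agent.Lib.Helper23.MinMax
  Cfsg.Agent.Lib.Helper23
open scoped ComplexConjugate

universe u

variable {G : Type u} [Group G] [Fintype G] {P : Subgroup G}

local notation "C(" P ")" => Subgroup.centralizer (SetLike.coe P)

/-- the block `b` of `C_G(P)` covered by `B` and its properties -/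
structure CPData (M : Ideal AlgInt) (p : ℕ) (P : Subgroup G) (B : Set (IrrCharacter G))
    (b : Set (IrrCharacter C(P))) : Prop where
  hb : IsPBlock M b
  defect : IsDefectGroup p M b (zSub P)
  mem_iff : ∀ (θ : IrrCharacter G) (ζ : IrrCharacter P) (ψ : IrrCharacter C(P)),
    IsProd θ ζ ψ → (θ ∈ B ↔ ψ ∈ b)

variable {M : Ideal AlgInt} {p : ℕ} [Fact p.Prime]

theorem exists_cpdata (hM : IsPModular p M) (hP : IsPGroup p P) (hG : P ⊔ C(P) = ⊤)
    {B : Set (IrrCharacter G)} (hB : IsPBlock M B) (hD : IsDefectGroup p M B P) :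
    ∃ b, CPData M p P B b := by
  classical
  have := isPrime_of_isPModular hM
  have hn := normal_of_sup_eq_top hG
  have hCn : C(P).Normal := inferInstance
  have : Fintype C(P) := Fintype.ofFinite _
  obtain ⟨χ, hχ⟩ := pb_nonempty hB
  obtain ⟨ψ₀, hψ₀⟩ := exists_constituent (N := C(P)) χ
  have hb : IsPBlock M (blockOf M (ψ₀ : C(P) → ℂ)) := ⟨ψ₀, rfl⟩
  set b := blockOf M (ψ₀ : C(P) → ℂ) with hbdef
  have cov : Covers B b := ⟨χ, hχ, ψ₀, mem_blockOf_self ψ₀, hψ₀⟩
  obtain ⟨B₀, -, huniq⟩ := Cfsg.Agent.S0966.result p M hM C(P) (index_centralizer_pow hP hG) b hb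
  have uniq : ∀ B' : Set (IrrCharacter G), IsPBlock M B' → Covers B' b → B' = B := by
    intro B' hB' hc
    rw [huniq B' ⟨hB', hc⟩, huniq B ⟨hB, cov⟩]
  have hinv : ∀ g : G, ∀ θ ∈ b, ∀ θ' : IrrCharacter C(P),
      (∀ n : C(P), (θ' : C(P) → ℂ) n = (θ : C(P) → ℂ) ⟨g * n * g⁻¹, hCn.conj_mem n n.2 g⟩) →
      θ' ∈ b := by
    intro g θ hθ θ' h
    have : θ' = θ := by
      apply Subtype.ext
      funext n
      rw [h n, conj_invariant hG (isClassFunction_of_irr θ.2)]
    rw [this]; exact hθ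
  have key := Cfsg.Agent.S0970.result p M hM C(P) b hb hinv B hB cov
    (fun B' hB' hc => by rw [uniq B' hB' hc]) P hD
  refine ⟨b, hb, key.2.1, fun θ ζ ψ h => ?_⟩
  have hζ1 := irr_apply_one_ne_zero ζ
  constructor
  · intro hθ
    obtain ⟨ψ', hψ', hc⟩ := cov.exists_over hM hb hB hθ
    rw [h.res, classInner_smul_left] at hc
    have h1 : classInner (ψ : C(P) → ℂ) (ψ' : C(P) → ℂ) ≠ 0 := right_ne_zero_of_mul hc
    have h2 : ψ = ψ' := by
      by_contra hne
      exact h1 (classInner_irr_ne ψ.2 ψ'.2 (fun e => hne (Subtype.ext e)))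
    rw [h2]; exact hψ'
  · intro hψ
    have hc : Covers (blockOf M (θ : G → ℂ)) b := by
      refine ⟨θ, mem_blockOf_self θ, ψ, hψ, ?_⟩
      rw [h.res, classInner_smul_left, classInner_irr_self ψ.2, mul_one]
      exact hζ1
    rw [← uniq _ ⟨θ, rfl⟩ hc]
    exact mem_blockOf_self θ

section

variable (hM : IsPModular p M) (hG : P ⊔ C(P) = ⊤) {B : Set (IrrCharacter G)}
  {b : Set (IrrCharacter C(P))} (hdata : CPData M p P B b)

include hM hdata in
/-- two members of `b` compatible with the same `ζ` are equal -/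
theorem CPData.eq_of_compat {ζ : IrrCharacter P} {ψ ψ' : IrrCharacter C(P)} (hψ : ψ ∈ b)
    (hψ' : ψ' ∈ b) (h : Compat ζ ψ) (h' : Compat ζ ψ') : ψ = ψ' := by
  have : Fintype C(P) := Fintype.ofFinite _
  apply cd_eq_of_central hM hdata.hb hdata.defect zSub_le_center hψ hψ'
  apply Subtype.ext
  funext z
  have hzP : ((z : C(P)) : G) ∈ P := mem_zSub.1 z.2
  have h1 := h ⟨_, hzP⟩ z rfl
  have h2 := h' ⟨_, hzP⟩ z rfl
  rw [apply_central ψ zSub_le_center z] at h1
  rw [apply_central ψ' zSub_le_center z] at h2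
  have a1 := irr_apply_one_ne_zero ψ
  have a2 := irr_apply_one_ne_zero ψ'
  have a3 := irr_apply_one_ne_zero ζ
  have e1 : (ζ : P → ℂ) ⟨_, hzP⟩ = (ζ : P → ℂ) 1 * (centralIrr ψ zSub_le_center : zSub P → ℂ) z := by
    apply mul_right_cancel₀ a1
    rw [h1]; ring
  have e2 : (ζ : P → ℂ) ⟨_, hzP⟩ = (ζ : P → ℂ) 1 * (centralIrr ψ' zSub_le_center : zSub P → ℂ) z := by
    apply mul_right_cancel₀ a2
    rw [h2]; ring
  exact mul_left_cancel₀ a3 (e1.symm.trans e2)

include hM hdata in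
/-- every `ζ` has a compatible member of `b` -/
theorem CPData.exists_compat (ζ : IrrCharacter P) : ∃ ψ ∈ b, Compat ζ ψ := by
  have : Fintype C(P) := Fintype.ofFinite _
  have : Fintype P := Fintype.ofFinite _
  -- the central subgroup of `P`
  have hZP : (P ⊓ C(P)).subgroupOf P ≤ Subgroup.center P := by
    intro u hu
    rw [Subgroup.mem_center_iff]
    intro v
    apply Subtype.ext
    have h1 : (u : G) ∈ C(P) := (Subgroup.mem_inf.1 (Subgroup.mem_subgroupOf.1 hu)).2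
    exact (Subgroup.mem_centralizer_iff.1 h1 v v.2)
  let ι : zSub P →* (P ⊓ C(P)).subgroupOf P :=
    { toFun := fun z => ⟨⟨((z : C(P)) : G), mem_zSub.1 z.2⟩,
        Subgroup.mem_subgroupOf.2 (Subgroup.mem_inf.2 ⟨mem_zSub.1 z.2, (z : C(P)).2⟩)⟩
      map_one' := rfl
      map_mul' := fun _ _ => rfl }
  let μ : IrrCharacter (zSub P) :=
    ⟨_, isIrrCharacter_of_hom ((centralHom ζ hZP).comp ι)⟩
  obtain ⟨ψ, hψ, hμ⟩ := cd_exists hM hdata.hb hdata.defect zSub_le_center μ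
  refine ⟨ψ, hψ, fun u c huc => ?_⟩
  have hcz : c ∈ zSub P := mem_zSub.2 (by rw [← huc]; exact u.2)
  have h1 := apply_central ψ zSub_le_center ⟨c, hcz⟩
  rw [hμ] at h1
  have h2 : (μ : zSub P → ℂ) ⟨c, hcz⟩ = centralChar (ζ : P → ℂ) u := by
    change ((centralHom ζ hZP (ι ⟨c, hcz⟩) : ℂˣ) : ℂ) = _
    rw [centralHom_apply]
    congr 1
    exact Subtype.ext huc.symm
  have huz : u ∈ Subgroup.center P := by
    apply hZP
    rw [Subgroup.mem_subgroupOf, Subgroup.mem_inf]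
    exact ⟨u.2, by rw [huc]; exact c.2⟩
  have h3 := irr_central_mul ζ.2 huz 1
  rw [mul_one] at h3
  change (ψ : C(P) → ℂ) c = _ at h1
  rw [h1, h2, h3]
  ring

end

end Cfsg.Agent.H25
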