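import Cfsg.Agent.H25.CentralProd3

/-!
# Blocks of `G = P C_G(P)` with defect group `P`: parametrisation by `Irr(P)`
-/

set_option autoImplicit false

namespace Cfsg.Agent.H25

open Cfsg Cfsg.Agent.BlockLib Cfsg.Agent.CharLib Cfsg.Agent.Lib.Helper23.MinMax
  Cfsg.Agent.Lib.Helper23
open scoped ComplexConjugate

universe u

variable {G : Type u} [Group G] [Fintype G] {P : Subgroup G}

local notation "C(" P ")" => Subgroup.centralizer (SetLike.coe P)

variable {M : Ideal AlgInt} {p : ℕ} [Fact p.Prime]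

omit [Fintype G] in
theorem IsProd.zeta_unique [Finite G] {θ : IrrCharacter G} {ζ ζ' : IrrCharacter P}
    {ψ ψ' : IrrCharacter C(P)} (h : IsProd θ ζ ψ) (h' : IsProd θ ζ' ψ') : ζ = ζ' := by
  have : Fintype P := Fintype.ofFinite _
  by_contra hne
  have h0 := classInner_irr_ne ζ.2 ζ'.2 (fun e => hne (Subtype.ext e))
  have a1 := irr_apply_one_ne_zero ψ
  have a2 := irr_apply_one_ne_zero ψ'
  have h1 : (ζ : P → ℂ) = ((ψ' : C(P) → ℂ) 1 / (ψ : C(P) → ℂ) 1) • (ζ' : P → ℂ) := by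
    funext u
    have e1 := h u 1
    have e2 := h' u 1
    rw [e1] at e2
    simp only [Pi.smul_apply, smul_eq_mul]
    field_simp
    rw [e2]; ring
  rw [h1, classInner_smul_left, classInner_irr_self ζ'.2, mul_one] at h0
  exact div_ne_zero a2 a1 h0

omit [Fintype G] in
theorem IsProd.apply_one {θ : IrrCharacter G} {ζ : IrrCharacter P}
    {ψ : IrrCharacter C(P)} (h : IsProd θ ζ ψ) :
    (θ : G → ℂ) 1 = (ζ : P → ℂ) 1 * (ψ : C(P) → ℂ) 1 := by
  have := h 1 1
  simpa using this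

omit [Fintype G] in
theorem IsProd.charDegree {θ : IrrCharacter G} {ζ : IrrCharacter P}
    {ψ : IrrCharacter C(P)} (h : IsProd θ ζ ψ) :
    charDegree (θ : G → ℂ) = charDegree (ζ : P → ℂ) * charDegree (ψ : C(P) → ℂ) := by
  have h1 := h.apply_one
  rw [charDegree_irr, charDegree_irr, charDegree_irr] at h1
  exact_mod_cast h1

section

variable (hM : IsPModular p M) (hG : P ⊔ C(P) = ⊤) {B : Set (IrrCharacter G)}
  {b : Set (IrrCharacter C(P))} (hdata : CPData M p P B b)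

include hM hG hdata in
theorem CPData.exists_theta (ζ : IrrCharacter P) :
    ∃ θ ∈ B, ∃ ψ ∈ b, IsProd θ ζ ψ := by
  obtain ⟨ψ, hψ, hc⟩ := hdata.exists_compat hM ζ
  obtain ⟨θ, hθ⟩ := hc.exists_isProd hG
  exact ⟨θ, (hdata.mem_iff θ ζ ψ hθ).2 hψ, ψ, hψ, hθ⟩

include hM hG hdata in
theorem CPData.theta_unique {ζ : IrrCharacter P} {θ θ' : IrrCharacter G}
    {ψ ψ' : IrrCharacter C(P)} (hθ : θ ∈ B) (hθ' : θ' ∈ B) (h : IsProd θ ζ ψ)
    (h' : IsProd θ' ζ ψ') : θ = θ' := by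
  have e := hdata.eq_of_compat hM ((hdata.mem_iff _ _ _ h).1 hθ) ((hdata.mem_iff _ _ _ h').1 hθ')
    h.compat h'.compat
  subst e
  exact h.ext hG h'

include hM hG hdata in
theorem CPData.card : Nat.card B = Nat.card (IrrCharacter P) := by
  classical
  choose f hfB g hgb hf using hdata.exists_theta hM hG
  symm
  apply Nat.card_congr
  refine Equiv.ofBijective (fun ζ => (⟨f ζ, hfB ζ⟩ : B)) ⟨?_, ?_⟩
  · intro ζ ζ' h
    have h1 : f ζ = f ζ' := congrArg Subtype.val h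
    have h2 := hf ζ
    rw [h1] at h2
    exact h2.zeta_unique (hf ζ')
  · rintro ⟨θ, hθ⟩
    obtain ⟨ζ, ψ, h⟩ := exists_factor hG θ
    exact ⟨ζ, Subtype.ext (hdata.theta_unique hM hG (hfB ζ) hθ (hf ζ) h)⟩

include hM hdata in
theorem CPData.factorization_deg {ψ : IrrCharacter C(P)} (hψ : ψ ∈ b) (hG : P ⊔ C(P) = ⊤) :
    (charDegree (ψ : C(P) → ℂ)).factorization p = P.index.factorization p := by
  have : Fintype C(P) := Fintype.ofFinite _
  rw [cd_deg hM hdata.hb hdata.defect zSub_le_center hψ, index_zSub hG]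

end

/-- if `θ` is constant on `P` then its `P`-factor is trivial -/
theorem IsProd.zeta_eq_triv {θ : IrrCharacter G} {ζ : IrrCharacter P}
    {ψ : IrrCharacter C(P)} (h : IsProd θ ζ ψ) (hθ : ∀ x ∈ P, (θ : G → ℂ) x = (θ : G → ℂ) 1) :
    ζ = trivIrr P := by
  apply Subtype.ext
  apply eq_one_of_kerSub_eq_top
  rw [eq_top_iff]
  intro u _
  rw [mem_kerSub]
  have h1 := h u 1
  have h2 := h 1 1
  simp only [OneMemClass.coe_one, mul_one] at h1 h2
  rw [hθ u u.2, h2] at h1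
  exact (mul_right_cancel₀ (irr_apply_one_ne_zero ψ) h1).symm

end Cfsg.Agent.H25
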