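import Cfsg.Agent.Lib.Helper10.CliffCorr
import Cfsg.Agent.H6.CliffCorr

/-!
# Clifford correspondence for subgroups containing the inertia group
-/

set_option autoImplicit false

namespace Cfsg.Agent.H25

open Cfsg Cfsg.Agent.CharLib Cfsg.Agent.CharLib.H2 Cfsg.Agent.Lib.Helper10
open scoped ComplexConjugate

universe u

variable {G : Type u} [Group G] [Fintype G]

theorem clifford_corr_ge (H T : Subgroup G) (hN : H.Normal) [Fintype T] (θ : H → ℂ)
    (hθ : IsIrrCharacter H θ) (hT : ∀ g : G, H2.conjFun hN θ g = θ → g ∈ T) (hHT : H ≤ T)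
    (ψ ψ' : T → ℂ) (hψ : IsIrrCharacter T ψ) (hψ' : IsIrrCharacter T ψ')
    (hc : classInner (indFun (H.subgroupOf T) (resSub H T θ)) ψ ≠ 0)
    (hc' : classInner (indFun (H.subgroupOf T) (resSub H T θ)) ψ' ≠ 0) :
    IsIrrCharacter G (indFun T ψ) ∧ (ψ ≠ ψ' → classInner (indFun T ψ) (indFun T ψ') = 0) := by
  classical
  have : Fintype H := Fintype.ofFinite H
  have : Fintype (H.subgroupOf T) := Fintype.ofFinite _
  have hN' : (H.subgroupOf T).Normal := inferInstance
  have hθ' := isIrrCharacter_resSub hHT hθ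
  set Θ := indFun (H.subgroupOf T) (resSub H T θ) with hΘ
  have hΘc : IsCharacter T Θ := isCharacter_indFun _ (isCharacter_of_irr hθ')
  obtain ⟨m, hm⟩ := isCharacter_iff.mp hΘc
  have hmc : ∀ χ : IrrCharacter T, classInner Θ χ = m χ := by
    intro χ
    rw [hm]
    exact classInner_sum_smul_irr (fun χ => (m χ : ℂ)) χ
  -- norms
  have hcard : Nat.card (H.subgroupOf T) = Nat.card H :=
    Nat.card_congr (Subgroup.subgroupOfEquivOfLe hHT).toEquiv
  have hn1 := card_mul_norm_indFun hN hθ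
  have hn2 : (Nat.card H : ℂ) * classInner Θ Θ =
      (Nat.card {g : G // H2.conjFun hN θ g = θ} : ℂ) := by
    rw [← hcard, card_mul_norm_indFun hN' hθ']
    congr 1
    apply Nat.card_congr
    refine ⟨fun t => ⟨(t.1 : G), ?_⟩, fun g => ⟨⟨g.1, hT g.1 g.2⟩, ?_⟩, fun t => rfl, fun g => rfl⟩
    · funext n
      have := congrFun t.2 ⟨⟨(n : G), hHT n.2⟩, Subgroup.mem_subgroupOf.mpr n.2⟩
      exact this
    · funext x
      have := congrFun g.2 ⟨(x : T), Subgroup.mem_subgroupOf.mp x.2⟩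
      exact this
  have hH0 : (Nat.card H : ℂ) ≠ 0 := card_subgroup_ne_zero H
  have hn3 : classInner (indFun H θ) (indFun H θ) = classInner Θ Θ :=
    mul_left_cancel₀ hH0 (hn1.trans hn2.symm)
  -- expansions
  have htr : indFun T Θ = indFun H θ := indFun_trans H T hHT θ
  have hexp : indFun H θ = ∑ χ : IrrCharacter T, (m χ : ℂ) • indFun T (χ : T → ℂ) := by
    rw [← htr]
    conv_lhs => rw [hm]
    rw [indFun_sum]
    refine Finset.sum_congr rfl fun χ _ => ?_
    rw [indFun_smul]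
  have hnat : ∀ χ χ' : IrrCharacter T, ∃ n : ℕ,
      classInner (indFun T (χ : T → ℂ)) (indFun T (χ' : T → ℂ)) = n := fun χ χ' =>
    classInner_char_nat (isCharacter_indFun _ (isCharacter_of_irr χ.2))
      (isCharacter_indFun _ (isCharacter_of_irr χ'.2))
  choose a ha using hnat
  have ha1 : ∀ χ, 1 ≤ a χ χ := by
    intro χ
    rw [Nat.one_le_iff_ne_zero]
    intro h0
    have := ha χ χ
    rw [h0, Nat.cast_zero] at this
    exact indFun_irr_ne_zero T χ.2 (classInner_self_eq_zero this)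
  have hsum : ∑ χ : IrrCharacter T, ∑ χ' : IrrCharacter T, m χ * m χ' * a χ χ' =
      ∑ χ : IrrCharacter T, m χ * m χ := by
    have e1 : classInner (indFun H θ) (indFun H θ) =
        ((∑ χ : IrrCharacter T, ∑ χ' : IrrCharacter T, m χ * m χ' * a χ χ' : ℕ) : ℂ) := by
      rw [hexp, classInner_sum_left]
      push_cast
      refine Finset.sum_congr rfl fun χ _ => ?_
      rw [classInner_sum_right]
      refine Finset.sum_congr rfl fun χ' _ => ?_
      rw [classInner_smul_left, classInner_smul_right, ha]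
      simp
      ring
    have e2 : classInner Θ Θ = ((∑ χ : IrrCharacter T, m χ * m χ : ℕ) : ℂ) := by
      conv_lhs => rw [hm]
      rw [classInner_sum_sum]
      push_cast
      refine Finset.sum_congr rfl fun χ _ => ?_
      simp
    rw [e1, e2] at hn3
    exact_mod_cast hn3
  have key := nat_double_sum m a ha1 hsum
  have hmψ : m ⟨ψ, hψ⟩ ≠ 0 := by
    intro h0
    apply hc
    rw [hmc ⟨ψ, hψ⟩, h0, Nat.cast_zero]
  have hmψ' : m ⟨ψ', hψ'⟩ ≠ 0 := by
    intro h0
    apply hc'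
    rw [hmc ⟨ψ', hψ'⟩, h0, Nat.cast_zero]
  obtain ⟨k1, k2⟩ := key ⟨ψ, hψ⟩ hmψ
  refine ⟨?_, ?_⟩
  · apply isIrrCharacter_of_norm_one (isCharacter_indFun _ (isCharacter_of_irr hψ))
    have := ha ⟨ψ, hψ⟩ ⟨ψ, hψ⟩
    rw [k1] at this
    simpa using this
  · intro hne
    have := ha ⟨ψ, hψ⟩ ⟨ψ', hψ'⟩
    rw [k2 ⟨ψ', hψ'⟩ (fun h => hne (congrArg Subtype.val h).symm) hmψ'] at this
    simpa using this

/-- translation of the "lies over" condition -/
theorem classInner_indFun_resSub {H T : Subgroup G} [Fintype H] [Fintype T] (hHT : H ≤ T)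
    (θ : H → ℂ) {ψ : T → ℂ} (hψ : IsClassFunction T ψ) :
    classInner (indFun (H.subgroupOf T) (resSub H T θ)) ψ =
      conj (classInner (fun n : H => ψ ⟨(n : G), hHT n.2⟩) θ) := by
  have : Fintype (H.subgroupOf T) := Fintype.ofFinite _
  rw [frobenius_reciprocity _ _ hψ, ← classInner_conj_symm]
  congr 1
  exact Cfsg.Agent.H6.classInner_comp_mulEquiv (Subgroup.subgroupOfEquivOfLe hHT)
    (fun n : H => ψ ⟨(n : G), hHT n.2⟩) θ

/-- a character of `T` lies over `θ` iff one of its irreducible constituents does -/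
theorem classInner_res_ne_zero_iff {N T : Subgroup G} [Fintype N] [Fintype T] (hNT : N ≤ T)
    {θ : N → ℂ} (hθ : IsIrrCharacter N θ) {α : T → ℂ} (hα : IsCharacter T α) :
    classInner (fun n : N => α ⟨(n : G), hNT n.2⟩) θ ≠ 0 ↔
      ∃ η : IrrCharacter T, classInner α (η : T → ℂ) ≠ 0 ∧
        classInner (fun n : N => (η : T → ℂ) ⟨(n : G), hNT n.2⟩) θ ≠ 0 := by
  classical
  obtain ⟨m, hm, hm2⟩ := H2.exists_mult hα
  have hres : ∀ η : IrrCharacter T, IsCharacter N (fun n : N => (η : T → ℂ) ⟨(n : G), hNT n.2⟩) :=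
    fun η => isCharacter_comp (isCharacter_of_irr η.2) (Subgroup.inclusion hNT)
  have hnat : ∀ η : IrrCharacter T, ∃ n : ℕ,
      classInner (fun n : N => (η : T → ℂ) ⟨(n : G), hNT n.2⟩) θ = n := fun η =>
    classInner_char_nat (hres η) (isCharacter_of_irr hθ)
  choose n hn using hnat
  have h1 : (fun x : N => α ⟨(x : G), hNT x.2⟩) =
      ∑ η : IrrCharacter T, (m η : ℂ) • fun x : N => (η : T → ℂ) ⟨(x : G), hNT x.2⟩ := by
    funext x
    rw [hm]
    simp only [Finset.sum_apply, Pi.smul_apply]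
  have h2 : classInner (fun x : N => α ⟨(x : G), hNT x.2⟩) θ =
      ((∑ η : IrrCharacter T, m η * n η : ℕ) : ℂ) := by
    rw [h1, classInner_sum_left]
    simp only [classInner_smul_left, hn]
    push_cast
    rfl
  rw [h2]
  constructor
  · intro h
    have h3 : (∑ η : IrrCharacter T, m η * n η) ≠ 0 := by exact_mod_cast h
    obtain ⟨η, -, hη⟩ := Finset.exists_ne_zero_of_sum_ne_zero h3
    refine ⟨η, ?_, ?_⟩
    · rw [hm2]; exact_mod_cast left_ne_zero_of_mul hη
    · rw [hn]; exact_mod_cast right_ne_zero_of_mul hη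
  · rintro ⟨η, h3, h4⟩
    rw [hm2] at h3
    rw [hn] at h4
    have h5 : m η ≠ 0 := by exact_mod_cast h3
    have h6 : n η ≠ 0 := by exact_mod_cast h4
    have h7 : m η * n η ≤ ∑ η' : IrrCharacter T, m η' * n η' :=
      Finset.single_le_sum (f := fun η' => m η' * n η') (fun _ _ => Nat.zero_le _)
        (Finset.mem_univ η)
    have h8 : 0 < m η * n η := Nat.mul_pos (Nat.pos_of_ne_zero h5) (Nat.pos_of_ne_zero h6)
    exact_mod_cast (by omega : (∑ η' : IrrCharacter T, m η' * n η') ≠ 0)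

section

variable {N T : Subgroup G} (hN : N.Normal) [Fintype N] [Fintype T] (hNT : N ≤ T)
  {θ : N → ℂ} (hθ : IsIrrCharacter N θ) (hT : ∀ g : G, H2.conjFun hN θ g = θ → g ∈ T)

include hθ hT in
theorem irr_indFun_of_over {ψ : T → ℂ} (hψ : IsIrrCharacter T ψ)
    (hc : classInner (fun n : N => ψ ⟨(n : G), hNT n.2⟩) θ ≠ 0) :
    IsIrrCharacter G (indFun T ψ) := by
  have h1 : classInner (indFun (N.subgroupOf T) (resSub N T θ)) ψ ≠ 0 := by
    rw [classInner_indFun_resSub hNT θ (isClassFunction_of_irr hψ)]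
    exact (map_ne_zero _).2 hc
  exact (clifford_corr_ge N T hN θ hθ hT hNT ψ ψ hψ hψ h1 h1).1

include hθ hT in
theorem indFun_ne_of_over {ψ ψ' : T → ℂ} (hψ : IsIrrCharacter T ψ) (hψ' : IsIrrCharacter T ψ')
    (hc : classInner (fun n : N => ψ ⟨(n : G), hNT n.2⟩) θ ≠ 0)
    (hc' : classInner (fun n : N => ψ' ⟨(n : G), hNT n.2⟩) θ ≠ 0)
    (h : indFun T ψ = indFun T ψ') : ψ = ψ' := by
  have h1 : classInner (indFun (N.subgroupOf T) (resSub N T θ)) ψ ≠ 0 := by
    rw [classInner_indFun_resSub hNT θ (isClassFunction_of_irr hψ)]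
    exact (map_ne_zero _).2 hc
  have h2 : classInner (indFun (N.subgroupOf T) (resSub N T θ)) ψ' ≠ 0 := by
    rw [classInner_indFun_resSub hNT θ (isClassFunction_of_irr hψ')]
    exact (map_ne_zero _).2 hc'
  obtain ⟨h3, h4⟩ := clifford_corr_ge N T hN θ hθ hT hNT ψ ψ' hψ hψ' h1 h2
  by_contra hne
  have h5 := h4 hne
  rw [← h] at h5
  exact indFun_irr_ne_zero T hψ (classInner_self_eq_zero h5)

include hθ in
/-- an irreducible character of `G` which has a constituent on `T` lying over `θ` lies over `θ` -/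
theorem over_of_constituent {χ : G → ℂ} (hχ : IsCharacter G χ) {ψ : IrrCharacter T}
    (h1 : classInner (fun t : T => χ t) (ψ : T → ℂ) ≠ 0)
    (hc : classInner (fun n : N => (ψ : T → ℂ) ⟨(n : G), hNT n.2⟩) θ ≠ 0) :
    classInner (fun n : N => χ n) θ ≠ 0 :=
  (classInner_res_ne_zero_iff hNT hθ (isCharacter_restrict hχ T)).2 ⟨ψ, h1, hc⟩

include hθ hT in
theorem exists_over_indFun_eq {χ : G → ℂ} (hχ : IsIrrCharacter G χ)
    (hc : classInner (fun n : N => χ n) θ ≠ 0) :
    ∃ ψ : IrrCharacter T, classInner (fun n : N => (ψ : T → ℂ) ⟨(n : G), hNT n.2⟩) θ ≠ 0 ∧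
      χ = indFun T (ψ : T → ℂ) := by
  obtain ⟨ψ, h1, h2⟩ := (classInner_res_ne_zero_iff hNT hθ
    (isCharacter_restrict (isCharacter_of_irr hχ) T)).1 hc
  refine ⟨ψ, h2, ?_⟩
  have h3 := irr_indFun_of_over hN hNT hθ hT ψ.2 h2
  have h4 : classInner (indFun T (ψ : T → ℂ)) χ ≠ 0 := by
    rw [frobenius_reciprocity _ _ (isClassFunction_of_irr hχ), ← classInner_conj_symm]
    exact (map_ne_zero _).2 h1
  by_contra hne
  exact h4 (classInner_irr_ne h3 hχ (fun h => hne h.symm))

end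

end Cfsg.Agent.H25
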