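import Cfsg.Agent.H25.StabBridge
import Cfsg.Agent.H25.IndBlock
import Cfsg.Agent.H25.CliffGe

/-!
# The Fong–Reynolds correspondence: group algebra part and dictionary
-/

set_option autoImplicit false

namespace Cfsg.Agent.H25

open Cfsg Cfsg.Agent.BlockLib Cfsg.Agent.BlockLib.CA Cfsg.Agent.CharLib

universe u v

section algebra

variable {k : Type u} {G : Type v} [Field k] [Group G] [Fintype G]

/-- the sum of the distinct `G`-conjugates of `a` -/
noncomputable def conjSum (a : CA k G) : CA k G := by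
  classical exact ∑ e ∈ (Finset.univ.image fun g : G => cj g a), e

theorem conjSum_mem_cen (a : CA k G) : conjSum a ∈ cen (⊤ : Subgroup G) := by
  classical
  refine ⟨mem_supp_top _, mem_fix_iff_cj.mpr ?_⟩
  intro u _
  rw [conjSum, map_sum]
  refine Finset.sum_nbij' (fun a => cj u a) (fun a => cj u⁻¹ a) ?_ ?_ ?_ ?_ ?_
  · intro e he
    obtain ⟨g, -, rfl⟩ := Finset.mem_image.mp he
    exact Finset.mem_image.mpr ⟨u * g, Finset.mem_univ _, cj_mul u g a⟩
  · intro e he
    obtain ⟨g, -, rfl⟩ := Finset.mem_image.mp he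
    exact Finset.mem_image.mpr ⟨u⁻¹ * g, Finset.mem_univ _, cj_mul u⁻¹ g a⟩
  · intro a _; simp
  · intro a _; simp
  · intro a _; rfl

theorem trunc_mul_of_supp {H : Subgroup G} [Fintype H] (a : CA k G) {c : CA k G}
    (hc : c ∈ supp H) : trunc H (a * c) = trunc H a * c := by
  ext x
  by_cases hx : x ∈ H
  · rw [trunc_apply_mem H _ hx, mul_apply, mul_apply]
    refine Finset.sum_congr rfl fun h _ => ?_
    by_cases hh : h ∈ H
    · rw [trunc_apply_mem H _ hh]
    · have : h⁻¹ * x ∉ H := fun h1 => hh (by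
        have := H.mul_mem hx (H.inv_mem h1)
        simpa using this)
      rw [hc _ this, mul_zero, mul_zero]
  · rw [trunc_apply_not_mem H _ hx, mul_apply]
    symm
    refine Finset.sum_eq_zero fun h _ => ?_
    by_cases hh : h ∈ H
    · have : h⁻¹ * x ∉ H := fun h1 => hx (by
        have := H.mul_mem hh h1
        simpa using this)
      rw [hc _ this, mul_zero]
    · rw [trunc_apply_not_mem H _ hh, zero_mul]

variable {N T : Subgroup G} [Fintype T] {ε : CA k G}

omit [Fintype T] in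
theorem mem_cen_of_stab (hNT : N ≤ T) (hε : IsBlk N ε) (hT : ∀ g, g ∈ T ↔ cj g ε = ε) :
    ε ∈ cen T :=
  ⟨supp_mono hNT hε.mem.1, mem_fix_iff_cj.mpr fun u hu => (hT u).1 hu⟩

theorem trunc_conjSum_mul [hN : N.Normal] (hNT : N ≤ T) (hε : IsBlk N ε)
    (hT : ∀ g, g ∈ T ↔ cj g ε = ε) {β : CA k G} (hβ : IsBlk T β) (hβε : β * ε = β) :
    trunc T (conjSum β) * ε = β := by
  classical
  rw [conjSum, trunc_sum, Finset.sum_mul, Finset.sum_eq_single β]
  · rw [trunc_eq_self hβ.mem.1, hβε]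
  · intro e he hne
    obtain ⟨g, -, rfl⟩ := Finset.mem_image.mp he
    have hg : g ∉ T := fun hg => hne (mem_fix_iff_cj.mp hβ.mem.2 g hg)
    have h1 : cj g β = cj g β * cj g ε := by rw [← map_mul, hβε]
    have hN' : cjs g N = N := cjs_eq_of_mem_normalizer (by
      rw [Subgroup.normalizer_eq_top]; trivial)
    have h2 : IsBlk N (cj g ε) := by
      have := hε.cj g
      rwa [hN'] at this
    have h3 : cj g ε * ε = 0 := h2.mul_eq_zero_of_ne hε (fun h => hg ((hT g).2 h))
    rw [h1, trunc_mul_of_supp _ (supp_mono hNT h2.mem.1), mul_assoc, h3, mul_zero]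
  · intro h
    exact absurd (Finset.mem_image.mpr ⟨1, Finset.mem_univ _, cj_one β⟩) h

variable [Split k G]

theorem eq_of_lam_trunc_eq [hN : N.Normal] (hNT : N ≤ T) (hε : IsBlk N ε)
    (hT : ∀ g, g ∈ T ↔ cj g ε = ε) {β₁ β₂ : CA k G} (h₁ : IsBlk T β₁) (h₂ : IsBlk T β₂)
    (h₁ε : β₁ * ε = β₁) (h₂ε : β₂ * ε = β₂)
    (h : lam T β₁ (trunc T (conjSum β₁)) = lam T β₂ (trunc T (conjSum β₁))) : β₁ = β₂ := by
  have hεc := mem_cen_of_stab hNT hε hT
  have hw : trunc T (conjSum β₁) ∈ cen T := trunc_mem_cen T (conjSum_mem_cen β₁)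
  have e1 : lam T β₁ (trunc T (conjSum β₁)) = 1 := by
    have := lam_mul h₁ hw hεc
    rw [trunc_conjSum_mul hNT hε hT h₁ h₁ε, lam_self h₁,
      (mul_eq_self_iff_lam h₁ hεc hε.idem).1 h₁ε, mul_one] at this
    exact this.symm
  have e2 : lam T β₂ (trunc T (conjSum β₁)) = lam T β₂ β₁ := by
    have := lam_mul h₂ hw hεc
    rw [trunc_conjSum_mul hNT hε hT h₁ h₁ε,
      (mul_eq_self_iff_lam h₂ hεc hε.idem).1 h₂ε, mul_one] at this
    exact this.symm
  by_contra hne
  rw [e1, e2, lam_of_ne h₂ h₁ (fun h => hne h.symm)] at h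
  exact one_ne_zero h

end algebra

section dictionary

variable {M : Ideal AlgInt} [M.IsPrime] {G : Type u} [Group G] [Fintype G]
variable {N T : Subgroup G} [Fintype N] [Fintype T]

/-- the block of `N.subgroupOf T` corresponding to the block `b` of `N` -/
noncomputable def subBlock (hNT : N ≤ T) (b : Set (IrrCharacter N)) :
    Set (IrrCharacter (N.subgroupOf T)) :=
  mapIrr (Subgroup.subgroupOfEquivOfLe hNT).symm '' b

omit [M.IsPrime] [Fintype G] [Fintype N] [Fintype T] in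
theorem isPBlock_subBlock (hNT : N ≤ T) {b : Set (IrrCharacter N)} (hb : IsPBlock M b) :
    IsPBlock M (subBlock hNT b) := isPBlock_equiv _ hb

omit [Fintype N] in
theorem ext0_epsS_subBlock (hNT : N ≤ T) (b : Set (IrrCharacter N)) :
    CA.ext0 T (epsS M (N.subgroupOf T) (subBlock hNT b)) = epsS M N b := by
  ext g
  by_cases hgT : g ∈ T
  · rw [CA.ext0_apply_mem T _ hgT, epsS, epsS, red_apply, red_apply, subgroupBlockCoeff,
      subgroupBlockCoeff]
    by_cases hgN : g ∈ N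
    · have hgN' : (⟨g, hgT⟩ : T) ∈ N.subgroupOf T := Subgroup.mem_subgroupOf.mpr hgN
      rw [dif_pos hgN, dif_pos hgN', subBlock,
        ← blockCoeff_equiv (Subgroup.subgroupOfEquivOfLe hNT).symm b ⟨g, hgN⟩]
      rfl
    · have hgN' : (⟨g, hgT⟩ : T) ∉ N.subgroupOf T := fun h => hgN (Subgroup.mem_subgroupOf.mp h)
      rw [dif_neg hgN, dif_neg hgN']
  · rw [CA.ext0_apply_not_mem T _ hgT, epsS, red_apply, subgroupBlockCoeff,
      dif_neg (fun h => hgT (hNT h)), redS_zero]

/-- a block of `T` covering (in the sense of characters) the block `b` of `N ≤ T` does not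
annihilate it -/
theorem mul_ne_zero_of_over [hN : N.Normal] (hNT : N ≤ T) {B' : Set (IrrCharacter T)}
    (hB' : IsPBlock M B') {b : Set (IrrCharacter N)} (hb : IsPBlock M b)
    (hcov : ∃ ψ ∈ B', ∃ θ ∈ b,
      classInner (fun n : N => (ψ : T → ℂ) ⟨(n : G), hNT n.2⟩) (θ : N → ℂ) ≠ 0) :
    epsS M T B' * epsS M N b ≠ 0 := by
  have : Fintype (N.subgroupOf T) := Fintype.ofFinite _
  obtain ⟨ψ, hψ, θ, hθ, hc⟩ := hcov
  have h1 : Covers B' (subBlock hNT b) := by
    refine ⟨ψ, hψ, mapIrr (Subgroup.subgroupOfEquivOfLe hNT).symm θ, ⟨θ, hθ, rfl⟩, ?_⟩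
    rw [← Cfsg.Agent.H6.classInner_comp_mulEquiv (Subgroup.subgroupOfEquivOfLe hNT)] at hc
    exact hc
  have h2 := (covers_iff_mul_ne_zero hB' (isPBlock_subBlock hNT hb)).1 h1
  intro h0
  apply h2
  apply CA.ext0_injective T
  rw [map_mul, map_zero, ← epsS_eq_ext0, ext0_epsS_subBlock, h0]

omit [M.IsPrime] [Fintype G] [Fintype T] in
theorem exists_constituent_le (hNT : N ≤ T) (ψ : IrrCharacter T) :
    ∃ θ : IrrCharacter N,
      classInner (fun n : N => (ψ : T → ℂ) ⟨(n : G), hNT n.2⟩) (θ : N → ℂ) ≠ 0 := by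
  obtain ⟨m, hm, hm2⟩ := H2.exists_mult
    (isCharacter_comp (isCharacter_of_irr ψ.2) (Subgroup.inclusion hNT))
  by_contra hcon
  push Not at hcon
  have h0 : ∀ θ, (m θ : ℂ) = 0 := fun θ => by rw [← hm2 θ]; exact hcon θ
  have h1 := congrFun hm 1
  simp only [Finset.sum_apply, h0, zero_smul, Pi.zero_apply, Finset.sum_const_zero] at h1
  exact irr_apply_one_ne_zero ψ h1

end dictionary

end Cfsg.Agent.H25
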