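import Cfsg.Agent.H25.IndBlock
import Cfsg.Agent.BlockLib.KG.DefSubTr
import Cfsg.Agent.Lib.Helper23.MinMax

/-!
# A block with defect group `D ≥ P` is induced from a block of `H` (`P C(P) ≤ H ≤ N(P)`, `D ≤ H`)
of at least the same defect
-/

set_option autoImplicit false

namespace Cfsg.Agent.H25

open Cfsg Cfsg.Agent.BlockLib Cfsg.Agent.CharLib Cfsg.Agent.Lib.Helper23.MinMax

universe u

variable {M : Ideal AlgInt} {G : Type u} [Group G] [Fintype G]

theorem exists_induced_block_ge {p : ℕ} [Fact p.Prime] (hM : IsPModular p M)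
    {B : Set (IrrCharacter G)} (hB : IsPBlock M B) {D : Subgroup G}
    (hD : IsDefectGroup p M B D) {P H : Subgroup G} [Fintype H] (hP : IsPGroup p P) (hPH : P ≤ H)
    (hCH : Subgroup.centralizer (P : Set G) ≤ H) (hHN : H ≤ Subgroup.normalizer (P : Set G))
    (hPD : P ≤ D) (hDH : D ≤ H) :
    ∃ b : Set (IrrCharacter H), IsInducedBlock M H b B ∧ blockDefect p B ≤ blockDefect p b := by
  classical
  have := isPrime_of_isPModular hM
  have : CharP (ResField M) p := charP_resField hM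
  have hεB := isBlk_eps hB
  have hD' := (isDefectGroup_iff hB D).1 hD
  set c : CA (ResField M) G := CA.br P (eps M B) with hc
  have hcc : c ∈ CA.cen H := br_mem_cen hCH hHN (eps_mem_cen B)
  have hfix : eps M B ∈ CA.fix P := CA.fix_anti le_top hεB.mem.2
  have hidem : c * c = c := by rw [hc, ← CA.br_mul hP hfix hfix, hεB.idem]
  have hbr : CA.br D c ≠ 0 := by
    rw [hc, CA.br_br hPD]
    exact hD'.br_ne_zero hεB
  have h1 : c = ∑ β ∈ CA.blks H, β * c := by
    rw [← Finset.sum_mul, CA.sum_blks, one_mul]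
  have h2 : ∃ β ∈ CA.blks H, CA.br D (β * c) ≠ 0 := by
    by_contra hcon
    push Not at hcon
    apply hbr
    rw [h1, map_sum]
    exact Finset.sum_eq_zero hcon
  obtain ⟨β, hβ, hne⟩ := h2
  rw [CA.mem_blks] at hβ
  have h3 : β * c = β := by
    rcases hβ.prim c hcc hidem with h | h
    · exact h
    · rw [h, map_zero] at hne; exact absurd rfl hne
  rw [h3] at hne
  obtain ⟨b, hb, rfl⟩ := exists_epsS_eq hβ
  refine ⟨b, (isInducedBlock_iff_lam_br hM hP hPH hCH hHN hb hB).2
    ((CA.mul_eq_self_iff_lam hβ hcc hidem).1 h3), ?_⟩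
  obtain ⟨E, hE⟩ := CA.exists_isDefGrp (p := p) hβ
  obtain ⟨x, -, hle⟩ := (hE.br_ne_zero_iff hβ hD'.isPGroup hDH).1 hne
  have c1 := card_of_isDefectGroup hM hB hD
  have c2 := card_of_isDefectGroup hM hb ((isDefectGroup_subgroupOf_iff hb hE.le).2 hE)
  have c3 : Nat.card (E.subgroupOf H) = Nat.card E :=
    Nat.card_congr (Subgroup.subgroupOfEquivOfLe hE.le).toEquiv
  have c4 := Subgroup.card_le_of_le hle
  rw [CA.card_cjs, c1, ← c3, c2] at c4
  exact (Nat.pow_le_pow_iff_right hM.1.one_lt).1 c4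

end Cfsg.Agent.H25
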