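import Cfsg.Agent.H25.IndCentral
import Cfsg.Agent.H25.BlockSum
import Cfsg.Agent.H6.PPart

set_option autoImplicit false

namespace Cfsg.Agent.H25

open Cfsg Cfsg.Agent.CharLib Cfsg.Agent.BlockLib

universe u

variable {G : Type u} [Group G] [Fintype G] {M : Ideal AlgInt}

/-- if the induced central character does not vanish mod `M` at `g`, then some conjugate of `g`
in `H` has non-vanishing central character. -/
theorem exists_of_inducedCentralChar [M.IsPrime] (H : Subgroup G) (ξ : IrrCharacter H) (g : G)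
    (h : ¬ MemLocalIdeal M (inducedCentralChar H (ξ : H → ℂ) g)) :
    ∃ x : H, IsConj g (x : G) ∧ ¬ MemLocalIdeal M (centralChar (ξ : H → ℂ) x) := by
  classical
  have htop : M ≠ ⊤ := Ideal.IsPrime.ne_top ‹_›
  by_contra hno
  push Not at hno
  apply h
  rw [inducedCentralChar_eq]
  have hcl := isClassFunction_of_irr ξ.2
  rw [sum_eq_sum_conjClasses (fun x : H => if IsConj g (x : G) then (ξ : H → ℂ) x else 0)
    (fun x c => by
      have e : IsConj g ((c * x * c⁻¹ : H) : G) ↔ IsConj g (x : G) := by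
        have hc : IsConj (x : G) ((c * x * c⁻¹ : H) : G) := isConj_iff.2 ⟨(c : G), by simp⟩
        exact ⟨fun h1 => h1.trans hc.symm, fun h1 => h1.trans hc⟩
      simp only [e, hcl x c]), Finset.sum_div]
  apply memLocalIdeal_sum
  intro C _
  by_cases hC : IsConj g ((Quotient.out C : H) : G)
  · have := hno _ hC
    unfold centralChar at this
    simp only [if_pos hC]
    exact this
  · simp only [if_neg hC, mul_zero, zero_div]
    exact memLocalIdeal_zero htop

omit [Fintype G] in
/-- `p`-parts in a subgroup -/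
theorem isPPart_coe {p : ℕ} {H : Subgroup G} {h z : H} (hz : IsPPart p h z) :
    IsPPart p (h : G) (z : G) := by
  obtain ⟨y, e1, e2, ⟨k, e3⟩, e4⟩ := hz
  refine ⟨(y : G), ?_, ?_, ⟨k, ?_⟩, ?_⟩
  · rw [← e1]; rfl
  · exact congrArg Subtype.val e2.eq
  · rw [Subgroup.orderOf_coe, e3]
  · rwa [Subgroup.orderOf_coe]

omit [Fintype G] in
/-- `p`-parts of conjugates -/
theorem isPPart_conj {p : ℕ} {g z : G} (hz : IsPPart p g z) (c : G) :
    IsPPart p (c * g * c⁻¹) (c * z * c⁻¹) := by
  obtain ⟨y, e1, e2, ⟨k, e3⟩, e4⟩ := hz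
  refine ⟨c * y * c⁻¹, ?_, ?_, ⟨k, ?_⟩, ?_⟩
  · rw [← e1]; group
  · have : c * z * c⁻¹ * (c * y * c⁻¹) = c * (z * y) * c⁻¹ := by group
    have h2 : c * y * c⁻¹ * (c * z * c⁻¹) = c * (y * z) * c⁻¹ := by group
    show c * z * c⁻¹ * (c * y * c⁻¹) = c * y * c⁻¹ * (c * z * c⁻¹)
    rw [this, h2, e2.eq]
  · rw [← e3]
    exact orderOf_injective (MulAut.conj c).toMonoidHom (MulAut.conj c).injective z
  · have : orderOf (c * y * c⁻¹) = orderOf y :=
      orderOf_injective (MulAut.conj c).toMonoidHom (MulAut.conj c).injective y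
    rwa [this]

end Cfsg.Agent.H25
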