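import Cfsg.Agent.H25.FongReynolds2
import Cfsg.Agent.H25.QuotDefect
import Cfsg.Agent.H25.Codeg
import Cfsg.Agent.S0966
import Cfsg.Agent.S0970
import Cfsg.Agent.S0887

/-!
# Invariant characters of height zero in invariant blocks of normal subgroups of `p`-power index
-/

set_option autoImplicit false

namespace Cfsg.Agent.H25

open Cfsg Cfsg.Agent.BlockLib Cfsg.Agent.CharLib Cfsg.Agent.Lib.Helper23.MinMax

universe u

section

variable {G : Type u} [Group G] [Fintype G]

/-- a character with an irreducible constituent of the same degree is that constituent -/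
theorem char_eq_of_constituent {ψ : G → ℂ} (hψ : IsCharacter G ψ) (θ : IrrCharacter G)
    (hc : classInner ψ (θ : G → ℂ) ≠ 0) (h1 : ψ 1 = (θ : G → ℂ) 1) : ψ = θ := by
  classical
  obtain ⟨m, rfl⟩ := isCharacter_iff.mp hψ
  rw [classInner_sum_smul_irr] at hc
  have hm0 : m θ ≠ 0 := by exact_mod_cast hc
  have hnat : ∑ χ : IrrCharacter G, m χ * charDegree (χ : G → ℂ) = charDegree (θ : G → ℂ) := by
    have : ((∑ χ : IrrCharacter G, m χ * charDegree (χ : G → ℂ) : ℕ) : ℂ) =
        (charDegree (θ : G → ℂ) : ℂ) := by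
      rw [← charDegree_irr θ, ← h1]
      simp only [Finset.sum_apply, Pi.smul_apply, smul_eq_mul, charDegree_irr]
      push_cast
      rfl
    exact_mod_cast this
  rw [← Finset.add_sum_erase _ _ (Finset.mem_univ θ)] at hnat
  have hd := charDegree_pos θ
  have hmθ : m θ = 1 := by
    have h2 : m θ * charDegree (θ : G → ℂ) ≤ 1 * charDegree (θ : G → ℂ) := by omega
    have h3 := Nat.le_of_mul_le_mul_right h2 hd
    omega
  rw [hmθ, one_mul] at hnat
  have hz : ∑ χ ∈ Finset.univ.erase θ, m χ * charDegree (χ : G → ℂ) = 0 := by omega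
  rw [Finset.sum_eq_single θ]
  · rw [hmθ]; simp
  · intro χ _ hne
    have h4 := (Finset.sum_eq_zero_iff.1 hz) χ (Finset.mem_erase.2 ⟨hne, Finset.mem_univ _⟩)
    have h5 : m χ = 0 := by
      rcases Nat.mul_eq_zero.1 h4 with h | h
      · exact h
      · exact absurd h (charDegree_pos χ).ne'
    rw [h5]; simp
  · intro h; exact absurd (Finset.mem_univ _) h

end

variable {M : Ideal AlgInt} {p : ℕ} [Fact p.Prime] {K : Type u} [Group K] [Fintype K]

theorem exists_invariant_height_zero (hM : IsPModular p M) (N : Subgroup K) [hN : N.Normal]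
    [Fintype N] (hidx : ∃ k : ℕ, N.index = p ^ k) (b : Set (IrrCharacter N)) (hb : IsPBlock M b)
    (hinv : ∀ g : K, ∀ θ ∈ b, ∀ θ' : IrrCharacter N,
      (∀ n : N, (θ' : N → ℂ) n = (θ : N → ℂ) ⟨g * n * g⁻¹, hN.conj_mem n n.2 g⟩) → θ' ∈ b) :
    ∃ θ ∈ b, (charDegree (θ : N → ℂ)).factorization p = minExp p b ∧
      ∀ (g : K) (n : N), (θ : N → ℂ) ⟨g * n * g⁻¹, hN.conj_mem n n.2 g⟩ = (θ : N → ℂ) n := by
  classical
  have hp : p.Prime := hM.1
  have hPr := isPrime_of_isPModular hM
  obtain ⟨B, ⟨hB, hcov⟩, huniq⟩ := Cfsg.Agent.S0966.result p M hM N hidx b hb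
  obtain ⟨P, hP⟩ := QuotDefect.exists_isDefectGroup (p := p) hM hB
  have key := (Cfsg.Agent.S0970.result p M hM N b hb hinv B hB hcov
    (fun B' hB' hc => by rw [huniq B' ⟨hB', hc⟩]) P hP).2.2
  obtain ⟨χ, hχ, hχdeg⟩ := exists_minExp (p := p) (pb_nonempty hB)
  have hcov' : Covers B b := hcov
  obtain ⟨θ, hθ, hc⟩ := hcov'.exists_over hM hb hB hχ
  obtain ⟨hdvd, hquot⟩ := Cfsg.Agent.S0887.result N χ χ.2 θ θ.2 hc (charDegree (χ : K → ℂ))
    (charDegree (θ : N → ℂ)) (charDegree_irr χ) (charDegree_irr θ)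
  obtain ⟨k, hk⟩ := hidx
  have hcard : (Nat.card K).factorization p = (Nat.card N).factorization p + k := by
    rw [← Subgroup.card_mul_index N, Nat.factorization_mul Nat.card_pos.ne'
      Subgroup.index_ne_zero_of_finite, hk]
    simp [hp.factorization_self]
  have hidxf : N.index.factorization p = k := by
    rw [hk]; simp [hp.factorization_self]
  rw [blockDefect_eq, blockDefect_eq, hidxf, hcard] at key
  have h1 := minExp_le_card (p := p) (pb_nonempty hB)
  have h2 := minExp_le_card (p := p) (pb_nonempty hb)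
  rw [hcard] at h1
  have hmm : minExp p B = minExp p b := by omega
  have h3 := minExp_le (p := p) hθ
  have hdθ := charDegree_pos θ
  have hdχ := charDegree_pos χ
  obtain ⟨j, -, hj⟩ := (Nat.dvd_prime_pow hp).1 (hk ▸ hquot)
  have hmul : charDegree (χ : K → ℂ) = charDegree (θ : N → ℂ) * p ^ j := by
    rw [← hj, Nat.mul_div_cancel' hdvd]
  have hfac : (charDegree (χ : K → ℂ)).factorization p =
      (charDegree (θ : N → ℂ)).factorization p + j := by
    rw [hmul, Nat.factorization_mul hdθ.ne' (pow_ne_zero _ hp.ne_zero)]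
    simp [hp.factorization_self]
  have hj0 : j = 0 := by omega
  refine ⟨θ, hθ, by omega, ?_⟩
  rw [hj0, pow_zero, mul_one] at hmul
  have hres : (fun n : N => (χ : K → ℂ) n) = (θ : N → ℂ) := by
    apply char_eq_of_constituent (isCharacter_restrict (isCharacter_of_irr χ.2) N) θ hc
    show (χ : K → ℂ) 1 = _
    rw [charDegree_irr, charDegree_irr, hmul]
  intro g n
  rw [← hres]
  exact isClassFunction_of_irr χ.2 n g

end Cfsg.Agent.H25
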