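import Cfsg.Agent.H25.SectionSum
import Cfsg.Agent.S0840

/-!
# Columns of a block and products of two conjugate involutions
-/

set_option autoImplicit false

namespace Cfsg.Agent.H25

open Cfsg Cfsg.Agent.BlockLib Cfsg.Agent.CharLib Cfsg.Agent.H6 Cfsg.Agent.H6.BlockSection
open scoped ComplexConjugate

theorem jensen_aux {ι : Type*} (S : Finset ι) (r d τ : ι → ℝ) (hd : ∀ i ∈ S, 0 < d i)
    (h1 : ∑ i ∈ S, r i * d i = 0) (h2 : ∑ i ∈ S, r i * τ i = 0)
    (h3 : ∑ i ∈ S, r i * τ i ^ 2 / d i = 0)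
    (hpos : ∀ i ∈ S, ∀ j ∈ S, 0 < r i → 0 < r j → i = j) :
    ∀ i ∈ S, ∀ j ∈ S, r i ≠ 0 → r j ≠ 0 → τ i / d i = τ j / d j := by
  by_cases h : ∃ i₀ ∈ S, 0 < r i₀
  · obtain ⟨i₀, hi₀, hr₀⟩ := h
    have key : ∀ i ∈ S, r i ≠ 0 → τ i / d i = τ i₀ / d i₀ := by
      set x₀ := τ i₀ / d i₀ with hx₀
      have e1 : ∑ i ∈ S, r i * d i * (τ i / d i - x₀) ^ 2 = 0 := by
        have e2 : ∀ i ∈ S, r i * d i * (τ i / d i - x₀) ^ 2 =
            r i * τ i ^ 2 / d i - 2 * x₀ * (r i * τ i) + x₀ ^ 2 * (r i * d i) := by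
          intro i hi
          have := (hd i hi).ne'
          field_simp
          ring
        rw [Finset.sum_congr rfl e2, Finset.sum_add_distrib, Finset.sum_sub_distrib,
          ← Finset.mul_sum, ← Finset.mul_sum, h1, h2, h3]
        ring
      have e3 : ∀ i ∈ S, r i * d i * (τ i / d i - x₀) ^ 2 ≤ 0 := by
        intro i hi
        by_cases hii : i = i₀
        · rw [hii, ← hx₀]; simp
        · have : r i ≤ 0 := by
            by_contra hcon
            push Not at hcon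
            exact hii (hpos i hi i₀ hi₀ hcon hr₀)
          have h4 : r i * d i ≤ 0 := mul_nonpos_of_nonpos_of_nonneg this (hd i hi).le
          exact mul_nonpos_of_nonpos_of_nonneg h4 (sq_nonneg _)
      intro i hi hri
      have e4 := (Finset.sum_eq_zero_iff_of_nonpos e3).1 e1 i hi
      have e5 : (τ i / d i - x₀) ^ 2 = 0 := by
        rcases mul_eq_zero.1 e4 with h5 | h5
        · exact absurd h5 (mul_ne_zero hri (hd i hi).ne')
        · exact h5
      have e6 := pow_eq_zero_iff (two_ne_zero) |>.1 e5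
      linarith
    intro i hi j hj hri hrj
    rw [key i hi hri, key j hj hrj]
  · push Not at h
    intro i hi j hj hri hrj
    exfalso
    have e3 : ∀ i ∈ S, r i * d i ≤ 0 := fun i hi =>
      mul_nonpos_of_nonpos_of_nonneg (h i hi) (hd i hi).le
    have e4 := (Finset.sum_eq_zero_iff_of_nonpos e3).1 h1 i hi
    exact mul_ne_zero hri (hd i hi).ne' e4

variable {G : Type*} [Group G] [Fintype G] {p : ℕ} [Fact p.Prime] {M : Ideal AlgInt}

/-- if no conjugate of the involution `t` inverts the `p`-element `y`, the weighted column sum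
over any block vanishes -/
theorem sum_sq_involution_eq_zero (hM : IsPModular p M) {t : G} (ht : orderOf t = 2) {y : G}
    {k : ℕ} (hy : orderOf y = p ^ k)
    (hinv : ∀ g : G, (g * t * g⁻¹) * y * (g * t * g⁻¹)⁻¹ ≠ y⁻¹) {B : Set (IrrCharacter G)}
    (hB : IsPBlock M B) [DecidablePred (· ∈ B)] :
    ∑ χ ∈ Finset.univ.filter (· ∈ B), (χ : G → ℂ) t ^ 2 / (χ : G → ℂ) 1 * (χ : G → ℂ) y⁻¹ = 0 := by
  classical
  have hp : p.Prime := Fact.out
  set ϑ : G → ℂ := ∑ χ : IrrCharacter G, ((χ : G → ℂ) t ^ 2 / (χ : G → ℂ) 1) • (χ : G → ℂ) with hϑ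
  have hcl : IsClassFunction G ϑ := by
    apply isClassFunction_sum
    intro χ _ g x
    simp only [Pi.smul_apply, smul_eq_mul]
    rw [isClassFunction_of_irr χ.2 g x]
  have ht2 : t * t = 1 := by rw [← pow_two, ← ht, pow_orderOf_eq_one]
  have hvan : ∀ u z : G, IsPPart p u z → IsConj y⁻¹ z → ϑ u = 0 := by
    intro u z huz hz
    have h1 := Cfsg.Agent.S0840.result t t u⁻¹
    have hempty : IsEmpty {q : G × G // IsConj t q.1 ∧ IsConj t q.2 ∧ q.1 * q.2 = u⁻¹} := by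
      constructor
      rintro ⟨⟨x₁, x₂⟩, hx₁, hx₂, hx⟩
      simp only at hx₁ hx₂ hx
      obtain ⟨k₁, hk₁⟩ := isConj_iff.mp hx₁
      obtain ⟨k₂, hk₂⟩ := isConj_iff.mp hx₂
      obtain ⟨h, hh⟩ := isConj_iff.mp hz
      obtain ⟨e, he⟩ := exists_pPart_exp G hp
      have hze : z = u ^ e := (he u).2 z huz
      have s1 : x₁ * x₁ = 1 := by
        rw [← hk₁]
        calc (k₁ * t * k₁⁻¹) * (k₁ * t * k₁⁻¹) = k₁ * (t * t) * k₁⁻¹ := by group
          _ = 1 := by rw [ht2]; group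
      have s2 : x₂ * x₂ = 1 := by
        rw [← hk₂]
        calc (k₂ * t * k₂⁻¹) * (k₂ * t * k₂⁻¹) = k₂ * (t * t) * k₂⁻¹ := by group
          _ = 1 := by rw [ht2]; group
      have i1 : x₁⁻¹ = x₁ := inv_eq_of_mul_eq_one_left s1
      have i2 : x₂⁻¹ = x₂ := inv_eq_of_mul_eq_one_left s2
      have hu : u = x₂ * x₁ := by
        have := congrArg (·⁻¹) hx
        simp only [mul_inv_rev, inv_inv, i1, i2] at this
        exact this.symm
      have c1 : x₁ * u * x₁⁻¹ = u⁻¹ := by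
        rw [hu, mul_inv_rev, i1, i2]
        calc x₁ * (x₂ * x₁) * x₁ = x₁ * x₂ * (x₁ * x₁) := by group
          _ = x₁ * x₂ := by rw [s1, mul_one]
      have c2 : x₁ * z * x₁⁻¹ = z⁻¹ := by
        rw [hze, ← conj_zpow, c1, inv_zpow]
      apply hinv (h⁻¹ * k₁)
      have c3 : h⁻¹ * k₁ * t * (h⁻¹ * k₁)⁻¹ = h⁻¹ * x₁ * h := by
        rw [← hk₁]; group
      rw [c3]
      have c4 : y = h⁻¹ * z⁻¹ * h := by
        rw [← hh]; group
      calc h⁻¹ * x₁ * h * y * (h⁻¹ * x₁ * h)⁻¹ = h⁻¹ * (x₁ * (h * y * h⁻¹) * x₁⁻¹) * h := by group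
        _ = h⁻¹ * (x₁ * z * x₁⁻¹)⁻¹ * h := by
            rw [c4]; group
        _ = y⁻¹ := by rw [c2, c4]; group
    rw [Nat.card_of_isEmpty, Nat.cast_zero, finsum_eq_sum_of_fintype] at h1
    have hne : (Nat.card {x : G // IsConj t x} : ℂ) * (Nat.card {x : G // IsConj t x} : ℂ) /
        (Nat.card G : ℂ) ≠ 0 := by
      have : Nonempty {x : G // IsConj t x} := ⟨⟨t, IsConj.refl t⟩⟩
      have h2 : (Nat.card {x : G // IsConj t x} : ℂ) ≠ 0 := by exact_mod_cast Nat.card_pos.ne'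
      have h3 : (Nat.card G : ℂ) ≠ 0 := by exact_mod_cast Nat.card_pos.ne'
      exact div_ne_zero (mul_ne_zero h2 h2) h3
    have h4 := (mul_eq_zero.1 h1.symm).resolve_left hne
    rw [hϑ, Finset.sum_apply, ← h4]
    refine Finset.sum_congr rfl fun χ _ => ?_
    rw [isCharacter_inv (isCharacter_of_irr χ.2), Complex.conj_conj]
    simp only [Pi.smul_apply, smul_eq_mul]
    ring
  have h5 := (Cfsg.Agent.S0925.result p M hM).1 ϑ hcl y⁻¹ ⟨k, by rw [orderOf_inv]; exact hy⟩ hvan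
    B hB y⁻¹ y⁻¹ (isPPart_self_of_pElement hp (by rw [orderOf_inv]; exact hy)) (IsConj.refl _)
  rw [blockPart_eq_filter] at h5
  rw [← h5]
  refine Finset.sum_congr rfl fun χ _ => ?_
  rw [hϑ, classInner_sum_smul_irr]

end Cfsg.Agent.H25
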