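import Cfsg.Agent.H25.KGV
import Cfsg.Agent.H20.CoprimeAb

/-!
# `k(VG) = ∑ k(C_G(v))` for coprime `V`, `G` with `V` abelian
-/

set_option autoImplicit false

namespace Cfsg.Agent.H25.KGV

open Cfsg

section abstract

variable {W : Type*} [Group W] [Finite W] (P Q : W →* W)

theorem card_eq_ker_mul_range {A B : Type*} [Group A] [Group B] [Finite A] (f : A →* B) :
    Nat.card A = Nat.card f.ker * Nat.card f.range := by
  rw [← Subgroup.index_ker, Subgroup.card_mul_index]

theorem exists_range_of_disjoint (hdisj : P.ker ⊓ P.range = ⊥) {c : W} (hc : c ∈ P.range) :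
    ∃ r ∈ P.range, P r = c := by
  have hinj : Function.Injective (fun r : P.range => (⟨P r, ⟨r, rfl⟩⟩ : P.range)) := by
    intro r s hrs
    have h1 : P (r : W) = P (s : W) := congrArg Subtype.val hrs
    have h2 : (r : W) * (s : W)⁻¹ ∈ P.ker ⊓ P.range := by
      refine Subgroup.mem_inf.2 ⟨?_, P.range.mul_mem r.2 (P.range.inv_mem s.2)⟩
      rw [MonoidHom.mem_ker, map_mul, map_inv, h1, mul_inv_cancel]
    rw [hdisj, Subgroup.mem_bot, mul_inv_eq_one] at h2
    exact Subtype.ext h2
  obtain ⟨r, hr⟩ := (Finite.injective_iff_surjective.1 hinj) ⟨c, hc⟩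
  exact ⟨r, r.2, congrArg Subtype.val hr⟩

theorem card_comap_range (hPQ : ∀ a, P (Q a) = Q (P a)) (hdisj : P.ker ⊓ P.range = ⊥) :
    Nat.card (P.range.comap Q) = Nat.card (P.ker ⊓ Q.ker : Subgroup W) * Nat.card P.range := by
  have hle : P.ker ⊓ Q.ker ≤ P.range.comap Q := by
    intro a ha
    rw [Subgroup.mem_comap, MonoidHom.mem_ker.1 ha.2]
    exact P.range.one_mem
  have hRK : P.range ≤ P.range.comap Q := by
    rintro _ ⟨b, rfl⟩
    rw [Subgroup.mem_comap, ← hPQ]
    exact ⟨_, rfl⟩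
  rw [card_eq_ker_mul_range (P.comp (P.range.comap Q).subtype)]
  congr 1
  · have h1 : (P.comp (P.range.comap Q).subtype).ker =
        (P.ker ⊓ Q.ker).subgroupOf (P.range.comap Q) := by
      ext a
      rw [MonoidHom.mem_ker, Subgroup.mem_subgroupOf, MonoidHom.comp_apply, Subgroup.subtype_apply]
      constructor
      · intro h
        refine ⟨h, ?_⟩
        have h2 : Q (a : W) ∈ P.ker ⊓ P.range := by
          refine Subgroup.mem_inf.2 ⟨?_, a.2⟩
          rw [MonoidHom.mem_ker, hPQ, h, map_one]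
        rw [hdisj, Subgroup.mem_bot] at h2
        exact h2
      · intro h
        exact h.1
    rw [h1]
    exact Nat.card_congr (Subgroup.subgroupOfEquivOfLe hle).toEquiv
  · have h2 : (P.comp (P.range.comap Q).subtype).range = P.range := by
      apply le_antisymm
      · rintro _ ⟨a, rfl⟩
        exact ⟨a, rfl⟩
      · intro c hc
        obtain ⟨r, hr, hrc⟩ := exists_range_of_disjoint P hdisj hc
        exact ⟨⟨r, hRK hr⟩, hrc⟩
    rw [h2]

theorem card_pairs (hPQ : ∀ a, P (Q a) = Q (P a)) (hdisj : P.ker ⊓ P.range = ⊥) :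
    Nat.card {q : W × W // P q.2 = Q q.1} =
      Nat.card W * Nat.card (P.ker ⊓ Q.ker : Subgroup W) := by
  classical
  have hex : ∀ a : P.range.comap Q, ∃ b : W, P b = Q a := fun a => a.2
  choose β hβ using hex
  have e : {q : W × W // P q.2 = Q q.1} ≃ (P.range.comap Q) × P.ker :=
    { toFun := fun q => (⟨q.1.1, ⟨q.1.2, q.2⟩⟩, ⟨q.1.2 * (β ⟨q.1.1, ⟨q.1.2, q.2⟩⟩)⁻¹, by
        rw [MonoidHom.mem_ker, map_mul, map_inv, hβ, q.2, mul_inv_cancel]⟩)
      invFun := fun t => ⟨(t.1, t.2 * β t.1), by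
        change P ((t.2 : W) * β t.1) = Q t.1
        rw [map_mul, MonoidHom.mem_ker.1 t.2.2, one_mul, hβ]⟩
      left_inv := by
        rintro ⟨⟨a, b⟩, h⟩
        simp
      right_inv := by
        rintro ⟨⟨a, ha⟩, ⟨z, hz⟩⟩
        simp }
  rw [Nat.card_congr e, Nat.card_prod, card_comap_range P Q hPQ hdisj,
    card_eq_ker_mul_range P]
  ring

end abstract

section concrete

open scoped IsMulCommutative commutatorElement

variable {X : Type*} [Group X] {V : Subgroup X} [hVn : V.Normal] [IsMulCommutative V]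

/-- `b ↦ g b g⁻¹ b⁻¹` on the abelian normal subgroup `V` -/
noncomputable def cm (g : X) : V →* V :=
  (MulAut.conjNormal g : MulAut V).toMonoidHom / MonoidHom.id V

theorem cm_apply (g : X) (b : V) : cm g b = MulAut.conjNormal g b / b := by
  simp [cm]

theorem cm_eq_one_iff (g : X) (b : V) : cm g b = 1 ↔ g * (b : X) = b * g := by
  rw [cm_apply, div_eq_one, Subtype.ext_iff, MulAut.conjNormal_apply, mul_inv_eq_iff_eq_mul]

theorem cm_comm {g h : X} (hgh : g * h = h * g) (a : V) : cm g (cm h a) = cm h (cm g a) := by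
  have h1 : MulAut.conjNormal g (MulAut.conjNormal h a) =
      MulAut.conjNormal h (MulAut.conjNormal g a) := by
    rw [← MulAut.mul_apply, ← MulAut.mul_apply, ← map_mul, ← map_mul, hgh]
  simp only [cm_apply, map_div, h1]
  simp only [div_eq_mul_inv, mul_inv_rev, inv_inv, mul_comm, mul_left_comm, mul_assoc]

theorem cm_eq_cm_iff (g h : X) (a b : V) :
    cm g b = cm h a ↔ (a : X) * (g * b * g⁻¹) = b * (h * a * h⁻¹) := by
  rw [cm_apply, cm_apply, div_eq_div_iff_mul_eq_mul, mul_comm, mul_comm _ b, Subtype.ext_iff]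
  simp [MulAut.conjNormal_apply]

theorem cm_disjoint [Finite X] (g : X) (hcop : (orderOf g).Coprime (Nat.card V)) :
    (cm g).ker ⊓ (cm g).range = (⊥ : Subgroup V) := by
  have hV : V ≤ Subgroup.centralizer (V : Set X) := Subgroup.le_centralizer_iff_isMulCommutative.2
    inferInstance
  have hAV : Subgroup.zpowers g ≤ Subgroup.normalizer (V : Set X) := by
    rw [Subgroup.normalizer_eq_top_iff.2 hVn]; exact le_top
  have key := Cfsg.Agent.H20.centralizer_inf_commutator_eq_bot V (Subgroup.zpowers g) hV hAV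
    (by rwa [Nat.card_zpowers])
  rw [eq_bot_iff]
  intro c hc
  obtain ⟨h1, ⟨b, hb⟩⟩ := Subgroup.mem_inf.1 hc
  rw [MonoidHom.mem_ker, cm_eq_one_iff] at h1
  have h2 : (c : X) ∈ Subgroup.centralizer (Subgroup.zpowers g : Set X) ⊓
      ⁅V, Subgroup.zpowers g⁆ := by
    refine Subgroup.mem_inf.2 ⟨?_, ?_⟩
    · rw [Subgroup.mem_centralizer_iff]
      intro y hy
      obtain ⟨k, rfl⟩ := Subgroup.mem_zpowers_iff.1 hy
      exact (Commute.zpow_left (show Commute g c from h1) k)
    · rw [Subgroup.commutator_comm, ← hb, cm_apply]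
      have h3 : ((MulAut.conjNormal g b / b : V) : X) = ⁅g, (b : X)⁆ := by
        rw [commutatorElement_def, div_eq_mul_inv]
        simp [MulAut.conjNormal_apply]
      rw [h3]
      exact Subgroup.commutator_mem_commutator (Subgroup.mem_zpowers g) b.2
  rw [key, Subgroup.mem_bot] at h2
  exact Subgroup.mem_bot.2 (Subtype.ext h2)

theorem commute_iff {G : Subgroup X} (hGV : Subgroup.IsComplement' V G) (a b : V) (g h : G) :
    Commute ((a : X) * g) ((b : X) * h) ↔ Commute g h ∧ cm (g : X) b = cm (h : X) a := by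
  have e1 : (a : X) * g * (b * h) = (a * (g * b * (g : X)⁻¹)) * (g * h) := by group
  have e2 : (b : X) * h * (a * g) = (b * (h * a * (h : X)⁻¹)) * (h * g) := by group
  rw [cm_eq_cm_iff]
  constructor
  · intro hc
    have hc' : ((a : X) * (g * b * (g : X)⁻¹)) * (g * h) =
        (b * (h * a * (h : X)⁻¹)) * (h * g) := by rw [← e1, ← e2]; exact hc
    have h3 := hGV.1 (a₁ := ((⟨(a : X) * (g * b * (g : X)⁻¹),
      V.mul_mem a.2 (hVn.conj_mem b b.2 g)⟩ : V), g * h))
      (a₂ := ((⟨(b : X) * (h * a * (h : X)⁻¹), V.mul_mem b.2 (hVn.conj_mem a a.2 h)⟩ : V), h * g))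
      hc'
    rw [Prod.ext_iff] at h3
    exact ⟨h3.2, congrArg Subtype.val h3.1⟩
  · rintro ⟨h1, h2⟩
    change _ * _ = _ * _
    have h3 : (g : X) * h = h * g := congrArg Subtype.val h1
    rw [e1, e2, h2, h3]

theorem card_subtype_prod {α β : Type*} [Fintype α] [Finite β] (p : α → Prop) [DecidablePred p]
    (q : α → β → Prop) :
    Nat.card {w : α × β // p w.1 ∧ q w.1 w.2} =
      ∑ a, if p a then Nat.card {b // q a b} else 0 := by
  rw [Nat.card_congr (Equiv.subtypeProdEquivSigmaSubtype (fun a b => p a ∧ q a b)), Nat.card_sigma]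
  refine Finset.sum_congr rfl fun a _ => ?_
  split_ifs with h
  · exact Nat.card_congr (Equiv.subtypeEquivRight fun b => by simp [h])
  · have : IsEmpty {b // p a ∧ q a b} := ⟨fun b => h b.2.1⟩
    exact Nat.card_of_isEmpty

theorem card_comm_sub (G : Subgroup X) (v : X) :
    Nat.card {t : G × G // Commute t.1 t.2 ∧
      ((t.1 : X) * v = v * t.1 ∧ (t.2 : X) * v = v * t.2)} =
    Nat.card (ConjClasses ↥(G ⊓ Subgroup.centralizer ({v} : Set X))) *
      Nat.card ↥(G ⊓ Subgroup.centralizer ({v} : Set X)) := by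
  rw [← card_comm_eq_card_conjClasses_mul_card]
  refine Nat.card_congr
    { toFun := fun t => ⟨(⟨t.1.1, Subgroup.mem_inf.2 ⟨t.1.1.2,
          Subgroup.mem_centralizer_singleton_iff.2 t.2.2.1⟩⟩,
        ⟨t.1.2, Subgroup.mem_inf.2 ⟨t.1.2.2,
          Subgroup.mem_centralizer_singleton_iff.2 t.2.2.2⟩⟩),
        Subtype.ext (congrArg Subtype.val t.2.1.eq : ((t.1.1 * t.1.2 : G) : X) = _)⟩
      invFun := fun t => ⟨(⟨t.1.1, (Subgroup.mem_inf.1 t.1.1.2).1⟩,
        ⟨t.1.2, (Subgroup.mem_inf.1 t.1.2.2).1⟩),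
        Subtype.ext (congrArg Subtype.val t.2.eq :
          ((t.1.1 * t.1.2 : ↥(G ⊓ Subgroup.centralizer ({v} : Set X))) : X) = _),
        Subgroup.mem_centralizer_singleton_iff.1 (Subgroup.mem_inf.1 t.1.1.2).2,
        Subgroup.mem_centralizer_singleton_iff.1 (Subgroup.mem_inf.1 t.1.2.2).2⟩
      left_inv := fun t => rfl
      right_inv := fun t => rfl }

theorem card_comm_eq [Finite X] {G : Subgroup X} [Fintype V] (hGV : Subgroup.IsComplement' V G)
    (hcop : (Nat.card V).Coprime (Nat.card G)) :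
    Nat.card {p : X × X // Commute p.1 p.2} = Nat.card V *
      ∑ v : V, Nat.card {t : G × G // Commute t.1 t.2 ∧
        ((t.1 : X) * v = v * t.1 ∧ (t.2 : X) * v = v * t.2)} := by
  classical
  have := Fintype.ofFinite G
  have hord : ∀ g : G, (orderOf (g : X)).Coprime (Nat.card V) := fun g => by
    rw [Subgroup.orderOf_coe]
    exact (Nat.Coprime.coprime_dvd_left (orderOf_dvd_natCard g) hcop.symm)
  obtain ⟨e, he⟩ : ∃ e : V × G ≃ X, ∀ u, e u = (u.1 : X) * u.2 :=
    ⟨Equiv.ofBijective _ hGV, fun _ => rfl⟩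
  obtain ⟨E, hE⟩ : ∃ E : (G × G) × (V × V) ≃ X × X,
      ∀ w, E w = ((w.2.1 : X) * w.1.1, (w.2.2 : X) * w.1.2) :=
    ⟨(Equiv.prodProdProdComm G G V V).trans ((Equiv.prodCongr (Equiv.prodComm G V)
      (Equiv.prodComm G V)).trans (Equiv.prodCongr e e)), fun w => by
        simp [he]⟩
  have h1 : Nat.card {p : X × X // Commute p.1 p.2} =
      Nat.card {w : (G × G) × (V × V) // Commute w.1.1 w.1.2 ∧
        cm (w.1.1 : X) w.2.2 = cm (w.1.2 : X) w.2.1} := by
    refine (Nat.card_congr (Equiv.subtypeEquiv E fun w => ?_)).symm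
    rw [hE]
    exact (commute_iff hGV w.2.1 w.2.2 w.1.1 w.1.2).symm
  rw [h1, card_subtype_prod (fun t : G × G => Commute t.1 t.2)
    (fun t (r : V × V) => cm (t.1 : X) r.2 = cm (t.2 : X) r.1)]
  have h2 : ∀ t : G × G, (if Commute t.1 t.2 then
      Nat.card {r : V × V // cm (t.1 : X) r.2 = cm (t.2 : X) r.1} else 0) =
      Nat.card V * (if Commute t.1 t.2 then
        Nat.card {v : V // (t.1 : X) * v = v * t.1 ∧ (t.2 : X) * v = v * t.2} else 0) := by
    intro t
    split_ifs with h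
    · rw [card_pairs (cm (t.1 : X)) (cm (t.2 : X))
        (cm_comm (congrArg Subtype.val h : (t.1 : X) * t.2 = t.2 * t.1)) (cm_disjoint _ (hord t.1))]
      congr 1
      refine Nat.card_congr (Equiv.subtypeEquivRight fun v => ?_)
      rw [Subgroup.mem_inf, MonoidHom.mem_ker, MonoidHom.mem_ker, cm_eq_one_iff, cm_eq_one_iff]
    · rw [mul_zero]
  rw [Finset.sum_congr rfl (fun t _ => h2 t), ← Finset.mul_sum,
    ← card_subtype_prod (fun t : G × G => Commute t.1 t.2)
    (fun t (v : V) => (t.1 : X) * v = v * t.1 ∧ (t.2 : X) * v = v * t.2)]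
  congr 1
  rw [← Nat.card_sigma]
  refine Nat.card_congr ((Equiv.subtypeEquiv (Equiv.prodComm _ _) fun w => ?_).trans
    (Equiv.subtypeProdEquivSigmaSubtype (fun (v : V) (t : G × G) => Commute t.1 t.2 ∧
        ((t.1 : X) * v = v * t.1 ∧ (t.2 : X) * v = v * t.2))))
  rfl

end concrete

section reps

universe u

variable {X : Type u} [Group X] [Finite X]

theorem card_conjClasses_conj (G : Subgroup X) {g : X} (hg : g ∈ G) (s : X) :
    Nat.card (ConjClasses ↥(G ⊓ Subgroup.centralizer ({g * s * g⁻¹} : Set X))) =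
      Nat.card (ConjClasses ↥(G ⊓ Subgroup.centralizer ({s} : Set X))) := by
  apply card_conjClasses_congr
  exact
    { toFun := fun x => ⟨g⁻¹ * x * g, Subgroup.mem_inf.2
        ⟨G.mul_mem (G.mul_mem (G.inv_mem hg) (Subgroup.mem_inf.1 x.2).1) hg, by
          have h1 := Subgroup.mem_centralizer_singleton_iff.1 (Subgroup.mem_inf.1 x.2).2
          rw [Subgroup.mem_centralizer_singleton_iff]
          calc g⁻¹ * x * g * s = g⁻¹ * (x * (g * s * g⁻¹)) * g := by group
            _ = g⁻¹ * ((g * s * g⁻¹) * x) * g := by rw [h1]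
            _ = s * (g⁻¹ * x * g) := by group⟩⟩
      invFun := fun y => ⟨g * y * g⁻¹, Subgroup.mem_inf.2
        ⟨G.mul_mem (G.mul_mem hg (Subgroup.mem_inf.1 y.2).1) (G.inv_mem hg), by
          have h1 := Subgroup.mem_centralizer_singleton_iff.1 (Subgroup.mem_inf.1 y.2).2
          rw [Subgroup.mem_centralizer_singleton_iff]
          calc g * y * g⁻¹ * (g * s * g⁻¹) = g * (y * s) * g⁻¹ := by group
            _ = g * (s * y) * g⁻¹ := by rw [h1]
            _ = g * s * g⁻¹ * (g * y * g⁻¹) := by group⟩⟩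
      left_inv := fun x => Subtype.ext (by simp [mul_assoc])
      right_inv := fun y => Subtype.ext (by simp [mul_assoc])
      map_mul' := fun x y => Subtype.ext (by simp [mul_assoc]) }

theorem card_transporter (G : Subgroup X) {g0 : X} (hg0 : g0 ∈ G) (v : X) :
    Nat.card {g : G // (g : X) * (g0 * v * g0⁻¹) * (g : X)⁻¹ = v} =
      Nat.card ↥(G ⊓ Subgroup.centralizer ({v} : Set X)) := by
  refine Nat.card_congr
    { toFun := fun g => ⟨g * g0, Subgroup.mem_inf.2 ⟨G.mul_mem g.1.2 hg0, by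
        rw [Subgroup.mem_centralizer_singleton_iff]
        have h1 := g.2
        calc (g : X) * g0 * v = ((g : X) * (g0 * v * g0⁻¹) * (g : X)⁻¹) * (g * g0) := by group
          _ = v * (g * g0) := by rw [h1]⟩⟩
      invFun := fun c => ⟨⟨c * g0⁻¹, G.mul_mem (Subgroup.mem_inf.1 c.2).1 (G.inv_mem hg0)⟩, by
        have h1 := Subgroup.mem_centralizer_singleton_iff.1 (Subgroup.mem_inf.1 c.2).2
        calc (c : X) * g0⁻¹ * (g0 * v * g0⁻¹) * ((c : X) * g0⁻¹)⁻¹ = (c * v) * (c : X)⁻¹ := by group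
          _ = v := by rw [h1]; group⟩
      left_inv := fun g => Subtype.ext (Subtype.ext (by simp))
      right_inv := fun c => Subtype.ext (by simp) }

theorem sum_orbit_reps {V G : Subgroup X} [hVn : V.Normal] [Fintype V] (S : Finset X)
    (hSV : ∀ s ∈ S, s ∈ V)
    (hrep : ∀ v ∈ V, ∃! s, s ∈ S ∧ ∃ g ∈ G, g * v * g⁻¹ = s) :
    ∑ v : V, Nat.card (ConjClasses ↥(G ⊓ Subgroup.centralizer ({(v : X)} : Set X))) *
        Nat.card ↥(G ⊓ Subgroup.centralizer ({(v : X)} : Set X)) =
      Nat.card G * ∑ s ∈ S, Nat.card (ConjClasses ↥(G ⊓ Subgroup.centralizer ({s} : Set X))) := by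
  classical
  have := Fintype.ofFinite G
  have ha : ∀ v : V, Nat.card ↥(G ⊓ Subgroup.centralizer ({(v : X)} : Set X)) =
      ∑ s ∈ S, ∑ g : G, if (g : X) * s * (g : X)⁻¹ = v then 1 else 0 := by
    intro v
    obtain ⟨s0, ⟨hs0, g0, hg0, hg0v⟩, huniq⟩ := hrep v v.2
    rw [Finset.sum_eq_single s0]
    · rw [← card_transporter G hg0 (v : X), hg0v, Nat.card_eq_fintype_card, Fintype.card_subtype,
        Finset.card_filter]
    · intro s hs hne
      apply Finset.sum_eq_zero
      intro g _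
      rw [if_neg]
      intro hgs
      apply hne
      apply huniq s ⟨hs, (g : X)⁻¹, G.inv_mem g.2, ?_⟩
      rw [← hgs]; group
    · intro h; exact absurd hs0 h
  calc ∑ v : V, Nat.card (ConjClasses ↥(G ⊓ Subgroup.centralizer ({(v : X)} : Set X))) *
        Nat.card ↥(G ⊓ Subgroup.centralizer ({(v : X)} : Set X))
      = ∑ v : V, ∑ s ∈ S, ∑ g : G,
          Nat.card (ConjClasses ↥(G ⊓ Subgroup.centralizer ({(v : X)} : Set X))) *
            (if (g : X) * s * (g : X)⁻¹ = v then 1 else 0) := by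
        refine Finset.sum_congr rfl fun v _ => ?_
        rw [ha v, Finset.mul_sum]
        exact Finset.sum_congr rfl fun s _ => Finset.mul_sum _ _ _
    _ = ∑ s ∈ S, ∑ g : G, ∑ v : V,
          Nat.card (ConjClasses ↥(G ⊓ Subgroup.centralizer ({(v : X)} : Set X))) *
            (if (g : X) * s * (g : X)⁻¹ = v then 1 else 0) := by
        rw [Finset.sum_comm]
        exact Finset.sum_congr rfl fun s _ => Finset.sum_comm
    _ = ∑ s ∈ S, ∑ g : G, Nat.card (ConjClasses ↥(G ⊓ Subgroup.centralizer ({s} : Set X))) := by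
        refine Finset.sum_congr rfl fun s hs => Finset.sum_congr rfl fun g _ => ?_
        rw [Finset.sum_eq_single (⟨(g : X) * s * (g : X)⁻¹, hVn.conj_mem s (hSV s hs) g⟩ : V)]
        · rw [if_pos rfl, mul_one]
          exact card_conjClasses_conj G g.2 s
        · intro v _ hne
          rw [if_neg, mul_zero]
          intro h
          exact hne (Subtype.ext h.symm)
        · intro h; exact absurd (Finset.mem_univ _) h
    _ = Nat.card G * ∑ s ∈ S, Nat.card (ConjClasses ↥(G ⊓ Subgroup.centralizer ({s} : Set X))) := by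
        rw [Finset.mul_sum]
        refine Finset.sum_congr rfl fun s _ => ?_
        rw [Finset.sum_const, Finset.card_univ, smul_eq_mul, ← Nat.card_eq_fintype_card]

end reps

end Cfsg.Agent.H25.KGV
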