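import Cfsg.Agent.S4425
import Cfsg.Agent.Lib.Helper23.CharDeg2
import Cfsg.Agent.H25.Codeg
import Cfsg.Agent.CharLib.Eigen
import Cfsg.Agent.CharLib.Orth

/-!
# `p`-conjugate characters
-/

set_option autoImplicit false

namespace Cfsg.Agent.H25.PConj

open Cfsg Cfsg.Agent.CharLib
open scoped ComplexConjugate

variable {G : Type*} [Group G] [Finite G]

/-- an automorphism fixing a primitive `n`-th root of unity fixes character values at elements
of order dividing `n` -/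
theorem map_char_eq {n : ℕ} (hn : n ≠ 0) (σ : ℂ ≃+* ℂ)
    (hσ : σ (Complex.exp (2 * Real.pi * Complex.I / (n : ℕ))) =
      Complex.exp (2 * Real.pi * Complex.I / (n : ℕ)))
    {χ : G → ℂ} (hχ : IsCharacter G χ) {x : G} (hx : orderOf x ∣ n) : σ (χ x) = χ x := by
  obtain ⟨k, ρ, rfl⟩ := hχ
  obtain ⟨b, μ, hμ, -, h⟩ := character_eq_sum_eigen ρ x
  rw [h, map_sum]
  refine Finset.sum_congr rfl fun i _ => ?_
  have h1 : μ i ^ n = 1 := by
    obtain ⟨c, rfl⟩ := hx
    rw [pow_mul, hμ, one_pow]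
  have := NeZero.mk hn
  obtain ⟨j, -, hj⟩ := (Complex.isPrimitiveRoot_exp n hn).eq_pow_of_pow_eq_one h1
  rw [← hj, map_pow, hσ]

theorem orderOf_dvd_of_not_dvd {p : ℕ} (hp : p.Prime) {x : G} (hx : ¬ p ∣ orderOf x) :
    orderOf x ∣ Nat.card G / p ^ (Nat.card G).factorization p := by
  have h1 : orderOf x ∣ p ^ (Nat.card G).factorization p *
      (Nat.card G / p ^ (Nat.card G).factorization p) := by
    rw [Nat.ordProj_mul_ordCompl_eq_self]; exact orderOf_dvd_natCard x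
  refine Nat.Coprime.dvd_of_dvd_mul_left ?_ h1
  exact Nat.Coprime.pow_right _ ((Nat.Prime.coprime_iff_not_dvd hp).2 hx).symm

theorem core {p : ℕ} [Fact p.Prime] (χ : IrrCharacter G) (S : Finset (IrrCharacter G))
    (hχS : χ ∈ S)
    (hreg : ∀ ψ ∈ S, ∀ x : G, ¬ p ∣ orderOf x → (ψ : G → ℂ) x = (χ : G → ℂ) x)
    (hsyl : ∀ ψ ∈ S, ∀ (H : Subgroup G) [Fintype H],
      ∑ u : H, (ψ : G → ℂ) u = ∑ u : H, (χ : G → ℂ) u) :
    (S.card * charDegree (χ : G → ℂ)).factorization p ≤ (Nat.card G).factorization p ∧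
    (p ^ (Nat.card G).factorization p ∣ S.card * charDegree (χ : G → ℂ) →
      p ^ (Nat.card G).factorization p ∣ charDegree (χ : G → ℂ)) := by
  classical
  cases nonempty_fintype G
  obtain ⟨a, ha⟩ : ∃ a, a = (Nat.card G).factorization p := ⟨_, rfl⟩
  obtain ⟨b, hb⟩ : ∃ b, b = (charDegree (χ : G → ℂ)).factorization p := ⟨_, rfl⟩
  have hp : p.Prime := Fact.out
  have hd := charDegree_pos χ
  have hba : b ≤ a := by
    rw [ha, hb]
    exact (Nat.factorization_le_iff_dvd hd.ne' Nat.card_pos.ne').2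
      (Cfsg.Agent.Lib.Helper23.charDegree_dvd_card χ) p
  obtain ⟨Θ, hΘ⟩ : ∃ Θ : G → ℂ, Θ = fun x => if p ∣ orderOf x then (0 : ℂ) else
    ((p ^ (a - b) : ℕ) : ℂ) * (χ : G → ℂ) x := ⟨_, rfl⟩
  have hgen : IsGeneralizedCharacter G Θ := by
    rw [hΘ, ha, hb]; exact (Cfsg.Agent.S4425.result p χ).1
  obtain ⟨z, hz⟩ := isGeneralizedCharacter_iff.1 hgen
  have hzin : ∀ ψ : IrrCharacter G, classInner Θ (ψ : G → ℂ) = z ψ := fun ψ => by
    rw [hz]; exact classInner_sum_smul_irr _ ψ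
  have hS : ∀ ψ ∈ S, z ψ = z χ := by
    intro ψ hψ
    have : (z ψ : ℂ) = z χ := by
      rw [← hzin, ← hzin]
      unfold classInner
      congr 1
      refine Finset.sum_congr rfl fun x _ => ?_
      rw [hΘ]
      by_cases hx : p ∣ orderOf x
      · simp [hx]
      · simp only [if_neg hx]; rw [hreg ψ hψ x hx]
    exact_mod_cast this
  have hnorm : classInner Θ Θ = ((p ^ (a - b) : ℕ) : ℂ) * z χ := by
    rw [← hzin]
    unfold classInner
    rw [mul_left_comm]
    refine congrArg _ ?_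
    rw [Finset.mul_sum]
    refine Finset.sum_congr rfl fun x _ => ?_
    rw [hΘ]
    by_cases hx : p ∣ orderOf x
    · simp [hx]
    · simp only [if_neg hx, map_mul, map_natCast]; ring
  have hnorm2 : classInner Θ Θ = ∑ ψ, (z ψ : ℂ) * (z ψ : ℂ) := by
    conv_lhs => rw [hz]
    rw [classInner_sum_sum]
    exact Finset.sum_congr rfl fun ψ _ => by rw [map_intCast]
  have hint : ((p ^ (a - b) : ℕ) : ℤ) * z χ = ∑ ψ, z ψ * z ψ := by
    have : ((((p ^ (a - b) : ℕ) : ℤ) * z χ : ℤ) : ℂ) = ((∑ ψ, z ψ * z ψ : ℤ) : ℂ) := by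
      push_cast
      rw [← hnorm2, hnorm]
      push_cast
      rfl
    exact_mod_cast this
  have hc : (0 : ℤ) < ((p ^ (a - b) : ℕ) : ℤ) := by
    have := pow_pos hp.pos (a - b)
    exact_mod_cast this
  have hzpos : 0 < z χ := by
    have h0 : z χ ≠ 0 := by
      intro h0
      rw [h0, mul_zero] at hint
      have hall : ∀ ψ, z ψ = 0 := fun ψ => by
        have := (Finset.sum_eq_zero_iff_of_nonneg (fun ψ _ => mul_self_nonneg (z ψ))).1 hint.symm ψ
          (Finset.mem_univ ψ)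
        exact mul_self_eq_zero.1 this
      have h1 : Θ 1 = 0 := by rw [hz]; simp [hall]
      rw [hΘ] at h1
      simp only [orderOf_one, Nat.dvd_one, hp.ne_one, if_false] at h1
      rcases mul_eq_zero.1 h1 with h | h
      · exact (pow_pos hp.pos (a - b)).ne' (by exact_mod_cast h)
      · exact irr_apply_one_ne_zero χ h
    have h1 : z χ * z χ ≤ ∑ ψ, z ψ * z ψ :=
      Finset.single_le_sum (f := fun ψ => z ψ * z ψ) (fun ψ _ => mul_self_nonneg _)
        (Finset.mem_univ χ)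
    by_contra hneg
    have h2 : z χ < 0 := lt_of_le_of_ne (not_lt.1 hneg) h0
    nlinarith
  have hsumSeq : ∑ ψ ∈ S, z ψ * z ψ = (S.card : ℤ) * (z χ * z χ) := by
    rw [Finset.sum_congr rfl (fun ψ hψ => by rw [hS ψ hψ] :
      ∀ ψ ∈ S, z ψ * z ψ = z χ * z χ), Finset.sum_const, nsmul_eq_mul]
  have hsumS : (S.card : ℤ) * (z χ * z χ) ≤ ∑ ψ, z ψ * z ψ := by
    rw [← hsumSeq]
    exact Finset.sum_le_sum_of_subset_of_nonneg (Finset.subset_univ _)
      (fun ψ _ _ => mul_self_nonneg _)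
  have hrc : (S.card : ℤ) * z χ ≤ ((p ^ (a - b) : ℕ) : ℤ) := by
    have : (S.card : ℤ) * z χ * z χ ≤ ((p ^ (a - b) : ℕ) : ℤ) * z χ := by
      rw [hint, mul_assoc]; exact hsumS
    exact le_of_mul_le_mul_right this hzpos
  have hr_le : S.card ≤ p ^ (a - b) := by
    have : (S.card : ℤ) ≤ ((p ^ (a - b) : ℕ) : ℤ) := by
      have h0 : (0 : ℤ) ≤ (S.card : ℤ) := Int.natCast_nonneg _
      nlinarith
    exact_mod_cast this
  have hrpos : 0 < S.card := Finset.card_pos.2 ⟨χ, hχS⟩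
  have hfac : (S.card * charDegree (χ : G → ℂ)).factorization p = S.card.factorization p + b := by
    rw [Nat.factorization_mul hrpos.ne' hd.ne', hb]; rfl
  have hνr : S.card.factorization p ≤ a - b := by
    have h1 : p ^ S.card.factorization p ≤ S.card := Nat.ordProj_le p hrpos.ne'
    exact (Nat.pow_le_pow_iff_right hp.one_lt).1 (h1.trans hr_le)
  refine ⟨by rw [hfac, ← ha]; omega, fun hdvd => ?_⟩
  have h1 : a ≤ S.card.factorization p + b := by
    rw [← hfac]
    exact (hp.pow_dvd_iff_le_factorization (Nat.mul_pos hrpos hd).ne').1 (ha ▸ hdvd)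
  have h2 : p ^ (a - b) ∣ S.card := (hp.pow_dvd_iff_le_factorization hrpos.ne').2 (by omega)
  have hr_eq : S.card = p ^ (a - b) := le_antisymm hr_le (Nat.le_of_dvd hrpos h2)
  have hz1 : z χ = 1 := by
    rw [hr_eq] at hrc
    nlinarith
  have hzout : ∀ ψ ∉ S, z ψ = 0 := by
    intro ψ hψ
    by_contra hne
    have h3 : ∑ ψ ∈ S, z ψ * z ψ < ∑ ψ, z ψ * z ψ :=
      Finset.sum_lt_sum_of_subset (Finset.subset_univ _) (Finset.mem_univ ψ) hψ
        (mul_self_pos.2 hne) (fun _ _ _ => mul_self_nonneg _)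
    rw [← hint, hsumSeq, hz1, hr_eq] at h3
    simp at h3
  have hΘS : Θ = ∑ ψ ∈ S, (ψ : G → ℂ) := by
    rw [hz, ← Finset.sum_subset (Finset.subset_univ S) (fun ψ _ hψ => by rw [hzout ψ hψ]; simp)]
    exact Finset.sum_congr rfl fun ψ hψ => by rw [hS ψ hψ, hz1]; simp
  obtain ⟨P⟩ : Nonempty (Sylow p G) := inferInstance
  have hsum1 : ∑ u : (P : Subgroup G), Θ u = ((p ^ (a - b) : ℕ) : ℂ) * (χ : G → ℂ) 1 := by
    rw [Finset.sum_eq_single 1]
    · rw [hΘ]; simp [hp.ne_one]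
    · intro u _ hu
      rw [hΘ]
      have h3 : p ∣ orderOf (u : G) := by
        obtain ⟨k, hk⟩ := (IsPGroup.iff_orderOf.1 P.isPGroup') u
        rw [Subgroup.orderOf_coe, hk]
        have hk0 : k ≠ 0 := by
          rintro rfl
          rw [pow_zero, orderOf_eq_one_iff] at hk
          exact hu hk
        exact dvd_pow_self p hk0
      exact if_pos h3
    · intro h; exact absurd (Finset.mem_univ _) h
  have hsum2 : ∑ u : (P : Subgroup G), Θ u =
      (S.card : ℂ) * ∑ u : (P : Subgroup G), (χ : G → ℂ) u := by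
    rw [hΘS]
    simp only [Finset.sum_apply]
    rw [Finset.sum_comm, Finset.sum_congr rfl (fun ψ hψ => hsyl ψ hψ (P : Subgroup G)),
      Finset.sum_const, nsmul_eq_mul]
  obtain ⟨m, hm⟩ := classInner_char_nat
    (isCharacter_restrict (isCharacter_of_irr χ.2) (P : Subgroup G))
    (isCharacter_of_irr (isIrrCharacter_one (G := (P : Subgroup G))))
  have hsum3 : ∑ u : (P : Subgroup G), (χ : G → ℂ) u = (Nat.card (P : Subgroup G) : ℂ) * m := by
    rw [← hm]
    unfold classInner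
    have hne : (Nat.card (P : Subgroup G) : ℂ) ≠ 0 := Nat.cast_ne_zero.2 Nat.card_pos.ne'
    rw [← mul_assoc, mul_inv_cancel₀ hne, one_mul]
    simp
  have hcardP : Nat.card (P : Subgroup G) = p ^ a := by rw [ha]; exact P.card_eq_multiplicity
  have hfin : charDegree (χ : G → ℂ) = p ^ a * m := by
    have h : ((p ^ (a - b) : ℕ) : ℂ) * (charDegree (χ : G → ℂ) : ℂ) =
        ((p ^ (a - b) : ℕ) : ℂ) * ((p ^ a * m : ℕ) : ℂ) := by
      rw [← charDegree_irr, ← hsum1, hsum2, hsum3, hr_eq, hcardP]; push_cast; ring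
    have hc' : ((p ^ (a - b) : ℕ) : ℂ) ≠ 0 := Nat.cast_ne_zero.2 (pow_pos hp.pos _).ne'
    exact_mod_cast mul_left_cancel₀ hc' h
  rw [← ha, hfin]
  exact Dvd.intro _ rfl

end Cfsg.Agent.H25.PConj
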