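import Mathlib
import Cfsg.Prelude.Def_RootSubgroups

set_option autoImplicit false

namespace Cfsg.Agent.H25

open Cfsg

variable {G : Type*} [Group G]

theorem mem_conjBy {A : Subgroup G} {g x : G} : x ∈ conjBy A g ↔ g⁻¹ * x * g ∈ A := by
  constructor
  · rintro ⟨a, ha, rfl⟩
    simpa [mul_assoc] using ha
  · intro h
    exact ⟨g⁻¹ * x * g, h, by simp [mul_assoc]⟩

theorem conj_mem_conjBy {A : Subgroup G} {a : G} (ha : a ∈ A) (g : G) : g * a * g⁻¹ ∈ conjBy A g :=
  ⟨a, ha, by simp⟩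

theorem conjBy_one (A : Subgroup G) : conjBy A 1 = A := by
  ext x; simp

theorem conjBy_mul (A : Subgroup G) (g h : G) : conjBy A (g * h) = conjBy (conjBy A h) g := by
  ext x; simp [mul_assoc]

theorem conjBy_conjBy (A : Subgroup G) (g h : G) : conjBy (conjBy A h) g = conjBy A (g * h) :=
  (conjBy_mul A g h).symm

theorem conjBy_inv_conjBy (A : Subgroup G) (g : G) : conjBy (conjBy A g) g⁻¹ = A := by
  rw [conjBy_conjBy]; simp [conjBy_one]

theorem conjBy_conjBy_inv (A : Subgroup G) (g : G) : conjBy (conjBy A g⁻¹) g = A := by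
  rw [conjBy_conjBy]; simp [conjBy_one]

theorem conjBy_of_mem {A : Subgroup G} {g : G} (hg : g ∈ A) : conjBy A g = A := by
  ext x
  rw [mem_conjBy]
  constructor
  · intro h
    have := A.mul_mem (A.mul_mem hg h) (A.inv_mem hg)
    simpa [mul_assoc] using this
  · intro h
    exact A.mul_mem (A.mul_mem (A.inv_mem hg) h) hg

theorem conjBy_injective (g : G) : Function.Injective (fun A : Subgroup G => conjBy A g) := by
  intro A B h
  have := congrArg (fun C => conjBy C g⁻¹) h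
  simpa [conjBy_inv_conjBy] using this

theorem conjBy_inj {A B : Subgroup G} {g : G} : conjBy A g = conjBy B g ↔ A = B :=
  (conjBy_injective g).eq_iff

theorem conjBy_eq_iff {A B : Subgroup G} {g : G} : conjBy A g = B ↔ A = conjBy B g⁻¹ := by
  constructor
  · rintro rfl; rw [conjBy_inv_conjBy]
  · rintro rfl; rw [conjBy_conjBy_inv]

theorem conjBy_eq_self_iff {A : Subgroup G} {g : G} :
    conjBy A g = A ↔ g ∈ Subgroup.normalizer (A : Set G) :=
  Subgroup.mem_normalizer_iff_map_conj_eq.symm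

theorem conjBy_mono {A B : Subgroup G} (h : A ≤ B) (g : G) : conjBy A g ≤ conjBy B g :=
  Subgroup.map_mono h

theorem conjBy_le_of_mem {A X : Subgroup G} (h : A ≤ X) {g : G} (hg : g ∈ X) : conjBy A g ≤ X := by
  rw [← conjBy_of_mem hg]; exact conjBy_mono h g

theorem conjBy_sup (A B : Subgroup G) (g : G) : conjBy (A ⊔ B) g = conjBy A g ⊔ conjBy B g :=
  Subgroup.map_sup A B _

theorem conjBy_bot (g : G) : conjBy (⊥ : Subgroup G) g = ⊥ := Subgroup.map_bot _

theorem conjBy_eq_bot_iff {A : Subgroup G} {g : G} : conjBy A g = ⊥ ↔ A = ⊥ := by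
  rw [conjBy_eq_iff, conjBy_bot]

/-! ### Rank one pairs -/

section RankOne

variable {A B : Subgroup G}

theorem RankOne.inf_normalizer (h : IsRankOnePair A B) :
    A ⊓ Subgroup.normalizer (B : Set G) = ⊥ := by
  rw [eq_bot_iff]
  rintro a ⟨ha, han⟩
  by_contra ha1
  have ha1 : a ≠ 1 := ha1
  obtain ⟨b, hb, -, hab⟩ := h.cond_left a ha ha1
  have h1 : conjBy B a⁻¹ = B := conjBy_eq_self_iff.2 (inv_mem han)
  rw [h1, conjBy_eq_iff, inv_inv, conjBy_of_mem hb] at hab
  exact h.ne hab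

theorem RankOne.eq_one_of_conjBy_eq (h : IsRankOnePair A B) {a : G} (ha : a ∈ A)
    (hB : conjBy B a = B) : a = 1 := by
  have : a ∈ A ⊓ Subgroup.normalizer (B : Set G) := ⟨ha, conjBy_eq_self_iff.1 hB⟩
  rw [RankOne.inf_normalizer h] at this
  exact this

theorem RankOne.conjBy_right_inj (h : IsRankOnePair A B) {a a' : G} (ha : a ∈ A) (ha' : a' ∈ A)
    (hB : conjBy B a = conjBy B a') : a = a' := by
  have : conjBy B (a'⁻¹ * a) = B := by
    rw [conjBy_mul, hB, conjBy_inv_conjBy]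
  have := RankOne.eq_one_of_conjBy_eq h (A.mul_mem (A.inv_mem ha') ha) this
  exact (inv_mul_eq_one.1 this).symm

theorem RankOne.left_ne_bot (h : IsRankOnePair A B) : A ≠ ⊥ := by
  intro hA
  have hB : B ≠ ⊥ := fun hB => h.ne (hA.trans hB.symm)
  obtain ⟨⟨b, hb⟩, hb1'⟩ := Subgroup.ne_bot_iff_exists_ne_one.1 hB
  have hb1 : b ≠ 1 := fun h => hb1' (Subtype.ext h)
  obtain ⟨a, ha, ha1, -⟩ := h.cond_right b hb hb1
  rw [hA] at ha
  exact ha1 ha

theorem RankOne.right_ne_bot (h : IsRankOnePair A B) : B ≠ ⊥ :=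
  RankOne.left_ne_bot (RankOnePair_symm h)

theorem RankOne.exists_ne_one (h : IsRankOnePair A B) : ∃ a ∈ A, a ≠ 1 := by
  obtain ⟨a, ha⟩ := Subgroup.ne_bot_iff_exists_ne_one.1 (RankOne.left_ne_bot h)
  exact ⟨a.1, a.2, fun h => ha (Subtype.ext h)⟩

/-- `B` is a conjugate of `A` under `A ⊔ B`. -/
theorem RankOne.right_mem_unipotent (h : IsRankOnePair A B) : B ∈ unipotentSubgroups A B := by
  obtain ⟨a, ha, ha1⟩ := RankOne.exists_ne_one h
  obtain ⟨b, hb, -, hab⟩ := h.cond_left a ha ha1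
  refine ⟨a * b⁻¹, ?_, ?_⟩
  · exact (A ⊔ B).mul_mem (Subgroup.mem_sup_left ha) ((A ⊔ B).inv_mem (Subgroup.mem_sup_right hb))
  · rw [conjBy_mul, hab, conjBy_conjBy_inv]

theorem RankOne.left_mem_unipotent : A ∈ unipotentSubgroups A B :=
  ⟨1, one_mem _, (conjBy_one A).symm⟩

/-- The key description of the set of unipotent subgroups: `Ω = {A} ∪ B^A`. -/
theorem RankOne.mem_unipotent_iff (h : IsRankOnePair A B) {C : Subgroup G} :
    C ∈ unipotentSubgroups A B ↔ C = A ∨ ∃ a ∈ A, C = conjBy B a := by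
  constructor
  · rintro ⟨x₀, hx₀, rfl⟩
    have gen : ∀ x ∈ (A : Set G) ∪ B, ∀ C : Subgroup G, (C = A ∨ ∃ a ∈ A, C = conjBy B a) →
        (conjBy C x = A ∨ ∃ a ∈ A, conjBy C x = conjBy B a) := by
      intro x hx C hC
      rcases hx with hx | hx
      · -- x ∈ A
        rcases hC with hC | ⟨a, ha, rfl⟩
        · left; rw [hC]; exact conjBy_of_mem hx
        · right; exact ⟨x * a, A.mul_mem hx ha, by rw [conjBy_conjBy]⟩
      · -- x ∈ B
        have hAx : ∀ y ∈ B, conjBy A y = A ∨ ∃ a ∈ A, conjBy A y = conjBy B a := by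
          intro y hy
          by_cases hy1 : y = 1
          · left; rw [hy1, conjBy_one]
          · right
            have hy1' : y⁻¹ ≠ 1 := by simpa using hy1
            obtain ⟨a, ha, -, hab⟩ := h.cond_right y⁻¹ (B.inv_mem hy) hy1'
            rw [inv_inv] at hab
            exact ⟨a⁻¹, A.inv_mem ha, hab.symm⟩
        rcases hC with hC | ⟨a, ha, rfl⟩
        · rw [hC]; exact hAx x hx
        · by_cases ha1 : a = 1
          · right; exact ⟨1, one_mem _, by rw [ha1, conjBy_one, conjBy_of_mem hx]⟩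
          · have ha1' : a⁻¹ ≠ 1 := by simpa using ha1
            obtain ⟨b, hb, -, hab⟩ := h.cond_left a⁻¹ (A.inv_mem ha) ha1'
            rw [inv_inv] at hab
            rw [← hab, conjBy_conjBy]
            exact hAx _ (B.mul_mem hx (B.inv_mem hb))
    have key : ∀ x ∈ A ⊔ B, (∀ C : Subgroup G, (C = A ∨ ∃ a ∈ A, C = conjBy B a) →
        (conjBy C x = A ∨ ∃ a ∈ A, conjBy C x = conjBy B a)) ∧
        (∀ C : Subgroup G, (C = A ∨ ∃ a ∈ A, C = conjBy B a) →
        (conjBy C x⁻¹ = A ∨ ∃ a ∈ A, conjBy C x⁻¹ = conjBy B a)) := by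
      intro x hx
      rw [Subgroup.sup_eq_closure] at hx
      induction hx using Subgroup.closure_induction with
      | mem x hx =>
        refine ⟨gen x hx, gen x⁻¹ ?_⟩
        rcases hx with hx | hx
        · exact Or.inl (A.inv_mem hx)
        · exact Or.inr (B.inv_mem hx)
      | one => simp only [inv_one, conjBy_one]; exact ⟨fun C hC => hC, fun C hC => hC⟩
      | mul x y _ _ hx hy =>
        refine ⟨fun C hC => ?_, fun C hC => ?_⟩
        · rw [conjBy_mul]
          exact hx.1 _ (hy.1 _ hC)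
        · rw [mul_inv_rev, conjBy_mul]
          exact hy.2 _ (hx.2 _ hC)
      | inv x _ hx =>
        refine ⟨hx.2, ?_⟩
        rw [inv_inv]; exact hx.1
    exact (key x₀ hx₀).1 A (Or.inl rfl)
  · rintro (rfl | ⟨a, ha, rfl⟩)
    · exact RankOne.left_mem_unipotent
    · obtain ⟨x, hx, hB⟩ := RankOne.right_mem_unipotent h
      exact ⟨a * x, (A ⊔ B).mul_mem (Subgroup.mem_sup_left ha) hx, by rw [conjBy_mul, ← hB]⟩

theorem RankOne.conjBy_mem_unipotent {C : Subgroup G} (hC : C ∈ unipotentSubgroups A B) {x : G}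
    (hx : x ∈ A ⊔ B) : conjBy C x ∈ unipotentSubgroups A B := by
  obtain ⟨y, hy, rfl⟩ := hC
  exact ⟨x * y, mul_mem hx hy, by rw [conjBy_conjBy]⟩

theorem RankOne.conjBy_right_ne_left (h : IsRankOnePair A B) {a : G} (ha : a ∈ A) :
    conjBy B a ≠ A := by
  intro hB
  rw [conjBy_eq_iff, conjBy_of_mem (A.inv_mem ha)] at hB
  exact h.ne hB.symm

/-- Every ordered pair of distinct unipotent subgroups can be moved to `(A, B)`. -/
theorem RankOne.exists_conjBy_pair (h : IsRankOnePair A B) {C₁ C₂ : Subgroup G}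
    (h₁ : C₁ ∈ unipotentSubgroups A B) (h₂ : C₂ ∈ unipotentSubgroups A B) (hne : C₁ ≠ C₂) :
    ∃ x ∈ A ⊔ B, conjBy C₁ x = A ∧ conjBy C₂ x = B := by
  obtain ⟨y, hy, rfl⟩ := h₁
  have h₂' : conjBy C₂ y⁻¹ ∈ unipotentSubgroups A B :=
    RankOne.conjBy_mem_unipotent h₂ (inv_mem hy)
  rcases (RankOne.mem_unipotent_iff h).1 h₂' with h3 | ⟨a, ha, h3⟩
  · exact absurd (conjBy_eq_iff.1 h3 ▸ by rw [inv_inv]) hne
  · refine ⟨a⁻¹ * y⁻¹, mul_mem (inv_mem (Subgroup.mem_sup_left ha)) (inv_mem hy), ?_, ?_⟩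
    · rw [conjBy_mul, conjBy_inv_conjBy, conjBy_of_mem (A.inv_mem ha)]
    · rw [conjBy_mul, h3, conjBy_inv_conjBy]

theorem RankOne.two_transitive (h : IsRankOnePair A B) {C₁ C₂ D₁ D₂ : Subgroup G}
    (h₁ : C₁ ∈ unipotentSubgroups A B) (h₂ : C₂ ∈ unipotentSubgroups A B)
    (h₃ : D₁ ∈ unipotentSubgroups A B) (h₄ : D₂ ∈ unipotentSubgroups A B)
    (hC : C₁ ≠ C₂) (hD : D₁ ≠ D₂) :
    ∃ x ∈ A ⊔ B, conjBy C₁ x = D₁ ∧ conjBy C₂ x = D₂ := by
  obtain ⟨x, hx, hx1, hx2⟩ := RankOne.exists_conjBy_pair h h₁ h₂ hC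
  obtain ⟨y, hy, hy1, hy2⟩ := RankOne.exists_conjBy_pair h h₃ h₄ hD
  refine ⟨y⁻¹ * x, mul_mem (inv_mem hy) hx, ?_, ?_⟩
  · rw [conjBy_mul, hx1, ← hy1, conjBy_inv_conjBy]
  · rw [conjBy_mul, hx2, ← hy2, conjBy_inv_conjBy]

theorem RankOne.regular (h : IsRankOnePair A B) {C D : Subgroup G}
    (h₁ : C ∈ unipotentSubgroups A B) (h₂ : D ∈ unipotentSubgroups A B)
    (hC : C ≠ A) (hD : D ≠ A) : ∃! a : G, a ∈ A ∧ conjBy C a = D := by
  obtain ⟨c, hc, rfl⟩ := ((RankOne.mem_unipotent_iff h).1 h₁).resolve_left hC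
  obtain ⟨d, hd, rfl⟩ := ((RankOne.mem_unipotent_iff h).1 h₂).resolve_left hD
  refine ⟨d * c⁻¹, ⟨A.mul_mem hd (A.inv_mem hc), by rw [conjBy_conjBy]; simp⟩, ?_⟩
  rintro a ⟨ha, hac⟩
  rw [conjBy_conjBy] at hac
  have := RankOne.conjBy_right_inj h (A.mul_mem ha hc) hd hac
  rw [← this]; simp

theorem RankOne.three_unipotents (h : IsRankOnePair A B) :
    ∃ C₁ ∈ unipotentSubgroups A B, ∃ C₂ ∈ unipotentSubgroups A B, ∃ C₃ ∈ unipotentSubgroups A B,
      C₁ ≠ C₂ ∧ C₁ ≠ C₃ ∧ C₂ ≠ C₃ := by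
  obtain ⟨a, ha, ha1⟩ := RankOne.exists_ne_one h
  refine ⟨A, RankOne.left_mem_unipotent, B, RankOne.right_mem_unipotent h, conjBy B a,
    (RankOne.mem_unipotent_iff h).2 (Or.inr ⟨a, ha, rfl⟩), h.ne,
    (RankOne.conjBy_right_ne_left h ha).symm, ?_⟩
  intro hB
  exact ha1 (RankOne.eq_one_of_conjBy_eq h ha hB.symm)

/-- If `N ≤ ⟨A,B⟩` is normalized by `⟨A,B⟩` then `NA = ⟨A,B⟩` or `N` centralizes `⟨A,B⟩`. -/
theorem RankOne.normal_dichotomy (h : IsRankOnePair A B) {N : Subgroup G} (hN : N ≤ A ⊔ B)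
    (hnorm : ∀ x ∈ A ⊔ B, ∀ n ∈ N, x * n * x⁻¹ ∈ N) :
    N ⊔ A = A ⊔ B ∨ ∀ n ∈ N, ∀ x ∈ A ⊔ B, n * x = x * n := by
  by_cases hcase : ∃ n ∈ N, conjBy A n ≠ A
  · left
    obtain ⟨n, hn, hne⟩ := hcase
    have hmem : conjBy A n ∈ unipotentSubgroups A B :=
      RankOne.conjBy_mem_unipotent RankOne.left_mem_unipotent (hN hn)
    obtain ⟨a, ha, hab⟩ := ((RankOne.mem_unipotent_iff h).1 hmem).resolve_left hne
    apply le_antisymm (sup_le hN le_sup_left)
    refine sup_le le_sup_right ?_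
    have hB : B = conjBy A (a⁻¹ * n) := by
      rw [conjBy_mul, hab, conjBy_inv_conjBy]
    rw [hB]
    exact conjBy_le_of_mem le_sup_right
      (mul_mem (inv_mem (Subgroup.mem_sup_right ha)) (Subgroup.mem_sup_left hn))
  · right
    push Not at hcase
    have hall : ∀ C ∈ unipotentSubgroups A B, ∀ n ∈ N, conjBy C n = C := by
      rintro C ⟨x, hx, rfl⟩ n hn
      have h1 : x⁻¹ * n * x ∈ N := by
        have := hnorm x⁻¹ (inv_mem hx) n hn
        simpa using this
      have h2 : n * x = x * (x⁻¹ * n * x) := by group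
      rw [conjBy_conjBy, h2, conjBy_mul, hcase _ h1]
    have comm : ∀ {A' B' : Subgroup G}, IsRankOnePair A' B' → A' ≤ A ⊔ B →
        (∀ n ∈ N, conjBy A' n = A') → (∀ n ∈ N, conjBy B' n = B') →
        ∀ n ∈ N, ∀ a ∈ A', n * a = a * n := by
      intro A' B' h' hA' hNA hNB n hn a ha
      have h1 : n * a * n⁻¹ ∈ A' := by
        have := conj_mem_conjBy ha n
        rwa [hNA n hn] at this
      have h2 : n * a * n⁻¹ * a⁻¹ ∈ A' := A'.mul_mem h1 (A'.inv_mem ha)
      have h3 : n * a * n⁻¹ * a⁻¹ ∈ N := by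
        have := N.mul_mem hn (hnorm a (hA' ha) n⁻¹ (N.inv_mem hn))
        simpa [mul_assoc] using this
      have h4 := RankOne.eq_one_of_conjBy_eq h' h2 (hNB _ h3)
      have : n * a = (n * a * n⁻¹ * a⁻¹) * (a * n) := by group
      rw [this, h4, one_mul]
    have hA := comm h le_sup_left (hall A RankOne.left_mem_unipotent)
      (hall B (RankOne.right_mem_unipotent h))
    have hB := comm (RankOnePair_symm h) le_sup_right (hall B (RankOne.right_mem_unipotent h))
      (hall A RankOne.left_mem_unipotent)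
    intro n hn x hx
    have : A ⊔ B ≤ Subgroup.centralizer {n} := by
      refine sup_le ?_ ?_
      · intro a ha
        rw [Subgroup.mem_centralizer_singleton_iff]
        exact (hA n hn a ha).symm
      · intro b hb
        rw [Subgroup.mem_centralizer_singleton_iff]
        exact (hB n hn b hb).symm
    have := this hx
    rw [Subgroup.mem_centralizer_singleton_iff] at this
    exact this.symm

theorem RankOne.not_normal (h : IsRankOnePair A B) : ¬ ∀ x ∈ A ⊔ B, conjBy A x = A := by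
  intro hall
  obtain ⟨x, hx, hB⟩ := RankOne.right_mem_unipotent h
  rw [hall x hx] at hB
  exact h.ne hB.symm

theorem conjBy_of_central {C : Subgroup G} {z : G} (hz : ∀ c ∈ C, z * c = c * z) :
    conjBy C z = C := by
  ext x
  constructor
  · rintro ⟨c, hc, rfl⟩
    simp only [MulEquiv.coe_toMonoidHom, MulAut.conj_apply]
    rw [hz c hc, mul_inv_cancel_right]
    exact hc
  · intro hx
    refine ⟨x, hx, ?_⟩
    simp only [MulEquiv.coe_toMonoidHom, MulAut.conj_apply]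
    rw [hz x hx, mul_inv_cancel_right]

end RankOne

end Cfsg.Agent.H25
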