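import Cfsg.Agent.H25.RankOne

set_option autoImplicit false

namespace Cfsg.Agent.H25

open Cfsg

variable {G : Type*} [Group G] {A B : Subgroup G}

theorem conjBy_isNilpotent {A : Subgroup G} (h : Group.IsNilpotent A) (g : G) :
    Group.IsNilpotent ↥(conjBy A g) :=
  Group.nilpotent_of_mulEquiv (A.equivMapOfInjective _ (MulAut.conj g).injective)

theorem RankOneCondition.conj (h : RankOneCondition A B) (g : G) :
    RankOneCondition (conjBy A g) (conjBy B g) := by
  rintro _ ⟨a, ha, rfl⟩ ha1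
  simp only [MulEquiv.coe_toMonoidHom, MulAut.conj_apply] at ha1 ⊢
  have ha1' : a ≠ 1 := by
    rintro rfl; simp at ha1
  obtain ⟨b, hb, hb1, hab⟩ := h a ha ha1'
  refine ⟨g * b * g⁻¹, conj_mem_conjBy hb g, ?_, ?_⟩
  · intro h1
    apply hb1
    have : b = g⁻¹ * (g * b * g⁻¹) * g := by group
    rw [this, h1]; group
  · rw [conjBy_conjBy, conjBy_conjBy]
    have e1 : (g * b * g⁻¹)⁻¹ * g = g * b⁻¹ := by group
    have e2 : (g * a * g⁻¹)⁻¹ * g = g * a⁻¹ := by group
    rw [e1, e2, conjBy_mul, conjBy_mul, hab]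

theorem RankOne.conj (h : IsRankOnePair A B) (g : G) :
    IsRankOnePair (conjBy A g) (conjBy B g) :=
  ⟨fun he => h.ne (conjBy_inj.1 he), conjBy_isNilpotent h.nilpotent_left g,
    conjBy_isNilpotent h.nilpotent_right g, RankOneCondition.conj h.cond_left g,
    RankOneCondition.conj h.cond_right g⟩

/-- Two different unipotent subgroups of a rank one group form a rank one pair. -/
theorem RankOne.pair_of_unipotents (h : IsRankOnePair A B) {C₁ C₂ : Subgroup G}
    (h₁ : C₁ ∈ unipotentSubgroups A B) (h₂ : C₂ ∈ unipotentSubgroups A B) (hne : C₁ ≠ C₂) :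
    IsRankOnePair C₁ C₂ := by
  obtain ⟨x, -, hx1, hx2⟩ := RankOne.exists_conjBy_pair h h₁ h₂ hne
  have := RankOne.conj h x⁻¹
  rwa [← hx1, ← hx2, conjBy_inv_conjBy, conjBy_inv_conjBy] at this

theorem RankOne.sup_of_unipotents (h : IsRankOnePair A B) {C₁ C₂ : Subgroup G}
    (h₁ : C₁ ∈ unipotentSubgroups A B) (h₂ : C₂ ∈ unipotentSubgroups A B) (hne : C₁ ≠ C₂) :
    C₁ ⊔ C₂ = A ⊔ B := by
  obtain ⟨x, hx, hx1, hx2⟩ := RankOne.exists_conjBy_pair h h₁ h₂ hne
  have h3 : conjBy (C₁ ⊔ C₂) x = A ⊔ B := by rw [conjBy_sup, hx1, hx2]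
  rw [conjBy_eq_iff, conjBy_of_mem (inv_mem hx)] at h3
  exact h3

theorem RankOne.unipotent_le (_h : IsRankOnePair A B) {C : Subgroup G}
    (hC : C ∈ unipotentSubgroups A B) : C ≤ A ⊔ B := by
  obtain ⟨x, hx, rfl⟩ := hC
  exact conjBy_le_of_mem le_sup_left hx

theorem RankOne.unipotents_of_unipotents (h : IsRankOnePair A B) {C₁ C₂ : Subgroup G}
    (h₁ : C₁ ∈ unipotentSubgroups A B) (h₂ : C₂ ∈ unipotentSubgroups A B) (hne : C₁ ≠ C₂) :
    unipotentSubgroups C₁ C₂ = unipotentSubgroups A B := by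
  have hs := RankOne.sup_of_unipotents h h₁ h₂ hne
  obtain ⟨y, hy, rfl⟩ := h₁
  ext E
  constructor
  · rintro ⟨x, hx, rfl⟩
    rw [hs] at hx
    exact ⟨x * y, mul_mem hx hy, by rw [conjBy_conjBy]⟩
  · rintro ⟨x, hx, rfl⟩
    refine ⟨x * y⁻¹, by rw [hs]; exact mul_mem hx (inv_mem hy), ?_⟩
    rw [conjBy_conjBy]; simp

/-- An element of `⟨A,B⟩` normalizing all unipotent subgroups is central in `⟨A,B⟩`. -/
theorem RankOne.central_of_fixes_all (h : IsRankOnePair A B) {y : G}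
    (hfix : ∀ C ∈ unipotentSubgroups A B, conjBy C y = C) :
    ∀ x ∈ A ⊔ B, y * x = x * y := by
  have hfix' : ∀ C ∈ unipotentSubgroups A B, conjBy C y⁻¹ = C := by
    intro C hC
    rw [conjBy_eq_iff, inv_inv, hfix C hC]
  have comm : ∀ {A' B' : Subgroup G}, IsRankOnePair A' B' → A' ≤ A ⊔ B →
      A' ∈ unipotentSubgroups A B → B' ∈ unipotentSubgroups A B →
      ∀ a ∈ A', y * a = a * y := by
    intro A' B' h' hA' hA'm hB'm a ha
    have h1 : y * a * y⁻¹ ∈ A' := by
      have := conj_mem_conjBy ha y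
      rwa [hfix A' hA'm] at this
    have h2 : y * a * y⁻¹ * a⁻¹ ∈ A' := A'.mul_mem h1 (A'.inv_mem ha)
    have h3 : conjBy B' (y * a * y⁻¹ * a⁻¹) = B' := by
      rw [conjBy_mul, conjBy_mul, conjBy_mul,
        hfix' _ (RankOne.conjBy_mem_unipotent hB'm (inv_mem (hA' ha))), conjBy_conjBy_inv,
        hfix _ hB'm]
    have h4 := RankOne.eq_one_of_conjBy_eq h' h2 h3
    have : y * a = (y * a * y⁻¹ * a⁻¹) * (a * y) := by group
    rw [this, h4, one_mul]
  have hA := comm h le_sup_left RankOne.left_mem_unipotent (RankOne.right_mem_unipotent h)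
  have hB := comm (RankOnePair_symm h) le_sup_right (RankOne.right_mem_unipotent h)
    RankOne.left_mem_unipotent
  intro x hx
  have : A ⊔ B ≤ Subgroup.centralizer {y} := by
    refine sup_le ?_ ?_
    · intro a ha
      rw [Subgroup.mem_centralizer_singleton_iff]
      exact (hA a ha).symm
    · intro b hb
      rw [Subgroup.mem_centralizer_singleton_iff]
      exact (hB b hb).symm
  have := this hx
  rw [Subgroup.mem_centralizer_singleton_iff] at this
  exact this.symm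

/-- commutativity of a subgroup, elementwise -/
theorem comm_of_isMulCommutative {A : Subgroup G} (hA : IsMulCommutative A) {x y : G}
    (hx : x ∈ A) (hy : y ∈ A) : x * y = y * x := by
  have := hA.is_comm.comm ⟨x, hx⟩ ⟨y, hy⟩
  exact congrArg Subtype.val this

theorem conjBy_isMulCommutative {A : Subgroup G} (hA : IsMulCommutative A) (g : G) :
    IsMulCommutative ↥(conjBy A g) := by
  refine ⟨⟨?_⟩⟩
  rintro ⟨_, x, hx, rfl⟩ ⟨_, y, hy, rfl⟩
  apply Subtype.ext
  simp only [MulEquiv.coe_toMonoidHom, MulAut.conj_apply, MulMemClass.mk_mul_mk]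
  have := comm_of_isMulCommutative hA hx hy
  calc g * x * g⁻¹ * (g * y * g⁻¹) = g * (x * y) * g⁻¹ := by group
    _ = g * (y * x) * g⁻¹ := by rw [this]
    _ = _ := by group

theorem conjBy_eq_of_comm {A : Subgroup G} {x : G} (h : ∀ a ∈ A, x * a = a * x) :
    conjBy A x = A := conjBy_of_central h

/-- trivial intersection -/
theorem RankOne.inf_eq_bot (h : IsRankOnePair A B) : A ⊓ B = ⊥ := by
  rw [eq_bot_iff]
  rintro x ⟨hxA, hxB⟩
  exact RankOne.eq_one_of_conjBy_eq h hxA (conjBy_of_mem hxB)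

theorem RankOne.eq_one_of_mem_of_mem (h : IsRankOnePair A B) {x : G}
    (hxA : x ∈ A) (hxB : x ∈ B) : x = 1 :=
  RankOne.eq_one_of_conjBy_eq h hxA (conjBy_of_mem hxB)

/-- no non-identity element of `A` commutes with a non-identity element of `B`. -/
theorem RankOne.not_comm (h : IsRankOnePair A B) {a b : G}
    (ha : a ∈ A) (ha1 : a ≠ 1) (hb : b ∈ B) (hb1 : b ≠ 1) : a * b ≠ b * a := by
  intro hab
  -- b ∈ B ∩ a B a⁻¹
  have h1 : b ∈ conjBy B a := by
    rw [mem_conjBy]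
    have : a⁻¹ * b * a = b := by
      rw [mul_assoc, ← hab, inv_mul_cancel_left]
    rw [this]; exact hb
  have hne : conjBy B a ≠ B := fun he => ha1 (RankOne.eq_one_of_conjBy_eq h ha he)
  have hp : IsRankOnePair (conjBy B a) B :=
    RankOne.pair_of_unipotents h ((RankOne.mem_unipotent_iff h).2 (Or.inr ⟨a, ha, rfl⟩))
      (RankOne.right_mem_unipotent h) hne
  exact hb1 (RankOne.eq_one_of_mem_of_mem hp h1 hb)

/-- `C_{⟨A,B⟩}(a) ≤ N(A)` for `a ∈ A#`. -/
theorem RankOne.conjBy_eq_of_comm_of_mem (h : IsRankOnePair A B) {a y : G}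
    (ha : a ∈ A) (ha1 : a ≠ 1) (hy : y ∈ A ⊔ B) (hya : y * a = a * y) : conjBy A y = A := by
  by_contra hne
  have h1 : a ∈ conjBy A y := by
    rw [mem_conjBy]
    have : y⁻¹ * a * y = a := by
      rw [mul_assoc, ← hya, inv_mul_cancel_left]
    rw [this]; exact ha
  have hp : IsRankOnePair (conjBy A y) A :=
    RankOne.pair_of_unipotents h (RankOne.conjBy_mem_unipotent RankOne.left_mem_unipotent hy)
      RankOne.left_mem_unipotent hne
  exact ha1 (RankOne.eq_one_of_mem_of_mem hp h1 ha)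

/-- `C_{⟨A,B⟩}(A) = Z(⟨A,B⟩) A` for abelian `A`. -/
theorem RankOne.centralizer_left (h : IsRankOnePair A B) (hA : IsMulCommutative A) {y : G}
    (hy : y ∈ A ⊔ B) (hyA : ∀ a ∈ A, y * a = a * y) :
    ∃ a ∈ A, ∀ x ∈ A ⊔ B, (a⁻¹ * y) * x = x * (a⁻¹ * y) := by
  have hAy : conjBy A y = A := conjBy_of_central hyA
  have h1 : conjBy B y ∈ unipotentSubgroups A B :=
    RankOne.conjBy_mem_unipotent (RankOne.right_mem_unipotent h) hy
  have h2 : conjBy B y ≠ A := by
    intro he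
    rw [← hAy] at he
    exact h.ne (conjBy_inj.1 he).symm
  obtain ⟨a, ha, hBa⟩ := ((RankOne.mem_unipotent_iff h).1 h1).resolve_left h2
  refine ⟨a, ha, RankOne.central_of_fixes_all h ?_⟩
  have hcomm : ∀ a' ∈ A, (a⁻¹ * y) * a' = a' * (a⁻¹ * y) := by
    intro a' ha'
    rw [mul_assoc, hyA a' ha', ← mul_assoc, ← mul_assoc,
      comm_of_isMulCommutative hA (A.inv_mem ha) ha']
  intro C hC
  rcases (RankOne.mem_unipotent_iff h).1 hC with rfl | ⟨a', ha', rfl⟩
  · exact conjBy_of_central hcomm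
  · rw [conjBy_conjBy, hcomm a' ha', conjBy_mul, conjBy_mul, hBa, conjBy_inv_conjBy]

end Cfsg.Agent.H25
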