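import Cfsg.Agent.H25.CentralProd4
import Cfsg.Agent.S0971
import Cfsg.Agent.S0887
import Cfsg.Agent.S0912
import Cfsg.Agent.Lib.Helper23.CharDeg2

/-!
# Reynolds' theorem: blocks with a normal defect group, the invariant case
-/

set_option autoImplicit false

namespace Cfsg.Agent.H25

open Cfsg Cfsg.Agent.BlockLib Cfsg.Agent.CharLib Cfsg.Agent.Lib.Helper23.MinMax
  Cfsg.Agent.Lib.Helper23
open scoped ComplexConjugate

universe u

local notation "C(" P ")" => Subgroup.centralizer (SetLike.coe P)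

/-- a finite group is commutative iff all its irreducible characters are linear -/
theorem comm_iff_all_linear (P : Type u) [Group P] [Finite P] :
    (∀ a c : P, a * c = c * a) ↔ ∀ ζ : IrrCharacter P, charDegree (ζ : P → ℂ) = 1 := by
  classical
  have : Fintype P := Fintype.ofFinite _
  constructor
  · intro h ζ
    have h1 : (⊤ : Subgroup P) ≤ Subgroup.center P := by
      intro x _
      rw [Subgroup.mem_center_iff]
      exact fun g => h g x
    have h2 := charDegree_dvd_index_of_le_center ζ h1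
    rw [Subgroup.index_top] at h2
    exact Nat.dvd_one.1 h2
  · intro h
    have h1 := sum_charDegree_sq (G := P)
    simp only [h, one_pow, Finset.sum_const, Finset.card_univ, smul_eq_mul, mul_one] at h1
    rw [← Nat.card_eq_fintype_card, card_irrCharacter] at h1
    have h2 : commProb P = 1 := by
      rw [commProb_def', h1]
      exact div_self (by exact_mod_cast Nat.card_pos.ne')
    have h3 := (commProb_eq_one_iff (M := P)).1 h2
    exact isMulCommutative_iff.1 h3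

theorem comm_iff_factorization (P : Type u) [Group P] [Finite P] {p : ℕ} [Fact p.Prime]
    (hP : IsPGroup p P) :
    (∀ a c : P, a * c = c * a) ↔
      ∀ ζ : IrrCharacter P, (charDegree (ζ : P → ℂ)).factorization p = 0 := by
  rw [comm_iff_all_linear]
  have hp : p.Prime := Fact.out
  constructor
  · intro h ζ
    rw [h ζ]; simp
  · intro h ζ
    obtain ⟨n, hn⟩ := IsPGroup.iff_card.mp hP
    have h1 := charDegree_dvd_card ζ
    rw [hn] at h1
    obtain ⟨k, -, hk⟩ := (Nat.dvd_prime_pow hp).1 h1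
    have h2 := h ζ
    rw [hk, hp.factorization_pow] at h2
    simp only [Finsupp.single_eq_same] at h2
    rw [hk, h2, pow_zero]

theorem heights_zero_iff {G : Type u} [Group G] {p : ℕ} {B : Set (IrrCharacter G)}
    (hne : B.Nonempty) :
    (∀ χ ∈ B, blockHeight p B (χ : G → ℂ) = 0) ↔
      ∃ c : ℕ, ∀ χ ∈ B, (charDegree (χ : G → ℂ)).factorization p = c := by
  constructor
  · intro h
    refine ⟨minExp p B, fun χ hχ => ?_⟩
    have h1 := h χ hχ
    have h2 := minExp_le (p := p) hχ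
    change (charDegree (χ : G → ℂ)).factorization p - minExp p B = 0 at h1
    omega
  · rintro ⟨c, hc⟩ χ hχ
    obtain ⟨χ₀, hχ₀, h0⟩ := exists_minExp (p := p) hne
    change (charDegree (χ : G → ℂ)).factorization p - minExp p B = 0
    rw [← h0, hc χ hχ, hc χ₀ hχ₀]
    omega

variable {G : Type u} [Group G] [Fintype G] {M : Ideal AlgInt} {p : ℕ} [Fact p.Prime]

omit [Fintype G] in
/-- inside `N = P C_G(P)` the subgroup `P` again satisfies `P C_N(P) = N` -/
theorem subgroupOf_sup_centralizer (P : Subgroup G) [P.Normal] :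
    P.subgroupOf (P ⊔ C(P)) ⊔ C(P.subgroupOf (P ⊔ C(P))) = ⊤ := by
  rw [eq_top_iff]
  rintro ⟨n, hn⟩ -
  obtain ⟨u, hu, c, hc, rfl⟩ := Subgroup.mem_sup_of_normal_left.mp hn
  have huN : u ∈ P ⊔ C(P) := (le_sup_left : P ≤ P ⊔ C(P)) hu
  have hcN : c ∈ P ⊔ C(P) := (le_sup_right : C(P) ≤ P ⊔ C(P)) hc
  have e : (⟨u * c, hn⟩ : ↥(P ⊔ C(P))) = ⟨u, huN⟩ * ⟨c, hcN⟩ := rfl
  rw [e]
  apply Subgroup.mul_mem
  · apply (le_sup_left : P.subgroupOf (P ⊔ C(P)) ≤ _)
    exact Subgroup.mem_subgroupOf.2 hu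
  · apply (le_sup_right : C(P.subgroupOf (P ⊔ C(P))) ≤ _)
    rw [Subgroup.mem_centralizer_iff]
    intro v hv
    apply Subtype.ext
    exact Subgroup.mem_centralizer_iff.1 hc v (Subgroup.mem_subgroupOf.1 hv)

/-- Reynolds' theorem when the covered block of `P C_G(P)` is invariant -/
theorem reynolds_invariant (hM : IsPModular p M) {B : Set (IrrCharacter G)} (hB : IsPBlock M B)
    (P : Subgroup G) [hPn : P.Normal] (hP : IsDefectGroup p M B P) [Fintype ↥(P ⊔ C(P))]
    (b : Set (IrrCharacter ↥(P ⊔ C(P)))) (hb : IsPBlock M b) (hcov : Covers B b)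
    (hinv : ∀ g : G, ∀ θ ∈ b, ∀ θ' : IrrCharacter ↥(P ⊔ C(P)),
      (∀ n : ↥(P ⊔ C(P)), (θ' : ↥(P ⊔ C(P)) → ℂ) n =
        (θ : ↥(P ⊔ C(P)) → ℂ) ⟨g * n * g⁻¹,
          (inferInstance : (P ⊔ C(P)).Normal).conj_mem n n.2 g⟩) → θ' ∈ b) :
    (∀ a ∈ P, ∀ c ∈ P, a * c = c * a) ↔ ∀ χ ∈ B, blockHeight p B (χ : G → ℂ) = 0 := by
  classical
  have hPr := isPrime_of_isPModular hM
  have hp : p.Prime := Fact.out
  have hPp : IsPGroup p P := IsPGroup.of_card (card_of_isDefectGroup hM hB hP)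
  obtain ⟨-, hind⟩ := Cfsg.Agent.S0971.result p M hM P hPp b hb
  have uniq : ∀ B' : Set (IrrCharacter G), IsPBlock M B' → Covers B' b → B' = B := by
    intro B' hB' hc
    exact isInducedBlock_unique (hind B' hB' hc) (hind B hB hcov)
  have key := Cfsg.Agent.S0970.result p M hM (P ⊔ C(P)) b hb hinv B hB hcov
    (fun B' hB' hc => by rw [uniq B' hB' hc]) P hP
  obtain ⟨k1, k2, -⟩ := key
  have e1 : P ⊔ (P ⊔ C(P)) = P ⊔ C(P) := by rw [← sup_assoc, sup_idem]
  rw [e1] at k1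
  rw [Subgroup.inf_subgroupOf_right] at k2
  have hG' := subgroupOf_sup_centralizer P
  have hP' : IsPGroup p (P.subgroupOf (P ⊔ C(P))) :=
    IsPGroup.of_card (card_of_isDefectGroup hM hb k2)
  obtain ⟨b₀, hdata⟩ := exists_cpdata hM hP' hG' hb k2
  -- degrees in `b`
  set c₀ := (P.subgroupOf (P ⊔ C(P))).index.factorization p with hc₀
  have d1 : ∀ θ ∈ b, ∃ ζ : IrrCharacter (P.subgroupOf (P ⊔ C(P))),
      (charDegree (θ : ↥(P ⊔ C(P)) → ℂ)).factorization p =
        (charDegree (ζ : P.subgroupOf (P ⊔ C(P)) → ℂ)).factorization p + c₀ := by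
    intro θ hθ
    obtain ⟨ζ, ψ, h⟩ := exists_factor hG' θ
    have h' : IsProd θ ζ ψ := h
    refine ⟨ζ, ?_⟩
    rw [h'.charDegree, Nat.factorization_mul (charDegree_pos_irr ζ).ne' (charDegree_pos_irr ψ).ne',
      Finsupp.add_apply, hdata.factorization_deg hM ((hdata.mem_iff _ _ _ h').1 hθ) hG']
  have d2 : ∀ ζ : IrrCharacter (P.subgroupOf (P ⊔ C(P))), ∃ θ ∈ b,
      (charDegree (θ : ↥(P ⊔ C(P)) → ℂ)).factorization p =
        (charDegree (ζ : P.subgroupOf (P ⊔ C(P)) → ℂ)).factorization p + c₀ := by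
    intro ζ
    obtain ⟨θ, hθ, ψ, hψ, h'⟩ := hdata.exists_theta hM hG' ζ
    refine ⟨θ, hθ, ?_⟩
    rw [h'.charDegree, Nat.factorization_mul (charDegree_pos_irr ζ).ne' (charDegree_pos_irr ψ).ne',
      Finsupp.add_apply, hdata.factorization_deg hM hψ hG']
  -- degrees in `B`
  have d3 : ∀ (χ : IrrCharacter G) (θ : IrrCharacter ↥(P ⊔ C(P))),
      classInner (fun n : ↥(P ⊔ C(P)) => (χ : G → ℂ) n) (θ : ↥(P ⊔ C(P)) → ℂ) ≠ 0 →
      (charDegree (χ : G → ℂ)).factorization p =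
        (charDegree (θ : ↥(P ⊔ C(P)) → ℂ)).factorization p := by
    intro χ θ hc
    obtain ⟨h1, h2⟩ := Cfsg.Agent.S0887.result (P ⊔ C(P)) χ χ.2 θ θ.2 hc _ _
      (charDegree_irr χ) (charDegree_irr θ)
    obtain ⟨m, hm⟩ := h1
    have hθpos := charDegree_pos_irr θ
    have hχpos := charDegree_pos_irr χ
    rw [hm, Nat.mul_div_cancel_left _ hθpos] at h2
    have hm0 : m ≠ 0 := by
      rintro rfl
      rw [mul_zero] at hm
      omega
    have hpm : ¬ p ∣ m := fun h => k1 (h.trans h2)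
    rw [hm, Nat.factorization_mul hθpos.ne' hm0, Finsupp.add_apply,
      Nat.factorization_eq_zero_of_not_dvd hpm, add_zero]
  rw [heights_zero_iff (pb_nonempty hB)]
  have hcomm : (∀ a ∈ P, ∀ c ∈ P, a * c = c * a) ↔
      ∀ a c : P.subgroupOf (P ⊔ C(P)), a * c = c * a := by
    constructor
    · intro h a c
      apply Subtype.ext
      apply Subtype.ext
      exact h _ (Subgroup.mem_subgroupOf.1 a.2) _ (Subgroup.mem_subgroupOf.1 c.2)
    · intro h a ha c hc
      have haN : a ∈ P ⊔ C(P) := (le_sup_left : P ≤ P ⊔ C(P)) ha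
      have hcN : c ∈ P ⊔ C(P) := (le_sup_left : P ≤ P ⊔ C(P)) hc
      have := h ⟨⟨a, haN⟩, Subgroup.mem_subgroupOf.2 ha⟩ ⟨⟨c, hcN⟩, Subgroup.mem_subgroupOf.2 hc⟩
      exact congrArg (fun x : P.subgroupOf (P ⊔ C(P)) => ((x : ↥(P ⊔ C(P))) : G)) this
  rw [hcomm, comm_iff_factorization _ hP']
  constructor
  · intro h
    refine ⟨c₀, fun χ hχ => ?_⟩
    obtain ⟨θ, hθ, hc⟩ := hcov.exists_over hM hb hB hχ
    obtain ⟨ζ, hζ⟩ := d1 θ hθ
    rw [d3 χ θ hc, hζ, h ζ, zero_add]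
  · rintro ⟨c, hc⟩ ζ
    have aux : ∀ ζ : IrrCharacter (P.subgroupOf (P ⊔ C(P))),
        c = (charDegree (ζ : P.subgroupOf (P ⊔ C(P)) → ℂ)).factorization p + c₀ := by
      intro ζ
      obtain ⟨θ, hθ, h1⟩ := d2 ζ
      obtain ⟨χ, hχ⟩ := exists_irr_over (P ⊔ C(P)) θ.2
      have hχB : χ ∈ B := by
        rw [← uniq (blockOf M (χ : G → ℂ)) ⟨χ, rfl⟩ ⟨χ, mem_blockOf_self χ, θ, hθ, hχ⟩]
        exact mem_blockOf_self χ
      rw [← hc χ hχB, d3 χ θ hχ, h1]
    have a1 := aux ζ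
    have a2 := aux (trivIrr _)
    rw [charDegree_trivIrr] at a2
    simp only [Nat.factorization_one, Finsupp.coe_zero, Pi.zero_apply, zero_add] at a2
    omega

end Cfsg.Agent.H25
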