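import Cfsg.Agent.H25.Reynolds
import Cfsg.Agent.S4435
import Cfsg.Agent.S4436
import Cfsg.Agent.BlockLib.KG.MaxPairs

/-!
# Reynolds' theorem: blocks with a normal defect group
-/

set_option autoImplicit false

namespace Cfsg.Agent.H25

open Cfsg Cfsg.Agent.BlockLib Cfsg.Agent.CharLib Cfsg.Agent.Lib.Helper23.MinMax
  Cfsg.Agent.Lib.Helper23
open scoped ComplexConjugate

universe u

local notation "C(" P ")" => Subgroup.centralizer (SetLike.coe P)

variable {M : Ideal AlgInt} {p : ℕ} [Fact p.Prime]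

omit [Fact p.Prime] in
theorem exists_isDefectGroup {G : Type u} [Group G] [Fintype G] (hM : IsPModular p M)
    {B : Set (IrrCharacter G)} (hB : IsPBlock M B) : ∃ D, IsDefectGroup p M B D := by
  have hPr := isPrime_of_isPModular hM
  have := charP_resField hM
  obtain ⟨D, hD⟩ := CA.exists_isDefGrp (p := p) (isBlk_eps hB)
  exact ⟨D, (isDefectGroup_iff hB D).2 hD⟩

/-- a normal defect group is the only defect group -/
theorem eq_of_isDefectGroup_normal {G : Type u} [Group G] [Fintype G] (hM : IsPModular p M)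
    {B : Set (IrrCharacter G)} (hB : IsPBlock M B) {P D : Subgroup G} [hn : P.Normal]
    (hP : IsDefectGroup p M B P) (hD : IsDefectGroup p M B D) : D = P := by
  have hPp : IsPGroup p P := IsPGroup.of_card (card_of_isDefectGroup hM hB hP)
  have h1 : P ≤ D := (le_sSup ⟨hn, hPp⟩ : P ≤ pCore p G).trans
    (Cfsg.Agent.S0912.result p M hM B hB D hD)
  exact (Subgroup.eq_of_le_of_card_ge h1 (by
    rw [card_of_isDefectGroup hM hB hP, card_of_isDefectGroup hM hB hD])).symm

theorem reynolds_aux (hM : IsPModular p M) : ∀ (n : ℕ) (G : Type u) [Group G] [Fintype G],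
    Nat.card G = n → ∀ (B : Set (IrrCharacter G)), IsPBlock M B → ∀ (P : Subgroup G) [P.Normal],
    IsDefectGroup p M B P →
    ((∀ a ∈ P, ∀ c ∈ P, a * c = c * a) ↔ ∀ χ ∈ B, blockHeight p B (χ : G → ℂ) = 0) := by
  intro n
  induction n using Nat.strong_induction_on with
  | _ n ih =>
  intro G _ _ hcard B hB P _ hP
  classical
  have hPr := isPrime_of_isPModular hM
  have : Fintype ↥(P ⊔ C(P)) := Fintype.ofFinite _
  have hNn : (P ⊔ C(P)).Normal := inferInstance
  obtain ⟨χ, hχ⟩ := pb_nonempty hB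
  obtain ⟨ψ₀, hψ₀⟩ := exists_constituent (N := P ⊔ C(P)) χ
  have hb : IsPBlock M (blockOf M (ψ₀ : ↥(P ⊔ C(P)) → ℂ)) := ⟨ψ₀, rfl⟩
  set b := blockOf M (ψ₀ : ↥(P ⊔ C(P)) → ℂ) with hbdef
  have hcov : Covers B b := ⟨χ, hχ, ψ₀, mem_blockOf_self ψ₀, hψ₀⟩
  -- the stabilizer
  set T : Subgroup G := CA.stab (P ⊔ C(P)) (epsS M (P ⊔ C(P)) b) with hTdef
  have hT : IsStab T b := by
    intro g
    rw [cj_epsS_eq_iff hb g, hTdef, CA.mem_stab, Subgroup.normalizer_eq_top]
    simp
  have hNT : P ⊔ C(P) ≤ T := by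
    intro x hx
    rw [hT x]
    intro θ hθ θ' h
    have : θ' = θ := by
      apply Subtype.ext
      funext n
      rw [h n]
      exact isClassFunction_of_irr θ.2 n ⟨x, hx⟩
    rw [this]; exact hθ
  by_cases hTtop : T = ⊤
  · apply reynolds_invariant hM hB P hP b hb hcov
    intro g
    exact (hT g).1 (by rw [hTtop]; trivial)
  · have : Fintype T := Fintype.ofFinite _
    obtain ⟨B', hB', hcov', hind⟩ :=
      (Cfsg.Agent.S4435.result p M hM (P ⊔ C(P)) b hb T hT hNT).2.2 B hB hcov
    obtain ⟨hdef, hht⟩ := Cfsg.Agent.S4436.result p M hM (P ⊔ C(P)) b hb T hT hNT B' hB' hcov' B hind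
    obtain ⟨D, hD⟩ := exists_isDefectGroup hM hB'
    have h2 : D.map T.subtype = P := eq_of_isDefectGroup_normal hM hB hP (hdef D hD)
    have hPT : P ≤ T := le_sup_left.trans hNT
    have h3 : D = P.subgroupOf T := by
      rw [← h2, Subgroup.subgroupOf, Subgroup.comap_map_eq_self_of_injective
        (Subgroup.subtype_injective _)]
    rw [h3] at hD
    have hlt : Nat.card T < n := by
      rw [← hcard]
      by_contra hcon
      push Not at hcon
      exact hTtop (Subgroup.eq_top_of_card_eq T (le_antisymm (Subgroup.card_le_card_group T) hcon))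
    have key := ih (Nat.card T) hlt T rfl B' hB' (P.subgroupOf T) hD
    have hmem := CoversLe.mem_iff hM hT hb hNT hB' hcov' hind
    have e1 : (∀ a ∈ P, ∀ c ∈ P, a * c = c * a) ↔
        ∀ a ∈ P.subgroupOf T, ∀ c ∈ P.subgroupOf T, a * c = c * a := by
      constructor
      · intro h a ha c hc
        exact Subtype.ext (h _ (Subgroup.mem_subgroupOf.1 ha) _ (Subgroup.mem_subgroupOf.1 hc))
      · intro h a ha c hc
        exact congrArg Subtype.val (h ⟨a, hPT ha⟩ (Subgroup.mem_subgroupOf.2 ha) ⟨c, hPT hc⟩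
          (Subgroup.mem_subgroupOf.2 hc))
    rw [e1, key]
    constructor
    · intro h χ' hχ'
      obtain ⟨ψ, hψ, e⟩ := (hmem χ').1 hχ'
      obtain ⟨χ'', -, e', hh⟩ := hht ψ hψ
      rw [e, ← e', hh]
      exact h ψ hψ
    · intro h ψ hψ
      obtain ⟨χ'', hχ'', -, hh⟩ := hht ψ hψ
      rw [← hh]
      exact h χ'' hχ''

end Cfsg.Agent.H25
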