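import Cfsg.Agent.H25.RankOne2

set_option autoImplicit false

namespace Cfsg.Agent.H25

open Cfsg

variable {G : Type*} [Group G] {A B : Subgroup G}

theorem comm_of_commutator_eq_bot (h : ⁅A, B⁆ = ⊥) {a b : G} (ha : a ∈ A) (hb : b ∈ B) :
    a * b = b * a := by
  rw [Subgroup.commutator_eq_bot_iff_le_centralizer] at h
  have := h ha
  rw [Subgroup.mem_centralizer_iff] at this
  exact (this b hb).symm

theorem commutator_eq_bot_of_comm (h : ∀ a ∈ A, ∀ b ∈ B, a * b = b * a) : ⁅A, B⁆ = ⊥ := by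
  rw [Subgroup.commutator_eq_bot_iff_le_centralizer]
  intro a ha
  rw [Subgroup.mem_centralizer_iff]
  intro b hb
  exact (h a ha b hb).symm

theorem commutator_mem {a b : G} (ha : a ∈ A) (hb : b ∈ B) : a * b * a⁻¹ * b⁻¹ ∈ ⁅A, B⁆ :=
  Subgroup.commutator_mem_commutator ha hb

/-- In a rank one pair a commutator `[a,b]` of non-identity elements never commutes with `b`. -/
theorem RankOne.commutator_not_comm (h : IsRankOnePair A B) {a b : G}
    (ha : a ∈ A) (ha1 : a ≠ 1) (hb : b ∈ B) (hb1 : b ≠ 1) :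
    (a * b * a⁻¹ * b⁻¹) * b ≠ b * (a * b * a⁻¹ * b⁻¹) := by
  intro hc
  have hne : conjBy B a ≠ B := fun he => ha1 (RankOne.eq_one_of_conjBy_eq h ha he)
  have hp : IsRankOnePair (conjBy B a) B :=
    RankOne.pair_of_unipotents h ((RankOne.mem_unipotent_iff h).2 (Or.inr ⟨a, ha, rfl⟩))
      (RankOne.right_mem_unipotent h) hne
  have h1 : a * b * a⁻¹ ∈ conjBy B a := conj_mem_conjBy hb a
  have h2 : a * b * a⁻¹ ≠ 1 := by
    intro h3
    apply hb1
    have : b = a⁻¹ * (a * b * a⁻¹) * a := by group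
    rw [this, h3]; group
  apply RankOne.not_comm hp h1 h2 hb hb1
  have e1 : a * b * a⁻¹ * b = (a * b * a⁻¹ * b⁻¹) * b * b := by group
  rw [e1, hc]; group

theorem RankOne.commutator_ne_bot (h : IsRankOnePair A B) : ⁅A, B⁆ ≠ ⊥ := by
  intro hc
  obtain ⟨a, ha, ha1⟩ := RankOne.exists_ne_one h
  obtain ⟨b, hb, hb1⟩ := RankOne.exists_ne_one (RankOnePair_symm h)
  exact RankOne.not_comm h ha ha1 hb hb1 (comm_of_commutator_eq_bot hc ha hb)

section RootSet

variable {S : Set (Subgroup G)}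

theorem RootComm.ne_bot (hS : IsRootSubgroupSet S) (h : RootCommutatorCase S A B) :
    ⁅A, B⁆ ≠ ⊥ := hS.ne_bot _ h.1

theorem RootComm.not_rankOne (h : RootCommutatorCase S A B) : ¬ IsRankOnePair A B := by
  intro hp
  obtain ⟨a, ha, ha1⟩ := RankOne.exists_ne_one hp
  obtain ⟨b, hb, hb1⟩ := RankOne.exists_ne_one (RankOnePair_symm hp)
  exact RankOne.commutator_not_comm hp ha ha1 hb hb1
    (h.2.1 _ (commutator_mem ha hb) b (Subgroup.mem_sup_right hb))

/-- If a non-identity `a ∈ A` centralizes `B` the commutator case is impossible. -/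
theorem RootComm.false_of_left_comm (hS : IsRootSubgroupSet S) (h : RootCommutatorCase S A B)
    {a : G} (ha : a ∈ A) (ha1 : a ≠ 1) (hc : ∀ b ∈ B, a * b = b * a) : False := by
  apply RootComm.ne_bot hS h
  rw [← h.2.2.1 a ha ha1, Subgroup.closure_eq_bot_iff]
  rintro _ ⟨b, hb, rfl⟩
  simp only [Set.mem_singleton_iff]
  rw [hc b hb]; group

theorem RootComm.false_of_right_comm (hS : IsRootSubgroupSet S) (h : RootCommutatorCase S A B)
    {b : G} (hb : b ∈ B) (hb1 : b ≠ 1) (hc : ∀ a ∈ A, a * b = b * a) : False := by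
  apply RootComm.ne_bot hS h
  rw [← h.2.2.2 b hb hb1, Subgroup.closure_eq_bot_iff]
  rintro _ ⟨a, ha, rfl⟩
  simp only [Set.mem_singleton_iff]
  rw [hc a ha]; group

theorem RootComm.eq_one_of_mem_left (hS : IsRootSubgroupSet S) (h : RootCommutatorCase S A B)
    {x : G} (hx : x ∈ ⁅A, B⁆) (hxA : x ∈ A) : x = 1 := by
  by_contra hx1
  exact RootComm.false_of_left_comm hS h hxA hx1
    (fun b hb => h.2.1 x hx b (Subgroup.mem_sup_right hb))

theorem RootComm.eq_one_of_mem_right (hS : IsRootSubgroupSet S) (h : RootCommutatorCase S A B)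
    {x : G} (hx : x ∈ ⁅A, B⁆) (hxB : x ∈ B) : x = 1 := by
  by_contra hx1
  exact RootComm.false_of_right_comm hS h hxB hx1
    (fun a ha => (h.2.1 x hx a (Subgroup.mem_sup_left ha)).symm)

theorem Root.exists_ne_one (hS : IsRootSubgroupSet S) (hA : A ∈ S) : ∃ a ∈ A, a ≠ 1 := by
  obtain ⟨a, ha⟩ := Subgroup.ne_bot_iff_exists_ne_one.1 (hS.ne_bot A hA)
  exact ⟨a.1, a.2, fun h => ha (Subtype.ext h)⟩

theorem Root.comm (hS : IsRootSubgroupSet S) (hA : A ∈ S) {x y : G} (hx : x ∈ A) (hy : y ∈ A) :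
    x * y = y * x := comm_of_isMulCommutative (hS.commutative A hA) hx hy

theorem Root.exists_partner (hA : ¬ IsIsolatedIn (FAdj S) S A) (hAS : A ∈ S) :
    ∃ C ∈ S, IsRankOnePair A C := by
  unfold IsIsolatedIn at hA
  push Not at hA
  obtain ⟨C, hC⟩ := hA hAS
  by_cases h1 : FAdj S A C
  · exact ⟨C, h1.2.1, h1.2.2⟩
  · have h2 := hC h1
    exact ⟨C, h2.1, RankOnePair_symm h2.2.2⟩

theorem le_centralizer_zpowers_iff {C : Subgroup G} {x : G} :
    C ≤ Subgroup.centralizer (Subgroup.zpowers x : Set G) ↔ ∀ c ∈ C, c * x = x * c := by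
  constructor
  · intro h c hc
    have := h hc
    rw [Subgroup.mem_centralizer_iff] at this
    exact (this x (Subgroup.mem_zpowers x)).symm
  · intro h c hc
    rw [Subgroup.mem_centralizer_iff]
    rintro _ ⟨n, rfl⟩
    have : Commute c x := h c hc
    exact (this.zpow_right n).symm

end RootSet

end Cfsg.Agent.H25
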