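import Cfsg.Agent.H25.RootSet

set_option autoImplicit false

namespace Cfsg.Agent.H25

open Cfsg

variable {G : Type*} [Group G] {S : Set (Subgroup G)}

/-- A member of `S` contained in a rank one group `⟨C,D⟩` (`C, D ∈ S`) and not central in it
is one of its unipotent subgroups. -/
theorem Root.mem_unipotent_of_le (hS : IsRootSubgroupSet S) {A C D : Subgroup G}
    (hA : A ∈ S) (hC : C ∈ S) (hD : D ∈ S) (hq : IsRankOnePair C D) (hle : A ≤ C ⊔ D)
    (hnc : ∃ a ∈ A, ∃ y ∈ C ⊔ D, a * y ≠ y * a) : A ∈ unipotentSubgroups C D := by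
  have hCab := hS.commutative C hC
  rcases hS.pair A hA C hC with h | h | h
  · -- [A, C] = 1
    rcases hS.pair A hA D hD with h' | h' | h'
    · exfalso
      obtain ⟨a, ha, y, hy, hne⟩ := hnc
      apply hne
      have : C ⊔ D ≤ Subgroup.centralizer {a} := by
        refine sup_le ?_ ?_
        · intro c hc
          rw [Subgroup.mem_centralizer_singleton_iff]
          exact (comm_of_commutator_eq_bot h ha hc).symm
        · intro d hd
          rw [Subgroup.mem_centralizer_singleton_iff]
          exact (comm_of_commutator_eq_bot h' ha hd).symm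
      have := this hy
      rw [Subgroup.mem_centralizer_singleton_iff] at this
      exact this.symm
    · obtain ⟨d, hd, hd1⟩ := RankOne.exists_ne_one (RankOnePair_symm h')
      obtain ⟨a, ha, -, hDa⟩ := h'.cond_right d hd hd1
      have : A = conjBy D (d * a⁻¹) := by
        rw [conjBy_mul, hDa, conjBy_conjBy_inv]
      rw [this]
      exact RankOne.conjBy_mem_unipotent (RankOne.right_mem_unipotent hq)
        (mul_mem (Subgroup.mem_sup_right hd) (inv_mem (hle ha)))
    · exfalso
      obtain ⟨a, ha, ha1⟩ := Root.exists_ne_one hS hA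
      obtain ⟨c₀, hc₀, hz⟩ := RankOne.centralizer_left hq hCab (hle ha)
        (fun c hc => comm_of_commutator_eq_bot h ha hc)
      by_cases hc1 : c₀ = 1
      · rw [hc1, inv_one, one_mul] at hz
        exact RootComm.false_of_left_comm hS h' ha ha1
          (fun d hd => hz d (Subgroup.mem_sup_right hd))
      · obtain ⟨d, hd, hd1⟩ := RankOne.exists_ne_one (RankOnePair_symm hq)
        have hc := h'.2.1 _ (commutator_mem ha hd) d (Subgroup.mem_sup_right hd)
        have e1 : a * d * a⁻¹ * d⁻¹ = c₀ * d * c₀⁻¹ * d⁻¹ := by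
          have h1 := hz d (Subgroup.mem_sup_right hd)
          calc a * d * a⁻¹ * d⁻¹ = c₀ * ((c₀⁻¹ * a) * d) * a⁻¹ * d⁻¹ := by group
            _ = c₀ * (d * (c₀⁻¹ * a)) * a⁻¹ * d⁻¹ := by rw [h1]
            _ = c₀ * d * c₀⁻¹ * d⁻¹ := by group
        rw [e1] at hc
        exact RankOne.commutator_not_comm hq hc₀ hc1 hd hd1 hc
  · obtain ⟨a, ha, ha1⟩ := RankOne.exists_ne_one h
    obtain ⟨c, hc, -, hAc⟩ := h.cond_left a ha ha1
    have : A = conjBy C (c * a⁻¹) := by
      rw [conjBy_mul, ← hAc, conjBy_conjBy_inv]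
    rw [this]
    exact RankOne.conjBy_mem_unipotent RankOne.left_mem_unipotent
      (mul_mem (Subgroup.mem_sup_left hc) (inv_mem (hle ha)))
  · exfalso
    -- it suffices to show that A normalizes C
    have hsuff : (∀ a ∈ A, conjBy C a = C) → False := by
      intro hn
      have hle' : ⁅A, C⁆ ≤ C := by
        rw [Subgroup.commutator_le]
        intro a ha c hc
        have h1 : a * c * a⁻¹ ∈ C := by
          have := conj_mem_conjBy hc a
          rwa [hn a ha] at this
        exact C.mul_mem h1 (C.inv_mem hc)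
      obtain ⟨x, hx, hx1⟩ := Root.exists_ne_one hS h.1
      exact hx1 (RootComm.eq_one_of_mem_right hS h hx (hle' hx))
    have hZY : ⁅A, C⁆ ≤ C ⊔ D := by
      rw [Subgroup.commutator_le]
      intro a ha c hc
      exact mul_mem (mul_mem (mul_mem (hle ha) (Subgroup.mem_sup_left hc)) (inv_mem (hle ha)))
        (inv_mem (Subgroup.mem_sup_left hc))
    by_cases hall : ∀ x ∈ ⁅A, C⁆, ∀ y ∈ C ⊔ D, x * y = y * x
    · apply hsuff
      intro a ha
      by_contra hne
      have hp : IsRankOnePair (conjBy C a) C :=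
        RankOne.pair_of_unipotents hq
          (RankOne.conjBy_mem_unipotent RankOne.left_mem_unipotent (hle ha))
          RankOne.left_mem_unipotent hne
      obtain ⟨c, hc, hc1⟩ := RankOne.exists_ne_one hq
      have h2 : a * c * a⁻¹ ≠ 1 := by
        intro h3
        apply hc1
        have : c = a⁻¹ * (a * c * a⁻¹) * a := by group
        rw [this, h3]; group
      apply RankOne.not_comm hp (conj_mem_conjBy hc a) h2 hc hc1
      have h3 := hall _ (commutator_mem ha hc) c (Subgroup.mem_sup_left hc)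
      calc a * c * a⁻¹ * c = (a * c * a⁻¹ * c⁻¹ * c) * c := by group
        _ = (c * (a * c * a⁻¹ * c⁻¹)) * c := by rw [h3]
        _ = c * (a * c * a⁻¹) := by group
    · push Not at hall
      obtain ⟨x, hx, y, hy, hxy⟩ := hall
      obtain ⟨c₀, hc₀, hz⟩ := RankOne.centralizer_left hq hCab (hZY hx)
        (fun c hc => h.2.1 x hx c (Subgroup.mem_sup_right hc))
      have hc1 : c₀ ≠ 1 := by
        rintro rfl
        rw [inv_one, one_mul] at hz
        exact hxy (hz y hy)
      apply hsuff
      intro a ha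
      apply RankOne.conjBy_eq_of_comm_of_mem hq hc₀ hc1 (hle ha)
      have h1 := h.2.1 x hx a (Subgroup.mem_sup_left ha)
      have h2 := hz a (hle ha)
      -- c₀ = x * (c₀⁻¹ * x)⁻¹
      calc a * c₀ = a * x * (c₀⁻¹ * x)⁻¹ := by group
        _ = x * a * (c₀⁻¹ * x)⁻¹ := by rw [h1]
        _ = x * (c₀⁻¹ * x)⁻¹ * ((c₀⁻¹ * x) * a) * (c₀⁻¹ * x)⁻¹ := by group
        _ = x * (c₀⁻¹ * x)⁻¹ * (a * (c₀⁻¹ * x)) * (c₀⁻¹ * x)⁻¹ := by rw [h2]
        _ = c₀ * a := by group

end Cfsg.Agent.H25
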