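import Cfsg.Agent.CharLib.L.GaloisChar
import Cfsg.Agent.CharLib.EigenExt
import Cfsg.Agent.CharLib.PSection
import Cfsg.Agent.Lib.Helper23.Trunc2
import Cfsg.Agent.Lib.Helper23.DefectZero
import Cfsg.Agent.Lib.Helper10.Virtual2
import Cfsg.Agent.H25.Codeg

/-!
# Schur's bound for the Sylow `p`-subgroups of groups with a faithful `p`-rational character
-/

set_option autoImplicit false

namespace Cfsg.Agent.H25.SchurBound

open Cfsg Cfsg.Agent.CharLib Cfsg.Agent.CharLib.L Cfsg.Agent.BlockLib Polynomial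

variable {G : Type*} [Group G] [Finite G]

theorem algHom_fixed_of_mem_adjoin (φ : QBar →ₐ[ℚ] ℂ) (ζ : QBar) (hζ : φ ζ = (ζ : ℂ)) (y : QBar)
    (hy : (y : ℂ) ∈ IntermediateField.adjoin ℚ ({(ζ : ℂ)} : Set ℂ)) : φ y = (y : ℂ) := by
  obtain ⟨a, b, hab⟩ := (IntermediateField.mem_adjoin_simple_iff ℚ _).1 hy
  have h1 : y = aeval ζ a / aeval ζ b := by
    apply Subtype.ext
    rw [hab, IntermediateField.coe_div, IntermediateField.aeval_coe,
      IntermediateField.aeval_coe]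
    rfl
  rw [hab, h1, map_div₀, ← aeval_algHom_apply, ← aeval_algHom_apply, hζ]

/-- a `p`-rational character is constant on the generators of a cyclic `p`-subgroup -/
theorem char_pow_eq {p : ℕ} (hp : p.Prime) {χ : G → ℂ} (hχ : IsCharacter G χ) {r : ℕ}
    (hr : 0 < r) (hpr : ¬ p ∣ r)
    (hrat : ∀ g : G, χ g ∈ IntermediateField.adjoin ℚ
      ({Complex.exp (2 * Real.pi * Complex.I / r)} : Set ℂ))
    {x : G} {k : ℕ} (hx : x ^ p ^ k = 1) {m : ℕ} (hm : m.Coprime p) : χ (x ^ m) = χ x := by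
  obtain ⟨n', ρ, rfl⟩ := hχ
  have hcop : r.Coprime (p ^ k) :=
    Nat.Coprime.pow_right _ ((Nat.Prime.coprime_iff_not_dvd hp).2 hpr).symm
  obtain ⟨c, hc1, hc2⟩ := Nat.chineseRemainder hcop 1 m
  have hcr : c.Coprime r := by
    have := hc1.gcd_eq
    rw [Nat.Coprime, this]; exact Nat.gcd_one_left r
  have hcq : c.Coprime (p ^ k) := by
    have := hc2.gcd_eq
    rw [Nat.Coprime, this]; exact Nat.Coprime.pow_right _ hm
  have hpos : 0 < r * p ^ k := Nat.mul_pos hr (pow_pos hp.pos k)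
  obtain ⟨φ, hφ⟩ := exists_algHom_of_coprime (r * p ^ k) hpos c (Nat.Coprime.mul_right hcr hcq)
  have h1 := algHom_character ρ x (r * p ^ k) hpos (by rw [mul_comm, pow_mul, hx, one_pow]) φ c hφ
    ⟨ρ.character x, character_mem_QBar ρ x⟩ rfl
  have hxc : x ^ c = x ^ m :=
    pow_eq_pow_iff_modEq.2 (hc2.of_dvd (orderOf_dvd_of_pow_eq_one hx))
  have hz := Complex.isPrimitiveRoot_exp r hr.ne'
  obtain ⟨z, hzdef⟩ : ∃ z : ℂ, z = Complex.exp (2 * Real.pi * Complex.I / r) := ⟨_, rfl⟩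
  rw [← hzdef] at hz hrat
  have hzr : z ^ r = 1 := hz.pow_eq_one
  obtain ⟨ζ, hζ⟩ : ∃ ζ : QBar, (ζ : ℂ) = z := ⟨⟨z, mem_QBar_of_pow_eq_one hr hzr⟩, rfl⟩
  have hζ1 : ζ ^ (r * p ^ k) = 1 := by
    apply Subtype.ext
    rw [IntermediateField.coe_pow, hζ, pow_mul, hzr, one_pow]
    rfl
  have hζ2 : φ ζ = (ζ : ℂ) := by
    rw [hφ ζ hζ1, hζ]
    have h4 : c % orderOf z = 1 % orderOf z := by
      rw [← hz.eq_orderOf]; exact hc1
    rw [← pow_mod_orderOf z c, h4, pow_mod_orderOf, pow_one]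
  have h2 := algHom_fixed_of_mem_adjoin φ ζ hζ2
    ⟨ρ.character x, character_mem_QBar ρ x⟩ (by rw [hζ]; exact hrat x)
  rw [← hxc, ← h1, h2]

theorem exists_int_value {p : ℕ} (hp : p.Prime) {χ : G → ℂ} (hχ : IsCharacter G χ) {r : ℕ}
    (hr : 0 < r) (hpr : ¬ p ∣ r)
    (hrat : ∀ g : G, χ g ∈ IntermediateField.adjoin ℚ
      ({Complex.exp (2 * Real.pi * Complex.I / r)} : Set ℂ))
    {x : G} {k : ℕ} (hx : x ^ p ^ k = 1) : ∃ z : ℤ, χ x = z := by
  have hA := fun (m : ℕ) (hm : m.Coprime p) => char_pow_eq hp hχ hr hpr hrat hx hm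
  obtain ⟨n', ρ, rfl⟩ := hχ
  have hfix : ∀ φ : QBar →ₐ[ℚ] ℂ,
      φ ⟨ρ.character x, character_mem_QBar ρ x⟩ = ρ.character x := by
    intro φ
    obtain ⟨m, hm, hφ⟩ := exists_pow_of_algHom (p ^ (k + 1)) (pow_pos hp.pos _) φ
    rw [algHom_character ρ x (p ^ (k + 1)) (pow_pos hp.pos _)
      (by rw [pow_succ, pow_mul, hx, one_pow]) φ m hφ _ rfl]
    exact hA m (Nat.Coprime.coprime_dvd_right (dvd_pow_self p (Nat.succ_ne_zero k)) hm)
  obtain ⟨q, hq⟩ := exists_rat_of_fixed _ hfix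
  exact exists_int_of_isIntegral_of_rat (isIntegral_character ρ x) hq

theorem dvd_sub_value {p : ℕ} (hp : p.Prime) {χ : G → ℂ} (hχ : IsCharacter G χ)
    {x : G} {k : ℕ} (hx : x ^ p ^ k = 1) {z : ℤ} (hz : χ x = z) :
    (p : ℤ) ∣ (charDegree χ : ℤ) - z := by
  obtain ⟨M, hM⟩ := Cfsg.Agent.Lib.Helper23.exists_isPModular p hp
  have h1 := Cfsg.Agent.CharLib.H2.memLocalIdeal_char_mul_sub hM hχ (Commute.one_right x) hx
  rw [mul_one, hz, charDegree_char hχ] at h1
  have h2 : MemLocalIdeal M (((charDegree χ : ℤ) - z : ℤ) : ℂ) := by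
    have h3 := memLocalIdeal_neg h1
    push_cast
    rwa [neg_sub] at h3
  exact (memLocalIdeal_intCast_iff hM _).1 h2

theorem sum_pow_succ_of_pow_eq_one {μ : ℂ} {q : ℕ} (hμ : μ ^ q = 1) :
    ∑ e ∈ Finset.range q, μ ^ (e + 1) = if μ = 1 then (q : ℂ) else 0 := by
  split_ifs with h
  · simp [h]
  · have h1 := geom_sum_mul μ q
    rw [hμ, sub_self] at h1
    have h2 : ∑ i ∈ Finset.range q, μ ^ i = 0 :=
      (mul_eq_zero.1 h1).resolve_right (sub_ne_zero.2 h)
    simp only [pow_succ]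
    rw [← Finset.sum_mul, h2, zero_mul]

theorem lower_bound {p : ℕ} (hp : p.Prime) {χ : G → ℂ} (hχ : IsCharacter G χ) {r : ℕ}
    (hr : 0 < r) (hpr : ¬ p ∣ r)
    (hrat : ∀ g : G, χ g ∈ IntermediateField.adjoin ℚ
      ({Complex.exp (2 * Real.pi * Complex.I / r)} : Set ℂ))
    {x : G} {k : ℕ} (hx : x ^ p ^ k = 1) {z : ℤ} (hz : χ x = z) :
    0 ≤ ((p : ℤ) - 1) * z + charDegree χ := by
  classical
  have hA := fun (m : ℕ) (hm : m.Coprime p) => char_pow_eq hp hχ hr hpr hrat hx hm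
  have hdeg := charDegree_char hχ
  obtain ⟨n, hn⟩ : ∃ n : ℕ, n = charDegree χ := ⟨_, rfl⟩
  rw [← hn] at hdeg ⊢
  obtain ⟨n', ρ, rfl⟩ := hχ
  obtain ⟨b, μ, hμ, -, -, hpow⟩ := exists_eigenvalues ρ x
  have hμq : ∀ i, μ i ^ (p ^ (k + 1)) = 1 := by
    intro i
    obtain ⟨c, hc⟩ := orderOf_dvd_of_pow_eq_one hx
    rw [pow_succ, hc, mul_assoc, pow_mul, hμ, one_pow]
  have hS : ∑ e ∈ Finset.range (p ^ (k + 1)), ρ.character (x ^ (e + 1)) =
      ((p ^ (k + 1) * (Finset.univ.filter (fun i => μ i = 1)).card : ℕ) : ℂ) := by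
    simp only [hpow]
    rw [Finset.sum_comm, Finset.sum_congr rfl (fun i _ => sum_pow_succ_of_pow_eq_one (hμq i)),
      ← Finset.sum_filter, Finset.sum_const, nsmul_eq_mul]
    push_cast
    ring
  have hnorm : ∀ g : G, (ρ.character g).re ≤ n := by
    intro g
    have h1 := norm_character_le ρ g
    have h2 : ((Module.finrank ℂ (Fin n' → ℂ) : ℕ) : ℂ) = (n : ℂ) := by
      rw [← hdeg, Representation.char_one]
    have h3 : Module.finrank ℂ (Fin n' → ℂ) = n := by exact_mod_cast h2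
    rw [h3] at h1
    exact (Complex.re_le_norm _).trans h1
  have hcardA : (Finset.filter (fun e => p ∣ e + 1) (Finset.range (p ^ (k + 1)))).card = p ^ k := by
    rw [Nat.card_multiples, pow_succ, Nat.mul_div_cancel _ hp.pos]
  have hcardB : (Finset.filter (fun e => ¬ p ∣ e + 1) (Finset.range (p ^ (k + 1)))).card =
      p ^ (k + 1) - p ^ k := by
    have h1 := Finset.card_filter_add_card_filter_not (s := Finset.range (p ^ (k + 1)))
      (fun e => p ∣ e + 1)
    rw [hcardA, Finset.card_range] at h1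
    omega
  have hsplit := Finset.sum_filter_add_sum_filter_not (Finset.range (p ^ (k + 1)))
    (fun e => p ∣ e + 1) (fun e => ρ.character (x ^ (e + 1)))
  have hB : ∑ e ∈ Finset.filter (fun e => ¬ p ∣ e + 1) (Finset.range (p ^ (k + 1))),
      ρ.character (x ^ (e + 1)) = ((p ^ (k + 1) - p ^ k : ℕ) : ℂ) * z := by
    rw [Finset.sum_congr rfl (fun e he => (hA (e + 1)
      ((Nat.Prime.coprime_iff_not_dvd hp).2 (Finset.mem_filter.1 he).2).symm).trans hz),
      Finset.sum_const, hcardB, nsmul_eq_mul]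
  have hAre : (∑ e ∈ Finset.filter (fun e => p ∣ e + 1) (Finset.range (p ^ (k + 1))),
      ρ.character (x ^ (e + 1))).re ≤ (p ^ k : ℕ) * (n : ℝ) := by
    rw [Complex.re_sum]
    calc ∑ e ∈ Finset.filter (fun e => p ∣ e + 1) (Finset.range (p ^ (k + 1))),
          (ρ.character (x ^ (e + 1))).re
        ≤ ∑ e ∈ Finset.filter (fun e => p ∣ e + 1) (Finset.range (p ^ (k + 1))), (n : ℝ) :=
          Finset.sum_le_sum fun e _ => hnorm _
      _ = (p ^ k : ℕ) * (n : ℝ) := by rw [Finset.sum_const, hcardA, nsmul_eq_mul]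
  rw [hS, hB] at hsplit
  have hre := congrArg Complex.re hsplit
  rw [Complex.add_re] at hre
  have h5 : (((p ^ (k + 1) - p ^ k : ℕ) : ℂ) * (z : ℂ)).re = ((p ^ (k + 1) - p ^ k : ℕ) : ℝ) * z := by
    rw [← Complex.ofReal_natCast, ← Complex.ofReal_intCast, ← Complex.ofReal_mul,
      Complex.ofReal_re]
  rw [h5, Complex.natCast_re] at hre
  have h6 : (0 : ℝ) ≤ (p ^ k : ℕ) * (n : ℝ) + ((p ^ (k + 1) - p ^ k : ℕ) : ℝ) * z := by
    have h7 : (0 : ℝ) ≤ ((p ^ (k + 1) * (Finset.univ.filter (fun i => μ i = 1)).card : ℕ) : ℝ) :=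
      Nat.cast_nonneg _
    linarith
  have h8 : ((p ^ (k + 1) - p ^ k : ℕ) : ℝ) = (p ^ k : ℕ) * ((p : ℝ) - 1) := by
    rw [Nat.cast_sub (Nat.pow_le_pow_right hp.pos (Nat.le_succ k))]
    push_cast
    rw [pow_succ]
    ring
  rw [h8] at h6
  have h9 : (0 : ℝ) < ((p ^ k : ℕ) : ℝ) := by exact_mod_cast pow_pos hp.pos k
  have h10 : (0 : ℝ) ≤ ((p : ℝ) - 1) * z + n := by
    by_contra hneg
    push Not at hneg
    nlinarith
  exact_mod_cast h10

theorem re_le_charDegree {χ : G → ℂ} (hχ : IsCharacter G χ) (g : G) :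
    (χ g).re ≤ charDegree χ := by
  have hdeg := charDegree_char hχ
  obtain ⟨n, hn⟩ : ∃ n : ℕ, n = charDegree χ := ⟨_, rfl⟩
  rw [← hn] at hdeg ⊢
  obtain ⟨n', ρ, rfl⟩ := hχ
  have h1 := norm_character_le ρ g
  have h2 : ((Module.finrank ℂ (Fin n' → ℂ) : ℕ) : ℂ) = (n : ℂ) := by
    rw [← hdeg, Representation.char_one]
  have h3 : Module.finrank ℂ (Fin n' → ℂ) = n := by exact_mod_cast h2
  rw [h3] at h1
  exact (Complex.re_le_norm _).trans h1

omit [Finite G] in
theorem isGeneralizedCharacter_mul' {θ θ' : G → ℂ} (h : IsGeneralizedCharacter G θ)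
    (h' : IsGeneralizedCharacter G θ') : IsGeneralizedCharacter G (θ * θ') := by
  obtain ⟨α, β, hα, hβ, rfl⟩ := h
  obtain ⟨γ, δ, hγ, hδ, rfl⟩ := h'
  exact ⟨α * γ + β * δ, α * δ + β * γ,
    isCharacter_add (isCharacter_mul hα hγ) (isCharacter_mul hβ hδ),
    isCharacter_add (isCharacter_mul hα hδ) (isCharacter_mul hβ hγ), by ring⟩

omit [Finite G] in
theorem isGeneralizedCharacter_of_char {χ : G → ℂ} (h : IsCharacter G χ) :
    IsGeneralizedCharacter G χ := ⟨χ, 0, h, isCharacter_zero, by simp⟩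

omit [Finite G] in
theorem isGeneralizedCharacter_prod' {ι : Type*} (s : Finset ι) (f : ι → G → ℂ)
    (h : ∀ i ∈ s, IsGeneralizedCharacter G (f i)) : IsGeneralizedCharacter G (∏ i ∈ s, f i) := by
  classical
  induction s using Finset.induction_on with
  | empty =>
    rw [Finset.prod_empty]
    exact isGeneralizedCharacter_of_char (isCharacter_of_irr isIrrCharacter_one)
  | insert a s ha ih =>
    rw [Finset.prod_insert ha]
    exact isGeneralizedCharacter_mul' (h a (Finset.mem_insert_self a s))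
      (ih fun i hi => h i (Finset.mem_insert_of_mem hi))

theorem isGeneralizedCharacter_sub_int {χ : G → ℂ} (hχ : IsCharacter G χ) (c : ℤ) :
    IsGeneralizedCharacter G (fun g => χ g - (c : ℂ)) := by
  cases nonempty_fintype G
  have h1 := Cfsg.Agent.Lib.Helper10.isGeneralizedCharacter_sub
    (isGeneralizedCharacter_of_char hχ)
    (Cfsg.Agent.Lib.Helper10.isGeneralizedCharacter_intCast_smul
      (isGeneralizedCharacter_of_char (isCharacter_of_irr (isIrrCharacter_one (G := G)))) c)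
  convert h1 using 1
  funext g
  simp

theorem main {p : ℕ} (hp : p.Prime) {χ : G → ℂ} (hχ : IsCharacter G χ)
    (hfaith : ∀ g : G, χ g = χ 1 → g = 1) {r : ℕ} (hr : 0 < r) (hpr : ¬ p ∣ r)
    (hrat : ∀ g : G, χ g ∈ IntermediateField.adjoin ℚ
      ({Complex.exp (2 * Real.pi * Complex.I / r)} : Set ℂ)) :
    p ^ (Nat.card G).factorization p ∣
      p ^ (charDegree χ / (p - 1)) * (charDegree χ / (p - 1)).factorial := by
  classical
  have hF : Fact p.Prime := ⟨hp⟩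
  have hdeg := charDegree_char hχ
  obtain ⟨n, hn⟩ : ∃ n : ℕ, n = charDegree χ := ⟨_, rfl⟩
  obtain ⟨N, hN⟩ : ∃ N : ℕ, N = n / (p - 1) := ⟨_, rfl⟩
  have hp1 : 0 < p - 1 := Nat.sub_pos_of_lt hp.one_lt
  obtain ⟨Θ, hΘdef⟩ : ∃ Θ : G → ℂ, Θ = ∏ s ∈ Finset.Ico 1 (N + 1),
    (fun g => χ g - (((n : ℤ) - p * s : ℤ) : ℂ)) := ⟨_, rfl⟩
  have hΘ : IsGeneralizedCharacter G Θ := by
    rw [hΘdef]
    exact isGeneralizedCharacter_prod' _ _ fun s _ => isGeneralizedCharacter_sub_int hχ _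
  obtain ⟨P⟩ : Nonempty (Sylow p G) := inferInstance
  have hΘP := Cfsg.Agent.Lib.Helper23.Trunc.isGeneralizedCharacter_restrict hΘ (P : Subgroup G)
  have hvan : ∀ u : (P : Subgroup G), p ∣ orderOf u → Θ u = 0 := by
    intro u hu
    have hu1 : (u : G) ≠ 1 := by
      intro h
      have h1 : u = 1 := Subtype.ext h
      rw [h1, orderOf_one] at hu
      exact hp.one_lt.ne' (Nat.dvd_one.1 hu)
    obtain ⟨k, hk⟩ := P.isPGroup' u
    have hx : (u : G) ^ p ^ k = 1 := by simpa using congrArg Subtype.val hk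
    obtain ⟨z, hz⟩ := exists_int_value hp hχ hr hpr hrat hx
    obtain ⟨s, hs⟩ := dvd_sub_value hp hχ hx hz
    have hlb := lower_bound hp hχ hr hpr hrat hx hz
    rw [← hn] at hs hlb
    have hzn : z ≤ n := by
      have h1 := re_le_charDegree hχ (u : G)
      rw [hz, ← hn, Complex.intCast_re] at h1
      exact_mod_cast h1
    have hzne : z ≠ n := by
      intro h
      apply hu1
      apply hfaith
      rw [hz, hdeg, ← hn, h]
      simp
    have hpz : (0 : ℤ) < p := by exact_mod_cast hp.pos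
    have hs1 : 1 ≤ s := by
      by_contra hneg
      have h2 : s ≤ 0 := by omega
      have h3 : (p : ℤ) * s ≤ 0 := mul_nonpos_of_nonneg_of_nonpos hpz.le h2
      omega
    have hs2 : ((p : ℤ) - 1) * s ≤ n := by
      have h4 : z = n - p * s := by omega
      rw [h4] at hlb
      have h5 : (p : ℤ) * (((p : ℤ) - 1) * s) ≤ p * n := by nlinarith
      exact le_of_mul_le_mul_left h5 hpz
    obtain ⟨t, rfl⟩ : ∃ t : ℕ, s = t := ⟨s.toNat, by omega⟩
    have ht : t ∈ Finset.Ico 1 (N + 1) := by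
      rw [Finset.mem_Ico, Nat.lt_succ_iff, hN, Nat.le_div_iff_mul_le hp1]
      refine ⟨by exact_mod_cast hs1, ?_⟩
      have h6 : ((t * (p - 1) : ℕ) : ℤ) ≤ n := by
        rw [Nat.cast_mul, Nat.cast_sub hp.one_lt.le]
        push_cast
        linarith
      exact_mod_cast h6
    rw [hΘdef, Finset.prod_apply]
    apply Finset.prod_eq_zero ht
    rw [hz, sub_eq_zero]
    have h7 : z = (n : ℤ) - p * t := by omega
    rw [h7]
  obtain ⟨w, hw⟩ := Cfsg.Agent.Lib.Helper23.Trunc.pow_dvd_of_vanish hp hΘP hvan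
  have hcard : (Nat.card (P : Subgroup G)).factorization p = (Nat.card G).factorization p := by
    rw [P.card_eq_multiplicity, hp.factorization_pow, Finsupp.single_eq_same]
  rw [hcard] at hw
  have hΘ1 : Θ 1 = ((p ^ N * N.factorial : ℕ) : ℂ) := by
    rw [hΘdef, Finset.prod_apply]
    have h1 : ∀ s ∈ Finset.Ico 1 (N + 1), χ 1 - (((n : ℤ) - p * s : ℤ) : ℂ) = (p : ℂ) * (s : ℂ) := by
      intro s _
      rw [hdeg, ← hn]
      push_cast
      ring
    rw [Finset.prod_congr rfl h1, Finset.prod_mul_distrib, Finset.prod_const, Nat.card_Ico,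
      Nat.add_sub_cancel, ← Finset.prod_Ico_id_eq_factorial]
    push_cast
    rfl
  have hfin : ((p ^ N * N.factorial : ℕ) : ℤ) = (p ^ (Nat.card G).factorization p : ℕ) * w := by
    have h2 : (((p ^ N * N.factorial : ℕ) : ℤ) : ℂ) =
        (((p ^ (Nat.card G).factorization p : ℕ) * w : ℤ) : ℂ) := by
      push_cast
      have h3 : Θ ((1 : (P : Subgroup G)) : G) = Θ 1 := rfl
      rw [h3, hΘ1] at hw
      push_cast at hw
      exact hw
    exact_mod_cast h2
  rw [← hn, ← hN]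
  exact Int.natCast_dvd_natCast.1 ⟨w, hfin⟩

end Cfsg.Agent.H25.SchurBound
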