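import Cfsg.Agent.S0947

/-!
# Sums of squares over the principal block on a `p`-section
-/

set_option autoImplicit false

namespace Cfsg.Agent.H25

open Cfsg Cfsg.Agent.BlockLib Cfsg.Agent.CharLib Cfsg.Agent.H6 Cfsg.Agent.H6.BlockSection
open scoped ComplexConjugate

/-- helper6's section formula, also for `z = 1` -/
theorem sum_normSq_section {G : Type*} [Group G] [Fintype G] {p : ℕ} [Fact p.Prime]
    {M : Ideal AlgInt} (hM : IsPModular p M) (z : G) {k : ℕ} (hk : orderOf z = p ^ k)
    [Fintype (Subgroup.centralizer ({z} : Set G))]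
    (y : Subgroup.centralizer ({z} : Set G)) (hy : ¬ p ∣ orderOf y)
    [DecidablePred (· ∈ principalBlock M G)]
    [DecidablePred (· ∈ principalBlock M (Subgroup.centralizer ({z} : Set G)))] :
    (∑ ζ ∈ Finset.univ.filter (· ∈ principalBlock M G), ‖(ζ : G → ℂ) (z * (y : G))‖ ^ 2 : ℝ)
      = ∑ χ ∈ Finset.univ.filter (· ∈ principalBlock M (Subgroup.centralizer ({z} : Set G))),
        ‖(χ : Subgroup.centralizer ({z} : Set G) → ℂ) y‖ ^ 2 := by
  classical
  have := isPrime_of_isPModular hM
  have hp : p.Prime := Fact.out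
  have hcz : ∀ d : Subgroup.centralizer ({z} : Set G), (d : G) * z = z * (d : G) :=
    fun d => Subgroup.mem_centralizer_singleton_iff.mp d.2
  have hpp : ∀ c : Subgroup.centralizer ({z} : Set G), ¬ p ∣ orderOf c → IsPPart p (z * (c : G)) z :=
    fun c hc => ⟨c, rfl, (hcz c).symm, ⟨k, hk⟩, by rwa [Subgroup.orderOf_coe]⟩
  have hb : IsPBlock M (principalBlock M (Subgroup.centralizer ({z} : Set G))) :=
    ⟨⟨fun _ => 1, isIrrCharacter_one⟩, rfl⟩
  have h1 := blockPart_section_principal hM (isClassFunction_indicator (z * (y : G))) hk y hy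
  have h2 : blockPart (principalBlock M (Subgroup.centralizer ({z} : Set G)))
      (fun c : Subgroup.centralizer ({z} : Set G) =>
        if IsConj (z * (y : G)) (z * (c : G)) then (1 : ℂ) else 0) y =
      blockPart (principalBlock M (Subgroup.centralizer ({z} : Set G)))
      (fun c : Subgroup.centralizer ({z} : Set G) => if IsConj y c then (1 : ℂ) else 0) y := by
    apply Cfsg.Agent.S0947.blockPart_congr_reg hM hb _ hy
    intro c hc
    have : IsConj (z * (y : G)) (z * (c : G)) ↔ IsConj y c := by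
      constructor
      · intro h
        obtain ⟨g, hg⟩ := isConj_iff.mp h
        have e1 := Cfsg.Agent.S0925.isPPart_conj (hpp y hy) g
        rw [hg] at e1
        have e2 : g * z * g⁻¹ = z := isPPart_unique hp e1 (hpp c hc)
        have e3 : g * z = z * g := by
          calc g * z = (g * z * g⁻¹) * g := by group
            _ = z * g := by rw [e2]
        refine isConj_iff.mpr ⟨⟨g, Subgroup.mem_centralizer_singleton_iff.mpr e3⟩, ?_⟩
        apply Subtype.ext
        show g * (y : G) * g⁻¹ = (c : G)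
        calc g * (y : G) * g⁻¹ = (g * z * g⁻¹)⁻¹ * (g * (z * (y : G)) * g⁻¹) := by group
          _ = (c : G) := by rw [e2, hg]; group
      · intro h
        obtain ⟨d, hd⟩ := isConj_iff.mp h
        refine isConj_iff.mpr ⟨(d : G), ?_⟩
        rw [← hd]
        show (d : G) * (z * (y : G)) * (d : G)⁻¹ = z * ((d : G) * (y : G) * (d : G)⁻¹)
        rw [← mul_assoc, hcz d]
        group
    simp only [this]
  rw [h2, Cfsg.Agent.S0947.blockPart_indicator, Cfsg.Agent.S0947.blockPart_indicator,
    Cfsg.Agent.S0947.card_centralizer_mul hp y (hpp y hy)] at h1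
  have h5 : (Nat.card (Subgroup.centralizer ({y} : Set (Subgroup.centralizer ({z} : Set G)))) : ℂ)⁻¹
      ≠ 0 := by
    apply inv_ne_zero
    exact_mod_cast Nat.card_pos.ne'
  have h6 := mul_left_cancel₀ h5 h1
  have h7 := Complex.ofReal_injective h6
  convert h7 using 2

theorem isPPart_self_of_pElement {G : Type*} [Group G] {p : ℕ} (hp : p.Prime) {x : G} {k : ℕ}
    (hk : orderOf x = p ^ k) : IsPPart p x x :=
  ⟨1, mul_one x, Commute.one_right x, ⟨k, hk⟩, by rw [orderOf_one]; exact hp.one_lt.ne' ∘ Nat.dvd_one.1⟩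

/-- the column inner products of the principal block at `p`-elements -/
theorem sum_principal_pElements {G : Type*} [Group G] [Fintype G] {p : ℕ} [Fact p.Prime]
    {M : Ideal AlgInt} (hM : IsPModular p M) (y y' : G) {k k' : ℕ} (hk : orderOf y = p ^ k)
    (hk' : orderOf y' = p ^ k') [DecidablePred (· ∈ principalBlock M G)]
    [Fintype (Subgroup.centralizer ({y} : Set G))]
    [DecidablePred (· ∈ principalBlock M (Subgroup.centralizer ({y} : Set G)))]
    [Decidable (IsConj y y')] :
    ∑ χ ∈ Finset.univ.filter (· ∈ principalBlock M G), (χ : G → ℂ) y⁻¹ * conj ((χ : G → ℂ) y'⁻¹) =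
      if IsConj y y' then
        ((∑ ψ ∈ Finset.univ.filter (· ∈ principalBlock M (Subgroup.centralizer ({y} : Set G))),
          charDegree (ψ : Subgroup.centralizer ({y} : Set G) → ℂ) ^ 2 : ℕ) : ℂ) else 0 := by
  classical
  have hp : p.Prime := Fact.out
  have hB₀ : IsPBlock M (principalBlock M G) := ⟨⟨fun _ => 1, isIrrCharacter_one⟩, rfl⟩
  split_ifs with hc
  · have h1 := sum_normSq_section hM y hk 1 (by
      rw [orderOf_one]; exact hp.one_lt.ne' ∘ Nat.dvd_one.1)
    simp only [OneMemClass.coe_one, mul_one] at h1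
    have h2 : ∀ χ : IrrCharacter G, (χ : G → ℂ) y⁻¹ * conj ((χ : G → ℂ) y'⁻¹) =
        ((‖(χ : G → ℂ) y‖ ^ 2 : ℝ) : ℂ) := by
      intro χ
      obtain ⟨g, hg⟩ := isConj_iff.mp hc
      have e1 : (χ : G → ℂ) y' = (χ : G → ℂ) y := by
        rw [← hg]; exact isClassFunction_of_irr χ.2 y g
      rw [isCharacter_inv (isCharacter_of_irr χ.2), isCharacter_inv (isCharacter_of_irr χ.2), e1,
        Complex.conj_conj, mul_comm, Complex.mul_conj, Complex.normSq_eq_norm_sq]
    rw [Finset.sum_congr rfl (fun χ _ => h2 χ), ← Complex.ofReal_sum, h1]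
    push_cast
    refine Finset.sum_congr rfl fun ψ _ => ?_
    rw [← Cfsg.Agent.Lib.Helper23.charDegree_cast_irr ψ]
    simp
  · have h1 := (Cfsg.Agent.S0925.result p M hM).2 y⁻¹ y'⁻¹ y⁻¹ y'⁻¹
      (isPPart_self_of_pElement hp (by rw [orderOf_inv]; exact hk))
      (isPPart_self_of_pElement hp (by rw [orderOf_inv]; exact hk'))
      (fun h => hc (by
        obtain ⟨g, hg⟩ := isConj_iff.mp h
        refine isConj_iff.mpr ⟨g, ?_⟩
        have := congrArg (·⁻¹) hg
        simpa [mul_assoc] using this)) _ hB₀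
    rw [finsum_mem_eq_finite_toFinset_sum _ (Set.toFinite _)] at h1
    have t1 : (Set.toFinite (principalBlock M G)).toFinset
        = Finset.univ.filter (· ∈ principalBlock M G) := by ext; simp
    rw [t1] at h1
    rw [← h1]
    refine Finset.sum_congr rfl fun χ _ => ?_
    rw [inv_inv, isCharacter_inv (isCharacter_of_irr χ.2) y', Complex.conj_conj]

theorem extendByZero_apply_mem {G : Type*} [Group G] (P : Subgroup G) (f : P → ℂ) (y : P) :
    extendByZero P f (y : G) = f y :=
  Function.Injective.extend_apply Subtype.val_injective _ _ _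

/-- summing over the conjugates under `N` when `N` controls the fusion of `y` in `P` -/
theorem sum_conj_orbit {G : Type*} [Group G] [Finite G] (P N : Subgroup G) [Fintype P] [Fintype N]
    (hNN : N ≤ Subgroup.normalizer (P : Set G)) (y : P) (f : P → ℂ)
    (hfus : ∀ g : G, g * y * g⁻¹ ∈ P → ∃ n ∈ N, n * y * n⁻¹ = g * y * g⁻¹)
    [∀ y' : P, Decidable (IsConj (y : G) (y' : G))] :
    ∑ x : N, extendByZero P f ((x : G) * (y : G) * (x : G)⁻¹) =
      ∑ y' : P, (if IsConj (y : G) (y' : G) then
        (Nat.card ↥(N ⊓ Subgroup.centralizer ({(y : G)} : Set G)) : ℂ) else 0) * f y' := by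
  classical
  have hmem : ∀ x : N, (x : G) * (y : G) * (x : G)⁻¹ ∈ P := fun x =>
    (Subgroup.mem_normalizer_iff.1 (hNN x.2) y).1 y.2
  let φ : N → P := fun x => ⟨(x : G) * (y : G) * (x : G)⁻¹, hmem x⟩
  have h1 : ∀ x : N, extendByZero P f ((x : G) * (y : G) * (x : G)⁻¹) = f (φ x) := fun x =>
    extendByZero_apply_mem P f (φ x)
  rw [Finset.sum_congr rfl (fun x _ => h1 x), ← Finset.sum_fiberwise Finset.univ φ]
  refine Finset.sum_congr rfl fun y' _ => ?_
  have h2 : ∑ x ∈ Finset.univ.filter (fun x => φ x = y'), f (φ x) =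
      ((Finset.univ.filter (fun x => φ x = y')).card : ℂ) * f y' := by
    rw [Finset.sum_congr rfl (fun x hx => by rw [(Finset.mem_filter.1 hx).2]), Finset.sum_const,
      nsmul_eq_mul]
  rw [h2]
  congr 1
  split_ifs with hc
  · obtain ⟨g, hg⟩ := isConj_iff.mp hc
    obtain ⟨n, hn, hn'⟩ := hfus g (by rw [hg]; exact y'.2)
    rw [hg] at hn'
    congr 1
    rw [← Fintype.card_subtype, ← Nat.card_eq_fintype_card]
    apply Nat.card_congr
    refine ⟨fun x => ⟨n⁻¹ * (x : N), ?_⟩, fun c => ⟨⟨n * (c : G), ?_⟩, ?_⟩, ?_, ?_⟩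
    · rw [Subgroup.mem_inf]
      refine ⟨N.mul_mem (N.inv_mem hn) (x : N).2, ?_⟩
      rw [Subgroup.mem_centralizer_singleton_iff]
      have e1 : ((x : N) : G) * (y : G) * ((x : N) : G)⁻¹ = (y' : G) := congrArg Subtype.val x.2
      have e2 : ((x : N) : G) * (y : G) = n * (y : G) * n⁻¹ * ((x : N) : G) := by
        rw [hn', ← e1]; group
      calc n⁻¹ * ((x : N) : G) * (y : G) = n⁻¹ * (((x : N) : G) * (y : G)) := by group
        _ = (y : G) * (n⁻¹ * ((x : N) : G)) := by rw [e2]; group
    · exact N.mul_mem hn (Subgroup.mem_inf.1 c.2).1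
    · apply Subtype.ext
      have e1 := Subgroup.mem_centralizer_singleton_iff.1 (Subgroup.mem_inf.1 c.2).2
      change n * (c : G) * (y : G) * (n * (c : G))⁻¹ = (y' : G)
      rw [← hn']
      calc n * (c : G) * (y : G) * (n * (c : G))⁻¹ = n * ((c : G) * (y : G)) * (c : G)⁻¹ * n⁻¹ := by
            group
        _ = n * (y : G) * n⁻¹ := by rw [e1]; group
    · intro x
      apply Subtype.ext
      apply Subtype.ext
      simp
    · intro c
      apply Subtype.ext
      simp
  · rw [Nat.cast_eq_zero, Finset.card_eq_zero, Finset.filter_eq_empty_iff]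
    intro x _ hx
    exact hc (isConj_iff.mpr ⟨x, congrArg Subtype.val hx⟩)

end Cfsg.Agent.H25
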