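import Mathlib
import Cfsg.Prelude.Def_Characters
import Cfsg.Agent.H25.Subdeg2
import Cfsg.Agent.H25.FS

set_option autoImplicit false

namespace Cfsg.Agent.H25.Subdeg

open Cfsg Cfsg.Agent.CharLib
open scoped ComplexConjugate

variable {G : Type*} [Group G] [Fintype G] {Ω : Type*} [Fintype Ω] [MulAction G Ω]

open Classical in
theorem card_fixedBy_eq_sum (g : G) :
    (Nat.card (MulAction.fixedBy Ω g) : ℂ) = ∑ ω : Ω, if g • ω = ω then (1 : ℂ) else 0 := by
  rw [Finset.sum_boole, Nat.card_eq_fintype_card, ← Fintype.card_subtype]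
  rfl

open Classical in
theorem sum_perm_sq_eq (hswap : ∀ a b : Ω, ∃ g : G, g • a = b ∧ g • b = a) :
    ∑ g : G, (Nat.card (MulAction.fixedBy Ω (g * g)) : ℂ) =
      ∑ g : G, (Nat.card (MulAction.fixedBy Ω g) : ℂ) * (Nat.card (MulAction.fixedBy Ω g) : ℂ) := by
  have h1 : ∀ g : G, (Nat.card (MulAction.fixedBy Ω (g * g)) : ℂ) =
      ∑ ω : Ω, ∑ ω' : Ω, if g • ω = ω' ∧ g • ω' = ω then (1 : ℂ) else 0 := by
    intro g
    rw [card_fixedBy_eq_sum]
    refine Finset.sum_congr rfl fun ω _ => ?_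
    rw [Finset.sum_eq_single (g • ω)]
    · simp [mul_smul]
    · intro ω' _ hne
      rw [if_neg]
      rintro ⟨h, -⟩
      exact hne h.symm
    · intro h; exact absurd (Finset.mem_univ _) h
  have h2 : ∀ g : G, (Nat.card (MulAction.fixedBy Ω g) : ℂ) * (Nat.card (MulAction.fixedBy Ω g) : ℂ) =
      ∑ ω : Ω, ∑ ω' : Ω, if g • ω = ω ∧ g • ω' = ω' then (1 : ℂ) else 0 := by
    intro g
    rw [card_fixedBy_eq_sum, Finset.sum_mul_sum]
    refine Finset.sum_congr rfl fun ω _ => Finset.sum_congr rfl fun ω' _ => ?_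
    by_cases h : g • ω = ω <;> by_cases h' : g • ω' = ω' <;> simp [h, h']
  simp only [h1, h2]
  rw [Finset.sum_comm]
  conv_rhs => rw [Finset.sum_comm]
  refine Finset.sum_congr rfl fun ω _ => ?_
  rw [Finset.sum_comm]
  conv_rhs => rw [Finset.sum_comm]
  refine Finset.sum_congr rfl fun ω' _ => ?_
  obtain ⟨s, hs1, hs2⟩ := hswap ω ω'
  symm
  refine Fintype.sum_equiv (Equiv.mulLeft s) _ _ ?_
  intro g
  have hiff : (g • ω = ω ∧ g • ω' = ω') ↔ ((s * g) • ω = ω' ∧ (s * g) • ω' = ω) := by
    rw [mul_smul, mul_smul]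
    constructor
    · rintro ⟨h, h'⟩
      rw [h, h']; exact ⟨hs1, hs2⟩
    · rintro ⟨h, h'⟩
      constructor
      · apply smul_left_cancel s; rw [h, hs1]
      · apply smul_left_cancel s; rw [h', hs2]
  show (if g • ω = ω ∧ g • ω' = ω' then (1 : ℂ) else 0) =
    if (s * g) • ω = ω' ∧ (s * g) • ω' = ω then (1 : ℂ) else 0
  by_cases h : g • ω = ω ∧ g • ω' = ω'
  · rw [if_pos h, if_pos (hiff.1 h)]
  · rw [if_neg h, if_neg (fun h' => h (hiff.2 h'))]

theorem real_mult_free_of_swap (hswap : ∀ a b : Ω, ∃ g : G, g • a = b ∧ g • b = a) :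
    ∀ χ : G → ℂ, IsIrrCharacter G χ →
      classInner (fun g : G => (Nat.card (MulAction.fixedBy Ω g) : ℂ)) χ ≠ 0 →
      classInner (fun g : G => (Nat.card (MulAction.fixedBy Ω g) : ℂ)) χ = 1 ∧
        ∀ g : G, (starRingEnd ℂ) (χ g) = χ g := by
  classical
  have hchar := isCharacter_fixedBy (G := G) Ω
  choose e he using fun χ : IrrCharacter G => classInner_char_nat hchar (isCharacter_of_irr χ.2)
  have hdecomp := classFunction_eq_sum (isClassFunction_of_char hchar)
  have hG : (Nat.card G : ℂ) ≠ 0 := card_ne_zero_complex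
  -- norm
  have h1 : classInner (fun g : G => (Nat.card (MulAction.fixedBy Ω g) : ℂ))
      (fun g : G => (Nat.card (MulAction.fixedBy Ω g) : ℂ)) = ∑ χ, (e χ : ℂ) ^ 2 := by
    conv_lhs => rw [hdecomp]
    rw [classInner_sum_sum]
    refine Finset.sum_congr rfl fun χ _ => ?_
    rw [he, Complex.conj_natCast, sq]
  have h2 : fsInd (fun g : G => (Nat.card (MulAction.fixedBy Ω g) : ℂ)) =
      ∑ χ : IrrCharacter G, (e χ : ℂ) * fsInd (χ : G → ℂ) := by
    unfold fsInd
    have h3 : ∀ s : G, (Nat.card (MulAction.fixedBy Ω (s * s)) : ℂ) =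
        ∑ χ : IrrCharacter G, (e χ : ℂ) * (χ : G → ℂ) (s * s) := by
      intro s
      have := congrFun hdecomp (s * s)
      simp only [Finset.sum_apply, Pi.smul_apply, smul_eq_mul, he] at this
      exact this
    simp only [h3]
    rw [Finset.sum_comm, Finset.mul_sum]
    refine Finset.sum_congr rfl fun χ _ => ?_
    rw [← Finset.mul_sum]; ring
  have h4 : fsInd (fun g : G => (Nat.card (MulAction.fixedBy Ω g) : ℂ)) =
      classInner (fun g : G => (Nat.card (MulAction.fixedBy Ω g) : ℂ))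
      (fun g : G => (Nat.card (MulAction.fixedBy Ω g) : ℂ)) := by
    unfold fsInd classInner
    rw [sum_perm_sq_eq hswap]
    simp only [Complex.conj_natCast]
  rw [h1, h2] at h4
  -- integer-valued indicators
  have hν : ∀ χ : IrrCharacter G, ∃ n : ℤ, n ≤ 1 ∧ fsInd (χ : G → ℂ) = n := by
    intro χ
    rcases fsInd_cases χ with h | h | h
    · exact ⟨0, by norm_num, by rw [h]; simp⟩
    · exact ⟨1, le_refl _, by rw [h]; simp⟩
    · exact ⟨-1, by norm_num, by rw [h]; simp⟩
  choose ν hν1 hν2 using hν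
  have h5 : ∑ χ : IrrCharacter G, (e χ : ℤ) * ((e χ : ℤ) - ν χ) = 0 := by
    have : ((∑ χ : IrrCharacter G, (e χ : ℤ) * ((e χ : ℤ) - ν χ) : ℤ) : ℂ) = 0 := by
      push_cast
      simp only [mul_sub, Finset.sum_sub_distrib]
      rw [sub_eq_zero]
      simp only [hν2] at h4
      rw [h4]
      refine Finset.sum_congr rfl fun χ _ => ?_
      ring
    exact_mod_cast this
  have hnonneg : ∀ χ ∈ (Finset.univ : Finset (IrrCharacter G)),
      0 ≤ (e χ : ℤ) * ((e χ : ℤ) - ν χ) := by
    intro χ _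
    rcases Nat.eq_zero_or_pos (e χ) with h | h
    · rw [h]; simp
    · apply mul_nonneg (by positivity)
      have := hν1 χ
      have : (1 : ℤ) ≤ e χ := by exact_mod_cast h
      linarith
  intro χ hχ hne
  have h6 := (Finset.sum_eq_zero_iff_of_nonneg hnonneg).1 h5 ⟨χ, hχ⟩ (Finset.mem_univ _)
  have h7 := he ⟨χ, hχ⟩
  simp only at h7
  have he0 : e ⟨χ, hχ⟩ ≠ 0 := by
    intro h
    rw [h7, h] at hne
    exact hne (by simp)
  have h8 : (e ⟨χ, hχ⟩ : ℤ) = ν ⟨χ, hχ⟩ := by
    rcases mul_eq_zero.1 h6 with h | h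
    · exact absurd (by exact_mod_cast h) he0
    · linarith
  have h9 : e ⟨χ, hχ⟩ = 1 := by
    have := hν1 ⟨χ, hχ⟩
    have h10 : (e ⟨χ, hχ⟩ : ℤ) ≤ 1 := by rw [h8]; exact this
    have : e ⟨χ, hχ⟩ ≤ 1 := by exact_mod_cast h10
    omega
  refine ⟨by rw [h7, h9]; simp, ?_⟩
  have h11 : fsInd χ ≠ 0 := by
    have := hν2 ⟨χ, hχ⟩
    simp only at this
    rw [this, ← h8, h9]
    simp
  have h12 := (fsInd_eq_zero_iff ⟨χ, hχ⟩).not.1 h11
  push Not at h12
  intro g
  rw [Complex.conj_eq_iff_im]
  exact h12 g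

/-- An operator which is bi-invariant under `H`, where `H` has at most a line of fixed vectors,
is zero as soon as its trace is. -/
theorem op_eq_zero {V : Type*} [AddCommGroup V] [Module ℂ V] [FiniteDimensional ℂ V]
    (ρ : Representation ℂ G V) (H : Subgroup G) (A : Module.End ℂ V)
    (hl : ∀ h ∈ H, ∀ v, ρ h (A v) = A v) (hr : ∀ h ∈ H, ∀ v, A (ρ h v) = A v)
    (hfin : Module.finrank ℂ (Representation.invariants (ρ.comp H.subtype)) = 0 ∨
      (Module.finrank ℂ (Representation.invariants (ρ.comp H.subtype)) = 1 ∧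
        LinearMap.trace ℂ V A = 0)) : A = 0 := by
  classical
  set p := Representation.invariants (ρ.comp H.subtype) with hp
  have hmem : ∀ x, A x ∈ p := fun x h => hl h h.2 x
  have hzero : ∀ x ∈ p, A x = 0 := by
    rcases hfin with h0 | ⟨h1, htr⟩
    · intro x _
      have hbot : p = ⊥ := Submodule.finrank_eq_zero.1 h0
      have := hmem x
      rw [hbot] at this
      exact (Submodule.mem_bot ℂ).1 this
    · have h2 := LinearMap.trace_restrict_eq_of_forall_mem p A hmem
      obtain ⟨c, hc, -⟩ := LinearMap.existsUnique_eq_smul_id_of_finrank_eq_one h1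
        (A.restrict (fun x _ => hmem x))
      rw [hc, map_smul, LinearMap.trace_id, h1, htr] at h2
      have hc0 : c = 0 := by simpa using h2
      intro x hx
      have h3 := congrArg (fun f => ((f ⟨x, hx⟩ : p) : V)) hc
      simp only [hc0, zero_smul, LinearMap.zero_apply, Submodule.coe_zero] at h3
      exact h3
  have hH : (Nat.card H : ℂ) ≠ 0 := by exact_mod_cast Nat.card_pos.ne'
  ext v
  have havg : (Nat.card H : ℂ)⁻¹ • ∑ h : H, ρ h v ∈ p := by
    intro k
    show ρ (k : G) _ = _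
    rw [map_smul, map_sum]
    congr 1
    refine Fintype.sum_equiv (Equiv.mulLeft k) _ _ ?_
    intro h
    show ρ (k : G) (ρ (h : G) v) = ρ ((k * h : H) : G) v
    rw [Subgroup.coe_mul, map_mul, Module.End.mul_apply]
  have h4 := hzero _ havg
  rw [map_smul, map_sum, Finset.sum_congr rfl (fun (h : H) _ => hr (h : G) h.2 v), Finset.sum_const,
    Finset.card_univ, ← Nat.card_eq_fintype_card, ← Nat.cast_smul_eq_nsmul ℂ, smul_smul,
    inv_mul_cancel₀ hH, one_smul] at h4
  rw [h4]; rfl

theorem finrank_invariants_eq [MulAction.IsPretransitive G Ω] {V : Type*} [AddCommGroup V]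
    [Module ℂ V] [FiniteDimensional ℂ V] (ρ : Representation ℂ G V) (a : Ω) :
    (Module.finrank ℂ (Representation.invariants
      (ρ.comp (MulAction.stabilizer G a).subtype)) : ℂ) =
    conj (classInner (fun g : G => (Nat.card (MulAction.fixedBy Ω g) : ℂ)) ρ.character) := by
  classical
  rw [classInner_perm a (isClassFunction_of_char (isCharacter_char ρ))]
  have : Invertible (Nat.card (MulAction.stabilizer G a) : ℂ) :=
    invertibleOfNonzero (card_stab_ne_zero a)
  rw [← Representation.card_inv_mul_sum_char_eq_finrank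
    (ρ.comp (MulAction.stabilizer G a).subtype), map_mul, map_sum, map_inv₀,
    Complex.conj_natCast]
  congr 1
  refine Finset.sum_congr rfl fun h _ => ?_
  rw [Complex.conj_conj]
  rfl

open Classical in
theorem swap_of_real_mult_free [MulAction.IsPretransitive G Ω]
    (hyp : ∀ χ : G → ℂ, IsIrrCharacter G χ →
      classInner (fun g : G => (Nat.card (MulAction.fixedBy Ω g) : ℂ)) χ ≠ 0 →
      classInner (fun g : G => (Nat.card (MulAction.fixedBy Ω g) : ℂ)) χ = 1 ∧
        ∀ g : G, (starRingEnd ℂ) (χ g) = χ g) (a b : Ω) :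
    ∃ g : G, g • a = b ∧ g • b = a := by
  set O := MulAction.orbit (MulAction.stabilizer G a) b with hO
  set F : G → ℂ := fun g => (if g • a ∈ O then 1 else 0) - (if g⁻¹ • a ∈ O then 1 else 0) with hF
  have hFl : ∀ h ∈ MulAction.stabilizer G a, ∀ g, F (h * g) = F g := by
    intro h hh g
    have h1 : (h * g) • a ∈ O ↔ g • a ∈ O := by
      rw [mul_smul]; exact smul_mem_orbit_iff' hh
    have h2 : (h * g)⁻¹ • a = g⁻¹ • a := by
      rw [mul_inv_rev, mul_smul]
      congr 1
      exact (MulAction.stabilizer G a).inv_mem hh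
    simp only [hF, h1, h2]
  have hFr : ∀ h ∈ MulAction.stabilizer G a, ∀ g, F (g * h) = F g := by
    intro h hh g
    have h1 : (g * h) • a = g • a := by
      rw [mul_smul]
      congr 1
    have h2 : (g * h)⁻¹ • a ∈ O ↔ g⁻¹ • a ∈ O := by
      rw [mul_inv_rev, mul_smul]
      exact smul_mem_orbit_iff' ((MulAction.stabilizer G a).inv_mem hh)
    simp only [hF, h1, h2]
  have hop : ∀ χ : IrrCharacter G, ∀ x : G, ∑ g, F g * (χ : G → ℂ) (x⁻¹ * g) = 0 := by
    intro χ x
    obtain ⟨n, ρ, hirr, hρ⟩ := χ.2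
    set A : Module.End ℂ (Fin n → ℂ) := ∑ g, F g • ρ g with hA
    have hAv : ∀ v, A v = ∑ g, F g • ρ g v := by
      intro v
      rw [hA, LinearMap.sum_apply]
      rfl
    have hA0 : A = 0 := by
      apply op_eq_zero ρ (MulAction.stabilizer G a) A
      · intro h hh v
        rw [hAv, map_sum]
        refine Fintype.sum_equiv (Equiv.mulLeft h) _ _ ?_
        intro g
        show ρ h (F g • ρ g v) = F (h * g) • ρ (h * g) v
        rw [hFl h hh, map_smul, map_mul, Module.End.mul_apply]
      · intro h hh v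
        rw [hAv, hAv]
        refine Fintype.sum_equiv (Equiv.mulRight h) _ _ ?_
        intro g
        show F g • ρ g (ρ h v) = F (g * h) • ρ (g * h) v
        rw [hFr h hh, map_mul, Module.End.mul_apply]
      · have h1 := finrank_invariants_eq (Ω := Ω) ρ a
        rw [hρ] at h1
        by_cases h0 : classInner (fun g : G => (Nat.card (MulAction.fixedBy Ω g) : ℂ))
            (χ : G → ℂ) = 0
        · left
          rw [h0, map_zero] at h1
          exact_mod_cast h1
        · right
          obtain ⟨h2, h3⟩ := hyp χ χ.2 h0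
          rw [h2, map_one] at h1
          refine ⟨by exact_mod_cast h1, ?_⟩
          rw [hA, map_sum]
          have h4 : ∀ g : G, LinearMap.trace ℂ (Fin n → ℂ) (F g • ρ g) =
              (if g • a ∈ O then (χ : G → ℂ) g else 0) -
                (if g⁻¹ • a ∈ O then (χ : G → ℂ) g else 0) := by
            intro g
            rw [map_smul, smul_eq_mul, ← hρ]
            show F g * ρ.character g = _
            simp only [hF]
            split_ifs <;> simp
          rw [Finset.sum_congr rfl (fun g _ => h4 g), Finset.sum_sub_distrib, sub_eq_zero]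
          refine Fintype.sum_equiv (Equiv.inv G) _ _ ?_
          intro g
          show (if g • a ∈ O then (χ : G → ℂ) g else 0) =
            if (g⁻¹)⁻¹ • a ∈ O then (χ : G → ℂ) g⁻¹ else 0
          have h5 : (χ : G → ℂ) g⁻¹ = (χ : G → ℂ) g := by
            rw [← h3 g, ← hρ]
            exact character_inv ρ g
          rw [inv_inv, h5]
    have h6 : ∑ g, F g * (χ : G → ℂ) (x⁻¹ * g) =
        LinearMap.trace ℂ (Fin n → ℂ) (ρ x⁻¹ * A) := by
      rw [hA, Finset.mul_sum, map_sum]
      refine Finset.sum_congr rfl fun g _ => ?_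
      rw [mul_smul_comm, map_smul, smul_eq_mul, ← map_mul, ← hρ]
      rfl
    rw [h6, hA0, mul_zero, map_zero]
  have hF0 : ∀ x : G, F x = 0 := by
    intro x
    have h1 : ∑ χ : IrrCharacter G, (χ : G → ℂ) 1 * ∑ g, F g * (χ : G → ℂ) (x⁻¹ * g) = 0 := by
      apply Finset.sum_eq_zero
      intro χ _
      rw [hop χ x, mul_zero]
    simp only [Finset.mul_sum] at h1
    rw [Finset.sum_comm] at h1
    have h2 : ∀ g : G, ∑ χ : IrrCharacter G, (χ : G → ℂ) 1 * (F g * (χ : G → ℂ) (x⁻¹ * g)) =
        if g = x then F x * (Nat.card G : ℂ) else 0 := by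
      intro g
      have h3 := sum_irr_one_mul (x⁻¹ * g)
      have h4 : ∑ χ : IrrCharacter G, (χ : G → ℂ) 1 * (F g * (χ : G → ℂ) (x⁻¹ * g)) =
          F g * ∑ χ : IrrCharacter G, (χ : G → ℂ) 1 * (χ : G → ℂ) (x⁻¹ * g) := by
        rw [Finset.mul_sum]
        refine Finset.sum_congr rfl fun χ _ => ?_
        ring
      rw [h4, h3]
      by_cases hg : g = x
      · subst hg
        simp
      · rw [if_neg hg, if_neg, mul_zero]
        intro h5
        exact hg (inv_mul_eq_one.1 h5).symm
    rw [Finset.sum_congr rfl (fun g _ => h2 g), Finset.sum_ite_eq' Finset.univ x,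
      if_pos (Finset.mem_univ _)] at h1
    exact (mul_eq_zero.1 h1).resolve_right card_ne_zero_complex
  obtain ⟨x, hx⟩ := MulAction.exists_smul_eq G a b
  have h1 := hF0 x
  have h2 : x • a ∈ O := by rw [hx]; exact MulAction.mem_orbit_self _
  simp only [hF, if_pos h2] at h1
  have h3 : x⁻¹ • a ∈ O := by
    by_contra hcon
    rw [if_neg hcon] at h1
    simp at h1
  obtain ⟨h, hh⟩ := h3
  have hh' : (h : G) • b = x⁻¹ • a := hh
  refine ⟨x * h, ?_, ?_⟩
  · rw [mul_smul]
    have : (h : G) • a = a := h.2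
    rw [this, hx]
  · rw [mul_smul, hh', smul_inv_smul]

end Cfsg.Agent.H25.Subdeg
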