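import Mathlib
import Cfsg.Prelude.Def_Characters
import Cfsg.Agent.H25.SelfPaired

set_option autoImplicit false

namespace Cfsg.Agent.H25.Subdeg

open Cfsg Cfsg.Agent.CharLib
open scoped ComplexConjugate

variable {G : Type*} [Group G] [Fintype G] {Ω : Type*} [Fintype Ω] [MulAction G Ω]
  [MulAction.IsPretransitive G Ω]

open Classical in
/-- For a representation in which the point stabilizer fixes at most a line, the Hecke trace is
multiplicative; here: `|t|² = |H|⁻² ∑_{g, g' ∈ D} χ(g g'⁻¹)`. -/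
theorem tr_mul_conj {V : Type*} [AddCommGroup V] [Module ℂ V] [FiniteDimensional ℂ V]
    (ρ : Representation ℂ G V) (a b : Ω)
    (he : classInner (fun g : G => (Nat.card (MulAction.fixedBy Ω g) : ℂ)) ρ.character = 0 ∨
      classInner (fun g : G => (Nat.card (MulAction.fixedBy Ω g) : ℂ)) ρ.character = 1) :
    tr a b ρ.character * conj (tr a b ρ.character) =
      ((Nat.card (MulAction.stabilizer G a) : ℂ)⁻¹) ^ 2 * ∑ g : G, ∑ g' : G,
        (if g • a ∈ MulAction.orbit (MulAction.stabilizer G a) b then (1 : ℂ) else 0) *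
        (if g' • a ∈ MulAction.orbit (MulAction.stabilizer G a) b then (1 : ℂ) else 0) *
          ρ.character (g * g'⁻¹) := by
  set H := MulAction.stabilizer G a with hH
  set c : ℂ := (Nat.card H : ℂ)⁻¹ with hc
  have hc0 : (Nat.card H : ℂ) ≠ 0 := card_stab_ne_zero a
  set d : G → ℂ := fun g => if g • a ∈ MulAction.orbit H b then (1 : ℂ) else 0 with hd
  have hdl : ∀ h ∈ H, ∀ g, d (h * g) = d g := by
    intro h hh g
    have h1 : (h * g) • a ∈ MulAction.orbit H b ↔ g • a ∈ MulAction.orbit H b := by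
      rw [mul_smul]; exact smul_mem_orbit_iff' hh
    simp only [hd, h1]
  have hdr : ∀ h ∈ H, ∀ g, d (g * h) = d g := by
    intro h hh g
    have h1 : (g * h) • a = g • a := by
      rw [mul_smul]
      congr 1
    simp only [hd, h1]
  set t : ℂ := tr a b ρ.character with ht
  set T : Module.End ℂ V := c • ∑ g : G, d g • ρ g with hT
  set T' : Module.End ℂ V := c • ∑ g : G, d g • ρ g⁻¹ with hT'
  set P : Module.End ℂ V := c • ∑ h : H, ρ (h : G) with hP
  have htrT : LinearMap.trace ℂ V T = t := by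
    rw [hT, map_smul, map_sum, ht, tr, smul_eq_mul]
    congr 1
    refine Finset.sum_congr rfl fun g _ => ?_
    rw [map_smul, smul_eq_mul]
    simp only [hd]
    split_ifs
    · rw [one_mul]; rfl
    · rw [zero_mul]
  have htrT' : LinearMap.trace ℂ V T' = conj t := by
    rw [hT', map_smul, map_sum, ht, tr, smul_eq_mul, map_mul, map_sum, map_inv₀,
      Complex.conj_natCast]
    congr 1
    refine Finset.sum_congr rfl fun g _ => ?_
    rw [map_smul, smul_eq_mul]
    have h1 : LinearMap.trace ℂ V (ρ g⁻¹) = conj (ρ.character g) := character_inv ρ g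
    rw [h1]
    simp only [hd]
    split_ifs
    · rw [one_mul]
    · rw [zero_mul, map_zero]
  have htrP : LinearMap.trace ℂ V P =
      (Module.finrank ℂ (Representation.invariants (ρ.comp H.subtype)) : ℂ) := by
    have : Invertible (Nat.card H : ℂ) := invertibleOfNonzero hc0
    rw [← Representation.card_inv_mul_sum_char_eq_finrank (ρ.comp H.subtype), hP, map_smul,
      map_sum, smul_eq_mul]
    rfl
  have hfr := finrank_invariants_eq (Ω := Ω) ρ a
  -- invariance
  have hTl : ∀ h ∈ H, ρ h * T = T := by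
    intro h hh
    rw [hT, mul_smul_comm, Finset.mul_sum]
    congr 1
    refine Fintype.sum_equiv (Equiv.mulLeft h) _ _ ?_
    intro g
    show ρ h * (d g • ρ g) = d (h * g) • ρ (h * g)
    rw [hdl h hh, mul_smul_comm, map_mul]
  have hTr : ∀ h ∈ H, T * ρ h = T := by
    intro h hh
    rw [hT, smul_mul_assoc, Finset.sum_mul]
    congr 1
    refine Fintype.sum_equiv (Equiv.mulRight h) _ _ ?_
    intro g
    show (d g • ρ g) * ρ h = d (g * h) • ρ (g * h)
    rw [hdr h hh, smul_mul_assoc, map_mul]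
  have hT'l : ∀ h ∈ H, ρ h * T' = T' := by
    intro h hh
    rw [hT', mul_smul_comm, Finset.mul_sum]
    congr 1
    refine Fintype.sum_equiv (Equiv.mulRight h⁻¹) _ _ ?_
    intro g
    show ρ h * (d g • ρ g⁻¹) = d (g * h⁻¹) • ρ (g * h⁻¹)⁻¹
    rw [hdr h⁻¹ (H.inv_mem hh), mul_smul_comm, ← map_mul, mul_inv_rev, inv_inv]
  have hPl : ∀ h ∈ H, ρ h * P = P := by
    intro h hh
    rw [hP, mul_smul_comm, Finset.mul_sum]
    congr 1
    refine Fintype.sum_equiv (Equiv.mulLeft (⟨h, hh⟩ : H)) _ _ ?_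
    intro k
    show ρ h * ρ (k : G) = ρ (((⟨h, hh⟩ : H) * k : H) : G)
    rw [Subgroup.coe_mul, map_mul]
  have hPr : ∀ h ∈ H, P * ρ h = P := by
    intro h hh
    rw [hP, smul_mul_assoc, Finset.sum_mul]
    congr 1
    refine Fintype.sum_equiv (Equiv.mulRight (⟨h, hh⟩ : H)) _ _ ?_
    intro k
    show ρ (k : G) * ρ h = ρ ((k * (⟨h, hh⟩ : H) : H) : G)
    rw [Subgroup.coe_mul, map_mul]
  have hA : T - t • P = 0 := by
    apply op_eq_zero ρ H
    · intro h hh v
      rw [← Module.End.mul_apply, mul_sub, hTl h hh, mul_smul_comm, hPl h hh]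
    · intro h hh v
      rw [← Module.End.mul_apply, sub_mul, hTr h hh, smul_mul_assoc, hPr h hh]
    · rcases he with h0 | h1
      · left
        rw [h0, map_zero] at hfr
        exact_mod_cast hfr
      · right
        rw [h1, map_one] at hfr
        refine ⟨by exact_mod_cast hfr, ?_⟩
        rw [map_sub, htrT, map_smul, htrP, hfr]
        simp
  have hPT' : P * T' = T' := by
    rw [hP, smul_mul_assoc, Finset.sum_mul,
      Finset.sum_congr rfl (fun (h : H) _ => hT'l (h : G) h.2), Finset.sum_const,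
      Finset.card_univ, ← Nat.card_eq_fintype_card, ← Nat.cast_smul_eq_nsmul ℂ, smul_smul, hc,
      inv_mul_cancel₀ hc0, one_smul]
  have hTT' : T * T' = t • T' := by
    rw [sub_eq_zero.1 hA, smul_mul_assoc, hPT']
  have h1 : LinearMap.trace ℂ V (T * T') = t * conj t := by
    rw [hTT', map_smul, htrT', smul_eq_mul]
  rw [← h1, hT, hT', smul_mul_smul_comm, map_smul, smul_eq_mul, ← sq, Finset.sum_mul_sum, map_sum]
  congr 1
  refine Finset.sum_congr rfl fun g _ => ?_
  rw [map_sum]
  refine Finset.sum_congr rfl fun g' _ => ?_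
  rw [smul_mul_smul_comm, map_smul, smul_eq_mul, ← map_mul]
  rfl

theorem card_eq_stab_mul (a : Ω) :
    (Nat.card G : ℂ) = (Nat.card (MulAction.stabilizer G a) : ℂ) * (Nat.card Ω : ℂ) := by
  have h := sum_smul_eq (G := G) a (fun _ : Ω => (1 : ℂ))
  simp only [Finset.sum_const, Finset.card_univ, nsmul_eq_mul, mul_one] at h
  rw [Nat.card_eq_fintype_card, Nat.card_eq_fintype_card (α := Ω)]
  exact h

/-- `∑ χ(1) |t_χ|² = n k` for a multiplicity-free permutation character. -/
theorem sum_irr_tr_sq (a b : Ω)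
    (hmf : ∀ χ : G → ℂ, IsIrrCharacter G χ →
      classInner (fun g : G => (Nat.card (MulAction.fixedBy Ω g) : ℂ)) χ = 0 ∨
      classInner (fun g : G => (Nat.card (MulAction.fixedBy Ω g) : ℂ)) χ = 1) :
    ∑ χ : IrrCharacter G, (χ : G → ℂ) 1 * (tr a b (χ : G → ℂ) * conj (tr a b (χ : G → ℂ))) =
      (Nat.card Ω : ℂ) * (Nat.card (MulAction.orbit (MulAction.stabilizer G a) b) : ℂ) := by
  classical
  have hc0 : (Nat.card (MulAction.stabilizer G a) : ℂ) ≠ 0 := card_stab_ne_zero a
  set d : G → ℂ := fun g =>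
    if g • a ∈ MulAction.orbit (MulAction.stabilizer G a) b then (1 : ℂ) else 0 with hd
  have h1 : ∀ χ : IrrCharacter G, tr a b (χ : G → ℂ) * conj (tr a b (χ : G → ℂ)) =
      ((Nat.card (MulAction.stabilizer G a) : ℂ)⁻¹) ^ 2 * ∑ g : G, ∑ g' : G,
        d g * d g' * (χ : G → ℂ) (g * g'⁻¹) := by
    intro χ
    obtain ⟨n, ρ, hirr, hρ⟩ := χ.2
    have h2 := tr_mul_conj ρ a b (by rw [hρ]; exact hmf χ χ.2)
    rw [hρ] at h2
    exact h2
  simp only [h1]
  have h3 : ∀ χ : IrrCharacter G, (χ : G → ℂ) 1 *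
      (((Nat.card (MulAction.stabilizer G a) : ℂ)⁻¹) ^ 2 * ∑ g : G, ∑ g' : G,
        d g * d g' * (χ : G → ℂ) (g * g'⁻¹)) =
      ((Nat.card (MulAction.stabilizer G a) : ℂ)⁻¹) ^ 2 * ∑ g : G, ∑ g' : G,
        d g * d g' * ((χ : G → ℂ) 1 * (χ : G → ℂ) (g * g'⁻¹)) := by
    intro χ
    rw [mul_left_comm, Finset.mul_sum]
    congr 1
    refine Finset.sum_congr rfl fun g _ => ?_
    rw [Finset.mul_sum]
    refine Finset.sum_congr rfl fun g' _ => ?_
    ring
  simp only [h3]
  rw [← Finset.mul_sum, Finset.sum_comm]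
  have h4 : ∀ g : G, ∑ χ : IrrCharacter G, ∑ g' : G,
        d g * d g' * ((χ : G → ℂ) 1 * (χ : G → ℂ) (g * g'⁻¹)) = d g * (Nat.card G : ℂ) := by
    intro g
    rw [Finset.sum_comm]
    simp only [← Finset.mul_sum, sum_irr_one_mul]
    rw [Finset.sum_eq_single g]
    · rw [mul_inv_cancel, if_pos rfl]
      simp only [hd]
      split_ifs <;> simp
    · intro g' _ hne
      rw [if_neg, mul_zero]
      intro h5
      exact hne (mul_inv_eq_one.1 h5).symm
    · intro h; exact absurd (Finset.mem_univ _) h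
  simp only [h4]
  rw [← Finset.sum_mul]
  have h5 := tr_one (G := G) a b
  rw [tr] at h5
  have h6 : ∑ g : G, d g = (Nat.card (MulAction.stabilizer G a) : ℂ) *
      (Nat.card (MulAction.orbit (MulAction.stabilizer G a) b) : ℂ) := by
    rw [← h5, ← mul_assoc, mul_inv_cancel₀ hc0, one_mul]
  rw [h6, card_eq_stab_mul (G := G) a]
  field_simp

end Cfsg.Agent.H25.Subdeg
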