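import Mathlib
import Cfsg.Prelude.Def_Characters
import Cfsg.Agent.H25.Subdeg3

set_option autoImplicit false

namespace Cfsg.Agent.H25.Subdeg

open Cfsg Cfsg.Agent.CharLib MulAction
open scoped ComplexConjugate

theorem stab_fixes_all {G : Type*} [Group G] {Ω : Type*} [MulAction G Ω] (hprim : MulAction.IsPreprimitive G Ω) (a b : Ω) (hab : b ≠ a)
    (hfix : ∀ h ∈ MulAction.stabilizer G a, h • b = b) :
    ∀ ω : Ω, ∀ h ∈ MulAction.stabilizer G a, h • ω = ω := by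
  have : Nontrivial Ω := ⟨b, a, hab⟩
  have hco : IsCoatom (stabilizer G a) := IsPreprimitive.isCoatom_stabilizer_of_isPreprimitive G a
  have hle : stabilizer G a ≤ stabilizer G b := fun h hh => hfix h hh
  have hne : stabilizer G b ≠ ⊤ := by
    intro htop
    obtain ⟨x, hx⟩ := MulAction.exists_smul_eq G b a
    have : x ∈ stabilizer G b := by rw [htop]; trivial
    rw [mem_stabilizer_iff, hx] at this
    exact hab this.symm
  have heq : stabilizer G b = stabilizer G a := (hco.le_iff.1 hle).resolve_left hne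
  obtain ⟨x, hx⟩ := MulAction.exists_smul_eq G a b
  have hconj := stabilizer_smul_eq_stabilizer_map_conj x a
  rw [hx, heq] at hconj
  have hxN : x ∈ Subgroup.normalizer (stabilizer G a : Set G) := by
    rw [Subgroup.mem_normalizer_iff]
    intro h
    constructor
    · intro hh
      rw [hconj]
      exact ⟨h, hh, rfl⟩
    · intro hh
      rw [hconj] at hh
      obtain ⟨h', hh', he⟩ := hh
      have : h' = h := by
        simpa using he
      rw [← this]; exact hh'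
  have hxH : x ∉ stabilizer G a := by
    intro h
    rw [mem_stabilizer_iff, hx] at h
    exact hab h
  have hN : Subgroup.normalizer (stabilizer G a : Set G) = ⊤ := by
    rcases hco.le_iff.1 (Subgroup.le_normalizer) with h | h
    · exact h
    · rw [h] at hxN; exact absurd hxN hxH
  intro ω h hh
  obtain ⟨g, rfl⟩ := MulAction.exists_smul_eq G a ω
  have hg : g⁻¹ ∈ Subgroup.normalizer (stabilizer G a : Set G) := by rw [hN]; trivial
  have h2 := (Subgroup.mem_normalizer_iff.1 hg h).1 hh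
  rw [inv_inv, mem_stabilizer_iff, mul_smul, mul_smul, inv_smul_eq_iff] at h2
  exact h2

theorem arith_rank3 (m k : ℕ) (u : ℤ) (hk2 : 2 ≤ k) (hk : k + 3 ≤ 2 * m)
    (h : (k : ℤ) ^ 2 + ((m : ℤ) - 1) * ((k : ℤ) - m * u) ^ 2 + (m : ℤ) * (((m : ℤ) - 1) * u - k) ^ 2
      = 2 * m * k) :
    ((2 : ℤ) * k - (2 * m - 1)) ^ 2 = 2 * m - 1 := by
  have hm3 : (3 : ℤ) ≤ m := by omega
  have hk2' : (2 : ℤ) ≤ k := by exact_mod_cast hk2
  have hk' : (k : ℤ) + 3 ≤ 2 * m := by exact_mod_cast hk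
  have hb : (m : ℤ) * (2 * (k : ℤ) ^ 2 - 2 * k * (2 * ((m : ℤ) - 1) * u + 1) +
      ((m : ℤ) - 1) * (2 * m - 1) * u ^ 2) = 0 := by
    linear_combination h
  have hB : 2 * (k : ℤ) ^ 2 - 2 * k * (2 * ((m : ℤ) - 1) * u + 1) +
      ((m : ℤ) - 1) * (2 * m - 1) * u ^ 2 = 0 := by
    rcases mul_eq_zero.1 hb with h0 | h0
    · omega
    · exact h0
  have hE : (2 * (k : ℤ) - (2 * ((m : ℤ) - 1) * u + 1)) ^ 2 =
      1 + 2 * ((m : ℤ) - 1) * (u * (2 - u)) := by
    linear_combination 2 * hB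
  have hu : u = 1 := by
    by_contra hne
    have hcases : u ≤ -1 ∨ u = 0 ∨ u = 2 ∨ 3 ≤ u := by omega
    rcases hcases with h1 | h1 | h1 | h1
    · have h2 : u * (2 - u) ≤ -3 := by nlinarith
      have h3 : ((m : ℤ) - 1) * (u * (2 - u)) ≤ -6 := by nlinarith
      nlinarith [sq_nonneg (2 * (k : ℤ) - (2 * ((m : ℤ) - 1) * u + 1))]
    · subst h1
      nlinarith
    · subst h1
      nlinarith
    · have h2 : u * (2 - u) ≤ -3 := by nlinarith
      have h3 : ((m : ℤ) - 1) * (u * (2 - u)) ≤ -6 := by nlinarith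
      nlinarith [sq_nonneg (2 * (k : ℤ) - (2 * ((m : ℤ) - 1) * u + 1))]
  subst hu
  linear_combination hE

variable {G : Type*} [Group G] [Fintype G] {Ω : Type*} [Fintype Ω] [MulAction G Ω]

theorem tr_add (a b : Ω) (φ ψ : G → ℂ) :
    tr a b (fun g => φ g + ψ g) = tr a b φ + tr a b ψ := by
  classical
  rw [tr, tr, tr, ← mul_add, ← Finset.sum_add_distrib]
  congr 1
  refine Finset.sum_congr rfl fun g _ => ?_
  split_ifs <;> simp

theorem tr_natCast_rat (a b : Ω) (f : G → ℕ) : ∃ q : ℚ, tr a b (fun g => (f g : ℂ)) = q := by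
  classical
  refine ⟨(Nat.card (stabilizer G a) : ℚ)⁻¹ *
    ∑ g : G, if g • a ∈ orbit (stabilizer G a) b then (f g : ℚ) else 0, ?_⟩
  rw [tr]
  push_cast
  congr 1
  refine Finset.sum_congr rfl fun g _ => ?_
  split_ifs <;> simp

/-- The two eigenvalue equations of a rank 3 group with `π = 1 + χ₁ + χ₂`. -/
theorem rank3_equations [IsPretransitive G Ω] (a₀ : Ω)
    (hrank : Nat.card (orbitRel.Quotient (stabilizer G a₀) Ω) = 3) (χ₁ χ₂ : G → ℂ)
    (h₁ : IsIrrCharacter G χ₁) (h₂ : IsIrrCharacter G χ₂)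
    (hπ : (fun g : G => (Nat.card (fixedBy Ω g) : ℂ)) = fun g => 1 + χ₁ g + χ₂ g) (b : Ω)
    (hb : b ≠ a₀) :
    (Nat.card (orbit (stabilizer G a₀) b) : ℂ) + χ₁ 1 * tr a₀ b χ₁ + χ₂ 1 * tr a₀ b χ₂ = 0 ∧
    (Nat.card (orbit (stabilizer G a₀) b) : ℂ) ^ 2 + χ₁ 1 * (tr a₀ b χ₁ * conj (tr a₀ b χ₁)) +
      χ₂ 1 * (tr a₀ b χ₂ * conj (tr a₀ b χ₂)) =
      (Nat.card Ω : ℂ) * (Nat.card (orbit (stabilizer G a₀) b) : ℂ) := by
  classical
  have hmf := mult_free_of_rank_le_five (G := G) a₀ (by rw [hrank]; norm_num)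
  set t : IrrCharacter G := ⟨fun _ => 1, isIrrCharacter_one⟩ with ht
  set X₁ : IrrCharacter G := ⟨χ₁, h₁⟩ with hX₁
  set X₂ : IrrCharacter G := ⟨χ₂, h₂⟩ with hX₂
  have he : ∀ χ : IrrCharacter G,
      classInner (fun g : G => (Nat.card (fixedBy Ω g) : ℂ)) (χ : G → ℂ) =
      (if χ = t then 1 else 0) + (if χ = X₁ then 1 else 0) + (if χ = X₂ then 1 else 0) := by
    intro χ
    rw [hπ]
    have h3 : (fun g => 1 + χ₁ g + χ₂ g) = (fun _ : G => (1 : ℂ)) + χ₁ + χ₂ := rfl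
    rw [h3, classInner_add_left, classInner_add_left, classInner_irr isIrrCharacter_one χ.2,
      classInner_irr h₁ χ.2, classInner_irr h₂ χ.2]
    have e1 : ((fun _ : G => (1 : ℂ)) = (χ : G → ℂ)) ↔ χ = t :=
      ⟨fun h => Subtype.ext h.symm, fun h => by rw [h]⟩
    have e2 : (χ₁ = (χ : G → ℂ)) ↔ χ = X₁ :=
      ⟨fun h => Subtype.ext h.symm, fun h => by rw [h]⟩
    have e3 : (χ₂ = (χ : G → ℂ)) ↔ χ = X₂ :=
      ⟨fun h => Subtype.ext h.symm, fun h => by rw [h]⟩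
    simp only [e1, e2, e3]
  have sumF : ∀ F : IrrCharacter G → ℂ,
      (∀ χ : IrrCharacter G,
        classInner (fun g : G => (Nat.card (fixedBy Ω g) : ℂ)) (χ : G → ℂ) = 0 → F χ = 0) →
      ∑ χ, F χ = F t + F X₁ + F X₂ := by
    intro F hF
    have h3 : ∀ χ : IrrCharacter G, F χ =
        (if χ = t then F χ else 0) + (if χ = X₁ then F χ else 0) +
          (if χ = X₂ then F χ else 0) := by
      intro χ
      have h4 : F χ = classInner (fun g : G => (Nat.card (fixedBy Ω g) : ℂ)) (χ : G → ℂ) * F χ := by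
        rcases hmf χ χ.2 with h0 | h0
        · rw [h0, hF χ h0, mul_zero]
        · rw [h0, one_mul]
      conv_lhs => rw [h4, he]
      split_ifs <;> ring
    rw [Finset.sum_congr rfl (fun χ _ => h3 χ), Finset.sum_add_distrib, Finset.sum_add_distrib,
      Finset.sum_ite_eq' Finset.univ t, Finset.sum_ite_eq' Finset.univ X₁,
      Finset.sum_ite_eq' Finset.univ X₂]
    simp
  have htr0 : ∀ χ : IrrCharacter G,
      classInner (fun g : G => (Nat.card (fixedBy Ω g) : ℂ)) (χ : G → ℂ) = 0 →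
      tr a₀ b (χ : G → ℂ) = 0 := by
    intro χ h0
    obtain ⟨n, ρ, hirr, hρ⟩ := χ.2
    rw [← hρ] at h0 ⊢
    exact tr_eq_zero ρ a₀ b h0
  constructor
  · have h3 := sum_irr_tr (G := G) a₀ b hb
    rw [sumF _ (fun χ h0 => by rw [htr0 χ h0, mul_zero])] at h3
    simp only [ht, hX₁, hX₂, one_mul] at h3
    rw [tr_one] at h3
    exact h3
  · have h3 := sum_irr_tr_sq (G := G) a₀ b hmf
    rw [sumF _ (fun χ h0 => by rw [htr0 χ h0, zero_mul, mul_zero])] at h3
    simp only [ht, hX₁, hX₂, one_mul] at h3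
    rw [tr_one, Complex.conj_natCast, ← sq] at h3
    exact h3

theorem isIntegral_tr_irr [IsPretransitive G Ω] (a b : Ω) {χ : G → ℂ} (hχ : IsIrrCharacter G χ) :
    IsIntegral ℤ (tr a b χ) := by
  obtain ⟨n, ρ, hirr, hρ⟩ := hχ
  rw [← hρ]
  exact (isIntegral_tr ρ a b).1

/-- The quadratic relation for one subdegree. -/
theorem rank3_quadratic [IsPretransitive G Ω] {m : ℕ} (hm : Fintype.card Ω = 2 * m) (a₀ : Ω)
    (hrank : Nat.card (orbitRel.Quotient (stabilizer G a₀) Ω) = 3) (χ₁ χ₂ : G → ℂ)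
    (h₁ : IsIrrCharacter G χ₁) (h₂ : IsIrrCharacter G χ₂)
    (hπ : (fun g : G => (Nat.card (fixedBy Ω g) : ℂ)) = fun g => 1 + χ₁ g + χ₂ g)
    (hd₁ : χ₁ 1 = (m : ℂ) - 1) (hd₂ : χ₂ 1 = m) (b : Ω) (hb : b ≠ a₀) :
    ∃ u : ℤ, ((Nat.card (orbit (stabilizer G a₀) b) : ℕ) : ℤ) ^ 2 +
      ((m : ℤ) - 1) * (((Nat.card (orbit (stabilizer G a₀) b) : ℕ) : ℤ) - m * u) ^ 2 +
      (m : ℤ) * (((m : ℤ) - 1) * u - ((Nat.card (orbit (stabilizer G a₀) b) : ℕ) : ℤ)) ^ 2
      = 2 * m * ((Nat.card (orbit (stabilizer G a₀) b) : ℕ) : ℤ) := by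
  obtain ⟨E1, E2⟩ := rank3_equations a₀ hrank χ₁ χ₂ h₁ h₂ hπ b hb
  set k : ℕ := Nat.card (orbit (stabilizer G a₀) b) with hk
  set r : ℂ := tr a₀ b χ₁ with hr
  set s : ℂ := tr a₀ b χ₂ with hs
  have hrint : IsIntegral ℤ r := isIntegral_tr_irr a₀ b h₁
  have hsint : IsIntegral ℤ s := isIntegral_tr_irr a₀ b h₂
  -- `r + s` is rational
  obtain ⟨q, hq⟩ := tr_natCast_rat (G := G) a₀ b (fun g => Nat.card (fixedBy Ω g))
  have hq2 : tr a₀ b (fun g : G => (Nat.card (fixedBy Ω g) : ℂ)) = (k : ℂ) + r + s := by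
    rw [hπ, tr_add a₀ b (fun g => 1 + χ₁ g) χ₂, tr_add a₀ b (fun _ => 1) χ₁, tr_one]
  have hq3 : r + s = ((q - k : ℚ) : ℂ) := by
    push_cast
    rw [← hq, hq2]; ring
  obtain ⟨z, hz⟩ := L.exists_int_of_isIntegral_of_rat (hrint.add hsint) hq3
  rw [hd₁, hd₂] at E1 E2
  have hs' : s = ((-(k : ℤ) - ((m : ℤ) - 1) * z : ℤ) : ℂ) := by
    push_cast
    rw [← hz]
    linear_combination E1
  have hr' : r = (((k : ℤ) + m * z : ℤ) : ℂ) := by
    have : r = z - s := by rw [← hz]; ring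
    rw [this, hs']
    push_cast
    ring
  refine ⟨-z, ?_⟩
  rw [hr', hs', map_intCast, map_intCast, Nat.card_eq_fintype_card, hm] at E2
  have E3 : ((k : ℤ) ^ 2 + ((m : ℤ) - 1) * (((k : ℤ) + m * z) * ((k : ℤ) + m * z)) +
      (m : ℤ) * ((-(k : ℤ) - ((m : ℤ) - 1) * z) * (-(k : ℤ) - ((m : ℤ) - 1) * z))) =
      ((2 * m : ℕ) : ℤ) * k := by
    exact_mod_cast E2
  push_cast at E3
  linear_combination E3

theorem rank3_main (hprim : IsPreprimitive G Ω) {m : ℕ} (hm : Fintype.card Ω = 2 * m) (a₀ : Ω)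
    (hrank : Nat.card (orbitRel.Quotient (stabilizer G a₀) Ω) = 3) (χ₁ χ₂ : G → ℂ)
    (h₁ : IsIrrCharacter G χ₁) (h₂ : IsIrrCharacter G χ₂)
    (hπ : (fun g : G => (Nat.card (fixedBy Ω g) : ℂ)) = fun g => 1 + χ₁ g + χ₂ g)
    (hd₁ : χ₁ 1 = (m : ℂ) - 1) (hd₂ : χ₂ 1 = m) :
    ∃ a : ℕ, 0 < a ∧ m = 2 * a ^ 2 + 2 * a + 1 ∧ ∀ b : Ω, b ≠ a₀ →
      Nat.card (orbit (stabilizer G a₀) b) = a * (2 * a + 1) ∨
      Nat.card (orbit (stabilizer G a₀) b) = (a + 1) * (2 * a + 1) := by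
  classical
  have := hprim.toIsPretransitive
  obtain ⟨Qs, hQ1, hQ2, hQ3, hQ4⟩ := card_eq_sum_orbits (G := G) a₀
  have hQcard : Qs.card = 2 := by omega
  rw [Nat.card_eq_fintype_card, hm] at hQ2
  have hpos : ∀ b : Ω, 0 < Nat.card (orbit (stabilizer G a₀) b) := by
    intro b
    have : Nonempty (orbit (stabilizer G a₀) b) := ⟨⟨_, mem_orbit_self _⟩⟩
    exact Nat.card_pos
  have hne1 : ∀ b : Ω, b ≠ a₀ → Nat.card (orbit (stabilizer G a₀) b) ≠ 1 := by
    intro b hb h1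
    have hfix : ∀ h ∈ stabilizer G a₀, h • b = b := by
      intro h hh
      have hsub : Subsingleton (orbit (stabilizer G a₀) b) := (Nat.card_eq_one_iff_unique.1 h1).1
      have h3 := Subsingleton.elim
        (⟨h • b, ⟨(⟨h, hh⟩ : stabilizer G a₀), rfl⟩⟩ : orbit (stabilizer G a₀) b)
        ⟨b, mem_orbit_self b⟩
      exact congrArg Subtype.val h3
    have hall := stab_fixes_all hprim a₀ b hb hfix
    have h4 : ∀ q ∈ Qs, Nat.card (orbit (stabilizer G a₀) q.out) = 1 := by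
      intro q _
      have h5 : orbit (stabilizer G a₀) q.out = {q.out} := by
        ext x
        constructor
        · rintro ⟨h, rfl⟩
          exact hall _ h h.2
        · rintro rfl
          exact mem_orbit_self _
      rw [h5]; simp
    rw [Finset.sum_congr rfl h4] at hQ2
    simp only [Finset.sum_const, smul_eq_mul, mul_one] at hQ2
    omega
  have hge2 : ∀ b : Ω, b ≠ a₀ → 2 ≤ Nat.card (orbit (stabilizer G a₀) b) := by
    intro b hb
    have := hpos b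
    have := hne1 b hb
    omega
  have hbound : ∀ b : Ω, b ≠ a₀ → Nat.card (orbit (stabilizer G a₀) b) + 3 ≤ 2 * m := by
    intro b hb
    obtain ⟨q, hq, hqb⟩ := hQ4 b hb
    obtain ⟨q', hq', hne⟩ := Finset.exists_mem_ne (by omega : 1 < Qs.card) q
    rw [← Finset.add_sum_erase _ _ hq, hqb] at hQ2
    have h3 : Nat.card (orbit (stabilizer G a₀) q'.out) ≤
        ∑ x ∈ Qs.erase q, Nat.card (orbit (stabilizer G a₀) x.out) :=
      Finset.single_le_sum (f := fun x : orbitRel.Quotient (stabilizer G a₀) Ω =>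
        Nat.card (orbit (stabilizer G a₀) x.out)) (fun _ _ => Nat.zero_le _)
        (Finset.mem_erase.2 ⟨hne, hq'⟩)
    have h4 := hge2 _ (hQ3 q' hq')
    omega
  have hsq : ∀ b : Ω, b ≠ a₀ →
      ((2 : ℤ) * (Nat.card (orbit (stabilizer G a₀) b) : ℕ) - (2 * m - 1)) ^ 2 = 2 * m - 1 := by
    intro b hb
    obtain ⟨u, hu⟩ := rank3_quadratic hm a₀ hrank χ₁ χ₂ h₁ h₂ hπ hd₁ hd₂ b hb
    exact arith_rank3 m _ u (hge2 b hb) (hbound b hb) hu
  obtain ⟨q₀, hq₀⟩ : Qs.Nonempty := Finset.card_pos.1 (by omega)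
  have hb₀ := hQ3 q₀ hq₀
  have hz := hsq _ hb₀
  obtain ⟨z, hzdef⟩ : ∃ z : ℤ, z =
      (2 : ℤ) * (Nat.card (orbit (stabilizer G a₀) q₀.out) : ℕ) - (2 * m - 1) := ⟨_, rfl⟩
  rw [← hzdef] at hz
  have hw : ((z.natAbs : ℕ) : ℤ) ^ 2 = 2 * m - 1 := by
    rw [Int.natCast_natAbs, sq_abs, hz]
  obtain ⟨c, hc | hc⟩ := Nat.even_or_odd' z.natAbs
  · exfalso
    rw [hc] at hw
    push_cast at hw
    have : (4 : ℤ) * (c * c) = 2 * m - 1 := by linear_combination hw
    omega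
  · rw [hc] at hw
    push_cast at hw
    have h2m : (2 : ℤ) * m = 2 * (2 * (c : ℤ) ^ 2 + 2 * c + 1) := by
      linear_combination (-1 : ℤ) * hw
    have hm' : (m : ℤ) = 2 * (c : ℤ) ^ 2 + 2 * c + 1 := by linarith
    refine ⟨c, ?_, by exact_mod_cast hm', ?_⟩
    · rcases Nat.eq_zero_or_pos c with h0 | h0
      · exfalso
        rw [h0] at hm'
        have h5 := hbound _ hb₀
        have : m = 1 := by
          have : (m : ℤ) = 1 := by simpa using hm'
          exact_mod_cast this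
        omega
      · exact h0
    · intro b hb
      have h5 := hsq b hb
      rw [← hw] at h5
      rcases eq_or_eq_neg_of_sq_eq_sq _ _ h5 with h6 | h6
      · right
        have h7 : ((Nat.card (orbit (stabilizer G a₀) b) : ℕ) : ℤ) = ((c : ℤ) + 1) * (2 * c + 1) := by
          have : (2 : ℤ) * (Nat.card (orbit (stabilizer G a₀) b) : ℕ) =
              2 * (((c : ℤ) + 1) * (2 * c + 1)) := by
            linear_combination h6
          linarith
        exact_mod_cast h7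
      · left
        have h7 : ((Nat.card (orbit (stabilizer G a₀) b) : ℕ) : ℤ) = (c : ℤ) * (2 * c + 1) := by
          have : (2 : ℤ) * (Nat.card (orbit (stabilizer G a₀) b) : ℕ) =
              2 * ((c : ℤ) * (2 * c + 1)) := by
            linear_combination h6
          linarith
        exact_mod_cast h7

end Cfsg.Agent.H25.Subdeg
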