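import Cfsg.Agent.H25.QuotDefect2
import Cfsg.Agent.H25.IndBlock
import Cfsg.Agent.H25.IndExists
import Cfsg.Agent.Lib.Helper23.MinMax2

/-!
# The number of blocks of a group with a normal Sylow `p`-subgroup
-/

set_option autoImplicit false

namespace Cfsg.Agent.H25.SylowBlocks

open Cfsg Cfsg.Agent.CharLib Cfsg.Agent.BlockLib Cfsg.Agent.Lib.Helper23
  Cfsg.Agent.Lib.Helper23.MinMax Cfsg.Agent.H25.QuotDefect
open scoped ComplexConjugate

universe u

variable {X : Type u} [Group X] [Fintype X] {p : ℕ} [Fact p.Prime] {M : Ideal AlgInt}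

open Classical in
/-- the coefficients of a block idempotent on a coset `x N`, `x` a `p`-regular element centralizing
the `p`-subgroup `N` -/
theorem sum_blockCoeff_coset (hM : IsPModular p M) {B : Set (IrrCharacter X)} (hB : IsPBlock M B)
    {N : Subgroup X} (hN : IsPGroup p N) {x : X} (hxreg : ¬ p ∣ orderOf x)
    (hxC : x ∈ Subgroup.centralizer (N : Set X)) :
    ∑ n : X, (if n ∈ N then blockCoeff B (x * n) else 0) = blockCoeff B x := by
  have hp := hM.1
  rw [Finset.sum_eq_single (1 : X)]
  · rw [if_pos N.one_mem, mul_one]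
  · intro n _ hn1
    split_ifs with hn
    · apply blockCoeff_eq_zero_of_singular hM hB
      by_contra hreg
      apply hn1
      have hc : Commute n x := Subgroup.mem_centralizer_iff.1 hxC n hn
      have h1 : IsPPart p (x * n) n := by
        refine ⟨x, hc.eq, hc, ?_, hxreg⟩
        obtain ⟨k, hk⟩ := (IsPGroup.iff_orderOf.mp hN) ⟨n, hn⟩
        rw [Subgroup.orderOf_mk] at hk
        exact ⟨k, hk⟩
      have h2 : IsPPart p (x * n) 1 :=
        ⟨x * n, one_mul _, Commute.one_left _, ⟨0, by simp⟩, hreg⟩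
      exact Cfsg.Agent.H6.isPPart_unique hp h1 h2
    · rfl
  · intro h
    exact absurd (Finset.mem_univ _) h

/-- `p`-regular elements of `C(P)` conjugate modulo the normal `p`-subgroup `P` are conjugate -/
theorem isConj_of_isConj_mk (hp : p.Prime) (P : Subgroup X) [P.Normal] (hP : IsPGroup p P) {x y : X}
    (hx : ¬ p ∣ orderOf x) (hy : ¬ p ∣ orderOf y) (hyC : y ∈ Subgroup.centralizer (P : Set X))
    (h : IsConj (x : X ⧸ P) (y : X ⧸ P)) : IsConj x y := by
  obtain ⟨c, hc⟩ := isConj_iff.1 h
  obtain ⟨c, rfl⟩ := QuotientGroup.mk_surjective c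
  have h1 : ((c * x * c⁻¹ : X) : X ⧸ P) = (y : X ⧸ P) := by
    rw [← hc]; simp
  have hu : y⁻¹ * (c * x * c⁻¹) ∈ P := (QuotientGroup.eq).1 h1.symm
  set u := y⁻¹ * (c * x * c⁻¹) with hudef
  have e : c * x * c⁻¹ = y * u := by rw [hudef]; group
  have hcomm : Commute u y := Subgroup.mem_centralizer_iff.1 hyC u hu
  have hreg : ¬ p ∣ orderOf (y * u) := by
    rw [← e]
    have : orderOf (c * x * c⁻¹) = orderOf x :=
      orderOf_injective (MulAut.conj c).toMonoidHom (MulAut.conj c).injective x
    rwa [this]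
  have h2 : IsPPart p (y * u) u := by
    refine ⟨y, hcomm.eq, hcomm, ?_, hy⟩
    obtain ⟨k, hk⟩ := (IsPGroup.iff_orderOf.mp hP) ⟨u, hu⟩
    rw [Subgroup.orderOf_mk] at hk
    exact ⟨k, hk⟩
  have h3 : IsPPart p (y * u) 1 := ⟨y * u, one_mul _, Commute.one_left _, ⟨0, by simp⟩, hreg⟩
  have hu1 : u = 1 := Cfsg.Agent.H6.isPPart_unique hp h2 h3
  rw [hu1, mul_one] at e
  exact isConj_iff.2 ⟨c, e⟩

/-- the class predicate -/
def PK (p : ℕ) (P : Subgroup X) (C : ConjClasses X) : Prop :=
  ∀ n : X, ConjClasses.mk n = C → ¬ p ∣ orderOf n ∧ n ∈ Subgroup.centralizer (P : Set X)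

theorem card_blocks_le_classes (hM : IsPModular p M) (P : Subgroup X) [hPn : P.Normal]
    (hP : IsPGroup p P) :
    Nat.card {B : Set (IrrCharacter X) // IsPBlock M B} ≤ Nat.card {C : ConjClasses X // PK p P C} := by
  have hPr := isPrime_of_isPModular hM
  have htop := ne_top_of_isPModular hM
  apply card_blocks_le hM (fun B => IsPBlock M B) (PK p P) (fun B h => h)
  intro B B' hB hB' χ hχ C hC
  unfold PK at hC
  push Not at hC
  obtain ⟨n, hn, hn2⟩ := hC
  have hconj : IsConj n (Quotient.out C) := by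
    rw [← ConjClasses.mk_eq_mk_iff_isConj, hn]
    exact (Quotient.out_eq C).symm
  obtain ⟨c, hc⟩ := isConj_iff.1 hconj
  by_cases hreg : p ∣ orderOf n
  · have : orderOf (Quotient.out C) = orderOf n := by
      rw [← hc]
      exact orderOf_injective (MulAut.conj c).toMonoidHom (MulAut.conj c).injective n
    rw [blockCoeff_eq_zero_of_singular hM hB (by rw [this]; exact hreg), zero_mul]
    exact memLocalIdeal_zero htop
  · apply memLocalIdeal_mul_left (memLocalRing_blockCoeff hB _)
    apply QuotBlock.memLocalIdeal_centralChar_of_not_mem hM P hP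
    intro hmem
    apply hn2 hreg
    have hCn : (Subgroup.centralizer (P : Set X)).Normal := inferInstance
    have := hCn.conj_mem _ hmem c⁻¹
    rw [← hc] at this
    simpa [mul_assoc] using this

open Classical in
theorem card_classes_le_blocks (hM : IsPModular p M) (P : Subgroup X) [hPn : P.Normal]
    (hP : IsPGroup p P) (hidx : ¬ p ∣ P.index) :
    Nat.card {C : ConjClasses X // PK p P C} ≤
      Nat.card {B : Set (IrrCharacter X) // IsPBlock M B} := by
  have hPr := isPrime_of_isPModular hM
  have htop := ne_top_of_isPModular hM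
  have hp := hM.1
  have : Fintype (X ⧸ P) := Fintype.ofFinite _
  have : Fintype {B : Set (IrrCharacter X) // IsPBlock M B} := Fintype.ofFinite _
  have : Fintype {C : ConjClasses X // PK p P C} := Fintype.ofFinite _
  have hrep : ∀ B : {B : Set (IrrCharacter X) // IsPBlock M B}, ∃ χ : IrrCharacter X, χ ∈ B.1 :=
    fun B => pb_nonempty B.2
  choose rep hrep using hrep
  let A : Matrix {C : ConjClasses X // PK p P C} {B : Set (IrrCharacter X) // IsPBlock M B} ℂ :=
    fun K B => centralChar (rep B : X → ℂ) (Quotient.out K.1)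
  let Ω : Matrix {B : Set (IrrCharacter X) // IsPBlock M B} {C : ConjClasses X // PK p P C} ℂ :=
    fun B L => blockCoeff B.1 (Quotient.out L.1)
  let β : IrrCharacter (X ⧸ P) → {B : Set (IrrCharacter X) // IsPBlock M B} :=
    fun η => ⟨blockOf M (infl P η : X → ℂ), ⟨infl P η, rfl⟩⟩
  have hK : ∀ K : {C : ConjClasses X // PK p P C}, ¬ p ∣ orderOf (Quotient.out K.1) ∧
      Quotient.out K.1 ∈ Subgroup.centralizer (P : Set X) := fun K => K.2 _ (Quotient.out_eq K.1)
  have hcardne : (Nat.card (X ⧸ P) : ℂ) ≠ 0 := by exact_mod_cast Nat.card_pos.ne'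
  have hcong : ∀ K L, MemLocalIdeal M ((A * Ω) K L -
      (1 : Matrix {C : ConjClasses X // PK p P C} {C : ConjClasses X // PK p P C} ℂ) K L) := by
    intro K L
    obtain ⟨x, hx⟩ : ∃ x : X, x = Quotient.out K.1 := ⟨_, rfl⟩
    obtain ⟨y, hy⟩ : ∃ y : X, y = Quotient.out L.1 := ⟨_, rfl⟩
    let c : IrrCharacter (X ⧸ P) → ℂ := fun η => (Nat.card (X ⧸ P) : ℂ)⁻¹ *
      ((η : X ⧸ P → ℂ) 1 * conj ((η : X ⧸ P → ℂ) (y : X ⧸ P)))
    have hcR : ∀ η, MemLocalRing M (c η) := by
      intro η
      apply memLocalRing_mul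
      · apply memLocalRing_natCast_inv hM
        rwa [← Subgroup.index_eq_card]
      · apply memLocalRing_mul
        · exact memLocalRing_of_isIntegral htop
            (isCharacter_isIntegral (isCharacter_of_irr η.2) _)
        · exact memLocalRing_of_isIntegral htop
            (isCharacter_isIntegral (isCharacter_conj (isCharacter_of_irr η.2)) _)
    have hΩ : ∀ B, Ω B L = ∑ η ∈ Finset.univ.filter (fun η => β η = B), c η := by
      intro B
      show blockCoeff B.1 (Quotient.out L.1) = _
      rw [← hy, ← sum_blockCoeff_coset hM B.2 hP (hy ▸ (hK L).1) (hy ▸ (hK L).2),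
        ← blockCoeff_quotient]
      unfold blockCoeff
      rw [finsum_mem_eq_sum_filter', Finset.mul_sum]
      apply Finset.sum_congr
      · ext η
        simp only [Finset.mem_filter, Finset.mem_univ, true_and]
        constructor
        · intro h
          exact Subtype.ext (pb_eq_blockOf B.2 h).symm
        · intro h
          rw [← h]
          exact mem_blockOf_self (infl P η)
      · intro η _
        rfl
    have h1 : (A * Ω) K L = ∑ η, centralChar (rep (β η) : X → ℂ) x * c η := by
      rw [Matrix.mul_apply]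
      simp only [hΩ, Finset.mul_sum]
      rw [← Finset.sum_fiberwise Finset.univ β (fun η => centralChar (rep (β η) : X → ℂ) x * c η)]
      apply Finset.sum_congr rfl
      intro B _
      apply Finset.sum_congr rfl
      intro η hη
      rw [(Finset.mem_filter.1 hη).2, hx]
    have h2 : ∑ η, centralChar (infl P η : X → ℂ) x * c η =
        (1 : Matrix {C : ConjClasses X // PK p P C} {C : ConjClasses X // PK p P C} ℂ) K L := by
      have e : ∀ η : IrrCharacter (X ⧸ P), centralChar (infl P η : X → ℂ) x * c η =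
          ((Subgroup.centralizer ({(x : X ⧸ P)} : Set (X ⧸ P))).index : ℂ) *
            (Nat.card (X ⧸ P) : ℂ)⁻¹ *
            ((η : X ⧸ P → ℂ) (x : X ⧸ P) * conj ((η : X ⧸ P → ℂ) (y : X ⧸ P))) := by
        intro η
        unfold centralChar
        rw [QuotBlock.index_centralizer_quotient_eq P hP (hx ▸ (hK K).1) (hx ▸ (hK K).2),
          infl_apply, infl_apply, QuotientGroup.mk_one]
        have h0 := irr_apply_one_ne_zero η
        simp only [c]
        field_simp
      rw [Finset.sum_congr rfl (fun η _ => e η), ← Finset.mul_sum]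
      by_cases hKL : K = L
      · subst hKL
        rw [Matrix.one_apply_eq, hy, ← hx, sum_irr_mul_conj_self]
        have h3 : (Nat.card (X ⧸ P) : ℂ) =
            (Nat.card (Subgroup.centralizer ({(x : X ⧸ P)} : Set (X ⧸ P))) : ℂ) *
            ((Subgroup.centralizer ({(x : X ⧸ P)} : Set (X ⧸ P))).index : ℂ) := by
          rw [← Nat.cast_mul, Subgroup.card_mul_index]
        have h4 : (Nat.card (Subgroup.centralizer ({(x : X ⧸ P)} : Set (X ⧸ P))) : ℂ) ≠ 0 := by
          exact_mod_cast Nat.card_pos.ne'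
        have h5 : ((Subgroup.centralizer ({(x : X ⧸ P)} : Set (X ⧸ P))).index : ℂ) ≠ 0 := by
          exact_mod_cast Subgroup.index_ne_zero_of_finite
        rw [h3]
        field_simp
      · rw [Matrix.one_apply_ne hKL, sum_irr_mul_conj_of_not_isConj, mul_zero]
        intro hconj
        apply hKL
        apply Subtype.ext
        have h6 := isConj_of_isConj_mk hp P hP (hx ▸ (hK K).1) (hy ▸ (hK L).1) (hy ▸ (hK L).2) hconj
        rw [← Quotient.out_eq K.1, ← Quotient.out_eq L.1, ← hx, ← hy]
        exact ConjClasses.mk_eq_mk_iff_isConj.2 h6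
    rw [h1, ← h2, ← Finset.sum_sub_distrib]
    apply memLocalIdeal_sum
    intro η _
    rw [← sub_mul]
    apply memLocalIdeal_mul_right _ (hcR η)
    exact sameBlock_of_mem (β η).2 (hrep (β η)) (mem_blockOf_self (infl P η)) x
  have hdet := det_ne_zero_of_congr_one (M := M) (A * Ω) hcong
  have hunit : IsUnit (A * Ω) := (Matrix.isUnit_iff_isUnit_det _).2 (IsUnit.mk0 _ hdet)
  have hr := Matrix.rank_of_isUnit _ hunit
  have h1 := Matrix.rank_mul_le_left A Ω
  have h2 := Matrix.rank_le_card_width A
  rw [Nat.card_eq_fintype_card, Nat.card_eq_fintype_card]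
  omega

theorem card_blocks_eq (hM : IsPModular p M) (P : Subgroup X) [hPn : P.Normal]
    (hP : IsPGroup p P) (hidx : ¬ p ∣ P.index) :
    Nat.card {B : Set (IrrCharacter X) // IsPBlock M B} =
      Nat.card {C : ConjClasses X // PK p P C} :=
  le_antisymm (card_blocks_le_classes hM P hP) (card_classes_le_blocks hM P hP hidx)

end Cfsg.Agent.H25.SylowBlocks
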