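import Cfsg.Agent.H25.CentralProdU
import Cfsg.Agent.H25.Cover
import Cfsg.Agent.H25.Codeg2
import Cfsg.Agent.H25.CentralDefect2
import Cfsg.Agent.S0887
import Cfsg.Agent.S0969

/-!
# Characters of defect zero of a quotient (weights)
-/

set_option autoImplicit false

namespace Cfsg.Agent.H25.Weight

open Cfsg Cfsg.Agent.CharLib Cfsg.Agent.BlockLib
open scoped ComplexConjugate

/-- averages are preserved by pulling back along a surjective homomorphism -/
theorem sum_comp_of_surjective {A B : Type*} [Group A] [Group B] [Fintype A] [Fintype B]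
    (f : A →* B) (hf : Function.Surjective f) (F : B → ℂ) :
    (Nat.card A : ℂ)⁻¹ * ∑ a, F (f a) = (Nat.card B : ℂ)⁻¹ * ∑ b, F b := by
  classical
  obtain ⟨k, hk⟩ : ∃ k : ℕ, k = (Finset.univ.filter (fun a => f a = 1)).card := ⟨_, rfl⟩
  have hfib : ∀ b : B, (Finset.univ.filter (fun a => f a = b)).card = k := fun b => by
    rw [hk]; exact MonoidHom.card_fiber_eq_of_mem_range f (hf b) (hf 1)
  have h1 : ∀ F : B → ℂ, ∑ a, F (f a) = (k : ℂ) * ∑ b, F b := by
    intro F
    rw [← Finset.sum_fiberwise (s := Finset.univ) (g := f), Finset.mul_sum]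
    refine Finset.sum_congr rfl fun b _ => ?_
    rw [Finset.sum_congr rfl (fun a ha => by rw [(Finset.mem_filter.1 ha).2] :
      ∀ a ∈ Finset.univ.filter (fun a => f a = b), F (f a) = F b), Finset.sum_const,
      nsmul_eq_mul, hfib]
  have h2 : (Nat.card A : ℂ) = k * Nat.card B := by
    have := h1 (fun _ => 1)
    simpa [Nat.card_eq_fintype_card] using this
  have hB : (Nat.card B : ℂ) ≠ 0 := Nat.cast_ne_zero.2 Nat.card_pos.ne'
  have hA : (Nat.card A : ℂ) ≠ 0 := Nat.cast_ne_zero.2 Nat.card_pos.ne'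
  have hk0 : (k : ℂ) ≠ 0 := fun h => hA (by rw [h2, h, zero_mul])
  rw [h1, h2]
  field_simp

theorem classInner_comp_of_surjective {A B : Type*} [Group A] [Group B] [Fintype A] [Fintype B]
    (f : A →* B) (hf : Function.Surjective f) (φ ψ : B → ℂ) :
    classInner (fun a => φ (f a)) (fun a => ψ (f a)) = classInner φ ψ :=
  sum_comp_of_surjective f hf (fun b => φ b * conj (ψ b))

theorem sum_blockCoeff_mul_fun {H : Type*} [Group H] [Fintype H] (e : Set (IrrCharacter H))
    (Ψ : H → ℂ) :
    ∑ h, blockCoeff e h * Ψ h =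
      ∑ φ ∈ (Set.toFinite e).toFinset, (φ : H → ℂ) 1 * classInner Ψ (φ : H → ℂ) := by
  unfold blockCoeff classInner
  simp only [finsum_mem_eq_finite_toFinset_sum _ (Set.toFinite e)]
  simp only [Finset.mul_sum, Finset.sum_mul]
  rw [Finset.sum_comm]
  refine Finset.sum_congr rfl fun φ _ => Finset.sum_congr rfl fun h _ => ?_
  ring

/-- if the idempotent of `e` acts as the identity on a character, its constituents lie in `e` -/
theorem mem_of_sum_blockCoeff {H : Type*} [Group H] [Fintype H] (e : Set (IrrCharacter H))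
    {Ψ : H → ℂ} (hΨ : IsCharacter H Ψ) (hsum : ∑ h, blockCoeff e h * Ψ h = Ψ 1)
    {φ : IrrCharacter H} (hφ : classInner Ψ (φ : H → ℂ) ≠ 0) : φ ∈ e := by
  classical
  obtain ⟨m, rfl⟩ := isCharacter_iff.1 hΨ
  rw [sum_blockCoeff_mul_fun] at hsum
  simp only [classInner_sum_smul_irr] at hsum hφ
  have hφ' : m φ ≠ 0 := fun h => hφ (by rw [h]; simp)
  by_contra hne
  have h1 : ∑ ψ ∈ (Set.toFinite e).toFinset, charDegree (ψ : H → ℂ) * m ψ =
      ∑ ψ : IrrCharacter H, charDegree (ψ : H → ℂ) * m ψ := by
    have : ((∑ ψ ∈ (Set.toFinite e).toFinset, charDegree (ψ : H → ℂ) * m ψ : ℕ) : ℂ) =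
      ((∑ ψ : IrrCharacter H, charDegree (ψ : H → ℂ) * m ψ : ℕ) : ℂ) := by
      push_cast
      simp only [← charDegree_irr]
      rw [hsum]
      simp only [Finset.sum_apply, Pi.smul_apply, smul_eq_mul]
      exact Finset.sum_congr rfl fun ψ _ => mul_comm _ _
    exact_mod_cast this
  have h2 : ∑ ψ ∈ (Set.toFinite e).toFinset, charDegree (ψ : H → ℂ) * m ψ <
      ∑ ψ : IrrCharacter H, charDegree (ψ : H → ℂ) * m ψ := by
    refine Finset.sum_lt_sum_of_subset (Finset.subset_univ _) (Finset.mem_univ φ) ?_ ?_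
      (fun _ _ _ => Nat.zero_le _)
    · simpa using hne
    · exact Nat.mul_pos (charDegree_pos φ) (Nat.pos_of_ne_zero hφ')
  exact absurd h1 h2.ne

/-- constituents of a defect zero character on a normal subgroup have defect zero -/
theorem factorization_card_le {H : Type*} [Group H] [Fintype H] {p : ℕ} [Fact p.Prime]
    (χ : IrrCharacter H)
    (hdeg : (charDegree (χ : H → ℂ)).factorization p = (Nat.card H).factorization p)
    (N : Subgroup H) [N.Normal] [Fintype N] (θ : IrrCharacter N)
    (hθ : classInner (fun n : N => (χ : H → ℂ) n) (θ : N → ℂ) ≠ 0) :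
    (Nat.card N).factorization p ≤ (charDegree (θ : N → ℂ)).factorization p := by
  obtain ⟨h1, h2⟩ := Cfsg.Agent.S0887.result N χ χ.2 θ θ.2 hθ _ _ (charDegree_irr χ)
    (charDegree_irr θ)
  obtain ⟨k, hk⟩ := h1
  have hd := charDegree_pos θ
  have hc := charDegree_pos χ
  rw [hk, Nat.mul_div_cancel_left _ hd] at h2
  have hk0 : k ≠ 0 := by rintro rfl; rw [mul_zero] at hk; omega
  have hi : N.index ≠ 0 := Subgroup.index_ne_zero_of_finite
  have h3 : k.factorization p ≤ N.index.factorization p :=
    (Nat.factorization_le_iff_dvd hk0 hi).2 h2 p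
  have h4 : (Nat.card H).factorization p =
      (Nat.card N).factorization p + N.index.factorization p := by
    rw [← Subgroup.card_mul_index N, Nat.factorization_mul Nat.card_pos.ne' hi]
    rfl
  have h5 : (charDegree (χ : H → ℂ)).factorization p =
      (charDegree (θ : N → ℂ)).factorization p + k.factorization p := by
    rw [hk, Nat.factorization_mul hd.ne' hk0]
    rfl
  omega

/-- a group with a character of defect zero has no normal `p`-subgroup -/
theorem eq_bot_of_defect_zero {H : Type*} [Group H] [Finite H] {p : ℕ} [Fact p.Prime]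
    (χ : IrrCharacter H)
    (hdeg : (charDegree (χ : H → ℂ)).factorization p = (Nat.card H).factorization p)
    (R : Subgroup H) [R.Normal] (hR : IsPGroup p R) : R = ⊥ := by
  classical
  have := Fintype.ofFinite H
  obtain ⟨θ, hθ⟩ := exists_constituent (N := R) χ
  have h1 := factorization_card_le χ hdeg R θ hθ
  obtain ⟨n, hn⟩ := IsPGroup.iff_card.1 hR
  have hp : p.Prime := Fact.out
  rw [hn, hp.factorization_pow, Finsupp.single_eq_same] at h1
  have hd := charDegree_pos θ
  have h2 : p ^ n ∣ charDegree (θ : R → ℂ) :=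
    (hp.pow_dvd_iff_le_factorization hd.ne').2 h1
  have h3 : Nat.card R ≤ charDegree (θ : R → ℂ) := hn ▸ Nat.le_of_dvd hd h2
  have h4 := sum_sq_of_le_ker (G := R) ⊥
  have h5 : charDegree (θ : R → ℂ) ^ 2 ≤ Nat.card R := by
    rw [← Subgroup.index_bot, ← h4]
    have := Finset.single_le_sum (f := fun χ : IrrCharacter R =>
      if (⊥ : Subgroup R) ≤ kerSub χ then charDegree (χ : R → ℂ) ^ 2 else 0)
      (fun _ _ => Nat.zero_le _) (Finset.mem_univ θ)
    simpa using this
  have h6 : charDegree (θ : R → ℂ) = 1 := by nlinarith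
  rw [h6] at h3
  exact (Subgroup.card_le_one_iff_eq_bot R).1 h3

/-- a weight character is a defect zero character of the quotient -/
theorem exists_quotient_defect_zero {T : Type*} [Group T] [Finite T]
    {p : ℕ} (Q : Subgroup T) [Q.Normal] (χ : IrrCharacter T) (hQ : Q ≤ kerSub χ)
    (hdeg : (charDegree (χ : T → ℂ)).factorization p + (Nat.card Q).factorization p =
      (Nat.card T).factorization p) :
    ∃ χ' : IrrCharacter (T ⧸ Q), (∀ g : T, (χ' : T ⧸ Q → ℂ) (QuotientGroup.mk g) = (χ : T → ℂ) g) ∧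
      (charDegree (χ' : T ⧸ Q → ℂ)).factorization p = (Nat.card (T ⧸ Q)).factorization p := by
  obtain ⟨χ', hχ'⟩ := exists_quotient_irr χ Q hQ
  have hdeg' : (charDegree (χ' : T ⧸ Q → ℂ)).factorization p =
      (Nat.card (T ⧸ Q)).factorization p := by
    have h1 : charDegree (χ' : T ⧸ Q → ℂ) = charDegree (χ : T → ℂ) := by
      unfold charDegree; rw [← hχ' 1]; rfl
    have h2 : Nat.card T = Nat.card (T ⧸ Q) * Nat.card Q :=
      Subgroup.card_eq_card_quotient_mul_card_subgroup Q
    rw [h2, Nat.factorization_mul Nat.card_pos.ne' Nat.card_pos.ne'] at hdeg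
    rw [h1]
    have h3 : ((Nat.card (T ⧸ Q)).factorization + (Nat.card Q).factorization) p =
      (Nat.card (T ⧸ Q)).factorization p + (Nat.card Q).factorization p := rfl
    omega
  exact ⟨χ', hχ', hdeg'⟩

/-- the normal `p`-subgroups lie in the kernel part of a weight -/
theorem le_of_weight {T : Type*} [Group T] [Finite T]
    {p : ℕ} [Fact p.Prime] (Q : Subgroup T) [Q.Normal] (χ : IrrCharacter T) (hQ : Q ≤ kerSub χ)
    (hdeg : (charDegree (χ : T → ℂ)).factorization p + (Nat.card Q).factorization p =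
      (Nat.card T).factorization p) (R : Subgroup T) [hRn : R.Normal] (hR : IsPGroup p R) :
    R ≤ Q := by
  obtain ⟨χ', -, hd⟩ := exists_quotient_defect_zero Q χ hQ hdeg
  have h1 : (R.map (QuotientGroup.mk' Q)).Normal :=
    Subgroup.Normal.map hRn _ (QuotientGroup.mk'_surjective Q)
  have h2 := eq_bot_of_defect_zero χ' hd (R.map (QuotientGroup.mk' Q)) (hR.map _)
  intro r hr
  have h3 : QuotientGroup.mk' Q r ∈ R.map (QuotientGroup.mk' Q) := Subgroup.mem_map_of_mem _ hr
  rw [h2, Subgroup.mem_bot] at h3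
  exact (QuotientGroup.eq_one_iff r).1 h3

/-- a weight character restricted along a homomorphism with normal image -/
theorem exists_constituent_of_weight {T C : Type*} [Group T] [Fintype T] [Group C] [Fintype C]
    {p : ℕ} [Fact p.Prime] (Q : Subgroup T) [Q.Normal] (χ : IrrCharacter T) (hQ : Q ≤ kerSub χ)
    (hdeg : (charDegree (χ : T → ℂ)).factorization p + (Nat.card Q).factorization p =
      (Nat.card T).factorization p)
    (j : C →* T) (hj : j.range.Normal) :
    ∃ φ : IrrCharacter C, classInner (fun c => (χ : T → ℂ) (j c)) (φ : C → ℂ) ≠ 0 ∧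
      (Q.comap j).index.factorization p ≤ (charDegree (φ : C → ℂ)).factorization p := by
  classical
  obtain ⟨χ', hχ', hdeg'⟩ := exists_quotient_defect_zero Q χ hQ hdeg
  obtain ⟨π, hπ⟩ : ∃ π : C →* T ⧸ Q, π = (QuotientGroup.mk' Q).comp j := ⟨_, rfl⟩
  have hn : π.range.Normal := by
    have : π.range = j.range.map (QuotientGroup.mk' Q) := by
      rw [hπ, MonoidHom.map_range]
    rw [this]; exact hj.map _ (QuotientGroup.mk'_surjective Q)
  have := Fintype.ofFinite π.range
  obtain ⟨θ, hθ⟩ := exists_constituent (N := π.range) χ'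
  have h1 := factorization_card_le χ' hdeg' π.range θ hθ
  refine ⟨⟨fun c => (θ : π.range → ℂ) (π.rangeRestrict c),
    isIrrCharacter_comp_of_surjective θ.2 π.rangeRestrict π.rangeRestrict_surjective⟩, ?_, ?_⟩
  · have h2 := classInner_comp_of_surjective π.rangeRestrict π.rangeRestrict_surjective
      (fun n : π.range => (χ' : T ⧸ Q → ℂ) n) θ
    rw [← h2] at hθ
    have h3 : (fun c => (χ : T → ℂ) (j c)) =
        fun a => (χ' : T ⧸ Q → ℂ) ((π.rangeRestrict a : π.range) : T ⧸ Q) := by
      funext c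
      rw [← hχ']
      subst hπ
      rfl
    rw [h3]
    exact hθ
  · have h2 : Q.comap j = π.ker := by
      ext c
      rw [hπ, MonoidHom.mem_ker, Subgroup.mem_comap, MonoidHom.comp_apply,
        QuotientGroup.mk'_apply, QuotientGroup.eq_one_iff]
    rw [h2, Subgroup.index_ker]
    have h3 : charDegree (fun c => (θ : π.range → ℂ) (π.rangeRestrict c)) =
        charDegree (θ : π.range → ℂ) := by
      unfold charDegree; simp only [map_one]
    change _ ≤ (charDegree (fun c => (θ : π.range → ℂ) (π.rangeRestrict c))).factorization p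
    rw [h3]
    exact h1

end Cfsg.Agent.H25.Weight
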